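import Mathlib
import Cfsg.Agent.Lib.Coprime.Generation
import Cfsg.Agent.Lib.Coprime.Coset
import Cfsg.Agent.Lib.Coprime.Averaging
import Cfsg.Agent.Lib.Coprime.Three

set_option autoImplicit false
set_option linter.style.haveILetI false
set_option linter.unusedSectionVars false

/-!
# Fixed points of an abelian coprime group on `Y = [Y, A]`

If `A` is abelian acting coprimely on the solvable group `Y = [Y, A]` then `C_Y(A)` is generated by
the subgroups `C_Y(A) ∩ [C_Y(B), A]` for `A / B` cyclic.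
-/

namespace Cfsg.Agent.Lib.Components.CoprimeGen

open Subgroup
open Cfsg.Agent.Lib.Coprime.Coset Cfsg.Agent.Lib.Coprime.Generation
open Cfsg.Agent.Lib.Coprime.Three
open scoped commutatorElement

variable {G : Type*} [Group G] [Finite G]

theorem exists_comm_mul_fixed {A K : Subgroup G} (hAK : A ≤ normalizer (K : Set G))
    (hcop : (Nat.card A).Coprime (Nat.card K)) (hsolv : Group.IsSolvable A ∨ Group.IsSolvable K)
    {k : G} (hk : k ∈ K) :
    ∃ c ∈ ⁅K, A⁆, ∃ z ∈ K ⊓ centralizer (A : Set G), k = c * z := by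
  obtain ⟨c, hc, hkc⟩ := exists_mem_commutator_mul_centralizer hAK hcop hsolv (K.inv_mem hk)
  exact ⟨k⁻¹⁻¹ * c, hkc, c⁻¹, Subgroup.inv_mem _ hc, by group⟩

/-- the abelian quotient lemma -/
theorem mem_of_fixed_mod {A N N₁ : Subgroup G} (h1 : N₁ ≤ N) (hcomm : ⁅N, N⁆ ≤ N₁)
    (hAN : A ≤ normalizer (N : Set G)) (hAN₁ : A ≤ normalizer (N₁ : Set G))
    (hcop : (Nat.card A).Coprime (Nat.card N)) {c : G}
    (hc : c ∈ ⁅N, A⁆ ⊔ N₁) (hfix : ∀ a ∈ A, a * c * a⁻¹ = c) : c ∈ N₁ := by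
  classical
  haveI : Fintype A := Fintype.ofFinite A
  have hcN : c ∈ N := (sup_le (commutator_le_left_of_le_normalizer hAN) h1) hc
  haveI hnormal : (N₁.subgroupOf N).Normal := by
    refine ⟨fun n hn g => ?_⟩
    rw [Subgroup.mem_subgroupOf] at hn ⊢
    have : ((g * n * g⁻¹ : N) : G) = ⁅(g : G), (n : G)⁆ * (n : G) := by
      simp [commutatorElement_def]
    rw [this]
    exact N₁.mul_mem (hcomm (Subgroup.commutator_mem_commutator g.2 n.2)) hn
  letI instC : CommGroup (N ⧸ N₁.subgroupOf N) :=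
    { (inferInstance : Group (N ⧸ N₁.subgroupOf N)) with
      mul_comm := by
        intro x y
        induction x using QuotientGroup.induction_on with
        | H x =>
        induction y using QuotientGroup.induction_on with
        | H y =>
        rw [← QuotientGroup.mk_mul, ← QuotientGroup.mk_mul, QuotientGroup.eq,
          Subgroup.mem_subgroupOf]
        have : (((x * y)⁻¹ * (y * x) : N) : G) = ⁅((y : G))⁻¹, ((x : G))⁻¹⁆ := by
          simp [commutatorElement_def]; group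
        rw [this]
        exact hcomm (Subgroup.commutator_mem_commutator (inv_mem y.2) (inv_mem x.2)) }
  let φ := Cfsg.Agent.Lib.Coprime.Averaging.conjHom A N hAN
  let e : A → (N →* N ⧸ N₁.subgroupOf N) := fun a =>
    (QuotientGroup.mk' (N₁.subgroupOf N)).comp (φ a).toMonoidHom
  let h : N →* N ⧸ N₁.subgroupOf N := ∏ a : A, e a
  have hh : ∀ x : N, h x = ∏ a : A, e a x := fun x => by
    simp only [h, MonoidHom.finsetProd_apply]
  have hφ : ∀ (a b : A) (x : N), φ a (φ b x) = φ (a * b) x := fun a b x => by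
    simp [map_mul]
  -- `h` kills `N₁`
  have hk1 : ∀ n (hn : n ∈ N₁), h ⟨n, h1 hn⟩ = 1 := by
    intro n hn
    rw [hh]
    apply Finset.prod_eq_one
    intro a _
    change ((φ a ⟨n, h1 hn⟩ : N) : N ⧸ N₁.subgroupOf N) = 1
    rw [QuotientGroup.eq_one_iff, Subgroup.mem_subgroupOf]
    rw [Cfsg.Agent.Lib.Coprime.Averaging.conjHom_coe]
    exact (mem_normalizer_iff.mp (hAN₁ a.2) n).mp hn
  have hinv : ∀ (b : A) (x : N), h (φ b x) = h x := by
    intro b x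
    rw [hh, hh]
    refine Fintype.prod_equiv (Equiv.mulRight b) _ _ (fun a => ?_)
    change ((φ a (φ b x) : N) : N ⧸ N₁.subgroupOf N) = ((φ (a * b) x : N) : N ⧸ N₁.subgroupOf N)
    rw [hφ]
  have hk2 : ⁅N, A⁆ ≤ (h.ker).map N.subtype := by
    rw [Subgroup.commutator_le]
    intro x hx b hb
    refine ⟨⟨x, hx⟩ * (φ ⟨b, hb⟩ ⟨x, hx⟩)⁻¹, ?_, ?_⟩
    · change h _ = 1
      rw [map_mul, map_inv, hinv, mul_inv_cancel]
    · change x * (b * x * b⁻¹)⁻¹ = ⁅x, b⁆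
      simp only [commutatorElement_def]
      group
  have hk3 : N₁ ≤ (h.ker).map N.subtype := fun n hn => ⟨⟨n, h1 hn⟩, hk1 n hn, rfl⟩
  obtain ⟨c', hc', hcc'⟩ := (sup_le hk2 hk3) hc
  have hc'e : c' = ⟨c, hcN⟩ := Subtype.ext hcc'
  subst hc'e
  have hfix' : ∀ a : A, φ a ⟨c, hcN⟩ = ⟨c, hcN⟩ := by
    intro a
    apply Subtype.ext
    rw [Cfsg.Agent.Lib.Coprime.Averaging.conjHom_coe]
    exact hfix a a.2
  have hval : h ⟨c, hcN⟩ = ((⟨c, hcN⟩ : N) : N ⧸ N₁.subgroupOf N) ^ Fintype.card A := by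
    rw [hh, ← Finset.card_univ, ← Finset.prod_const]
    apply Finset.prod_congr rfl
    intro a _
    change ((φ a ⟨c, hcN⟩ : N) : N ⧸ N₁.subgroupOf N) = _
    rw [hfix']
  have hone : ((⟨c, hcN⟩ : N) : N ⧸ N₁.subgroupOf N) ^ Fintype.card A = 1 := by
    rw [← hval]; exact hc'
  have ho1 := orderOf_dvd_of_pow_eq_one hone
  have ho2 : orderOf ((⟨c, hcN⟩ : N) : N ⧸ N₁.subgroupOf N) ∣ Nat.card N := by
    refine (_root_.orderOf_dvd_natCard _).trans ?_
    exact Subgroup.card_quotient_dvd_card _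
  have hcop' : (Fintype.card A).Coprime (Nat.card N) := by
    rwa [← Nat.card_eq_fintype_card]
  have ho : orderOf ((⟨c, hcN⟩ : N) : N ⧸ N₁.subgroupOf N) = 1 :=
    Nat.eq_one_of_dvd_coprimes hcop' ho1 ho2
  rw [orderOf_eq_one_iff, QuotientGroup.eq_one_iff, Subgroup.mem_subgroupOf] at ho
  exact ho

/-- "Good" step: from a generation statement modulo `N₁` to the fixed points. -/
theorem exists_mul_of_le {A W N N₁ : Subgroup G} (hW : W ≤ centralizer (A : Set G))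
    (h1 : N₁ ≤ N) (hcomm : ⁅N, N⁆ ≤ N₁)
    (hAN : A ≤ normalizer (N : Set G)) (hAN₁ : A ≤ normalizer (N₁ : Set G))
    (hcop : (Nat.card A).Coprime (Nat.card N))
    (hN : N ≤ (⁅N, A⁆ ⊔ N₁) ⊔ (W ⊓ N)) {x : G} (hx : x ∈ N) (hxA : x ∈ centralizer (A : Set G)) :
    ∃ w ∈ W, ∃ n ∈ N₁, x = w * n := by
  have hcN : ⁅N, A⁆ ≤ N := commutator_le_left_of_le_normalizer hAN
  have hRN : ⁅N, A⁆ ⊔ N₁ ≤ N := sup_le hcN h1
  have hconj : ∀ y ∈ N, ∀ n ∈ N₁, y * n * y⁻¹ ∈ N₁ := by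
    intro y hy n hn
    have : y * n * y⁻¹ = ⁅y, n⁆ * n := by simp [commutatorElement_def]
    rw [this]
    exact N₁.mul_mem (hcomm (Subgroup.commutator_mem_commutator hy (h1 hn))) hn
  have hnorm : W ⊓ N ≤ normalizer ((⁅N, A⁆ ⊔ N₁ : Subgroup G) : Set G) := by
    intro w hw
    apply mem_normalizer_of_conj_mem
    intro r hr
    have : w * r * w⁻¹ = ⁅w, r⁆ * r := by simp [commutatorElement_def]
    rw [this]
    refine Subgroup.mul_mem _ ?_ hr
    apply (le_sup_right : N₁ ≤ ⁅N, A⁆ ⊔ N₁)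
    exact hcomm (Subgroup.commutator_mem_commutator hw.2 (hRN hr))
  obtain ⟨r, hr, w, hw, rfl⟩ := (mem_sup_iff_of_le_normalizer hnorm x).mp (hN hx)
  have hwA : w ∈ centralizer (A : Set G) := hW hw.1
  have hrA : r ∈ N₁ := by
    refine mem_of_fixed_mod h1 hcomm hAN hAN₁ hcop hr ?_
    intro a ha
    have h2 := mem_centralizer_iff.mp hxA a ha
    have h3 := mem_centralizer_iff.mp hwA a ha
    have h4 : r = (r * w) * w⁻¹ := by group
    have h5 : a * (r * w) = (r * w) * a := h2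
    have h6 : a * w = w * a := h3
    have h7 : a * w⁻¹ = w⁻¹ * a := by
      rw [eq_inv_mul_iff_mul_eq, ← mul_assoc, ← h6, mul_assoc, mul_inv_cancel, mul_one]
    calc a * r * a⁻¹ = a * ((r * w) * w⁻¹) * a⁻¹ := by rw [← h4]
      _ = (a * (r * w)) * w⁻¹ * a⁻¹ := by group
      _ = (r * w) * (a * w⁻¹) * a⁻¹ := by rw [h5]; group
      _ = (r * w) * (w⁻¹ * a) * a⁻¹ := by rw [h7]
      _ = r := by group
  refine ⟨w, hw.1, w⁻¹ * r * w, ?_, by group⟩
  have := hconj w⁻¹ (inv_mem hw.2) r hrA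
  simpa using this

/-- The hom property of `v ↦ ⁅v, t⁆` modulo `N₁`, split by a subgroup `B` centralizing `t`. -/
theorem comm_mem_of_split {A B V N N₁ D : Subgroup G} {t : G}
    (hBA : B ≤ A) (hBV : B ≤ normalizer (V : Set G))
    (hcopB : (Nat.card B).Coprime (Nat.card V)) (hsolvB : Group.IsSolvable B)
    (hAN : A ≤ normalizer (N : Set G))
    (hVN : ∀ v ∈ V, ∀ n ∈ N, ⁅v, n⁆ ∈ N₁)
    (hN₁D : N₁ ≤ D) (hDN : D ≤ N) (hcD : ⁅N, A⁆ ≤ D)
    (htN : ∀ v ∈ V, ⁅v, t⁆ ∈ N) (htB : ∀ b ∈ B, b * t = t * b)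
    (hz : ∀ z ∈ V ⊓ centralizer (B : Set G), ⁅z, t⁆ ∈ D) {v : G} (hv : v ∈ V) : ⁅v, t⁆ ∈ D := by
  have hVconj : ∀ c ∈ V, ∀ g ∈ D, c * g * c⁻¹ ∈ D := by
    intro c hc g hg
    have : c * g * c⁻¹ = ⁅c, g⁆ * g := by simp [commutatorElement_def]
    rw [this]
    exact D.mul_mem (hN₁D (hVN c hc g (hDN hg))) hg
  have hmulf : ∀ a b : G, ⁅a * b, t⁆ = (a * ⁅b, t⁆ * a⁻¹) * ⁅a, t⁆ := by
    intro a b
    simp only [commutatorElement_def]; group
  have key : ∀ c ∈ ⁅V, B⁆, c ∈ V ∧ ⁅c, t⁆ ∈ D := by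
    intro c hc
    induction hc using Subgroup.closure_induction with
    | mem y hy =>
      obtain ⟨x, hx, b, hb, rfl⟩ := hy
      have hxb : ⁅x, b⁆ ∈ V := commutator_le_left_of_le_normalizer hBV
        (Subgroup.commutator_mem_commutator hx hb)
      refine ⟨hxb, ?_⟩
      set g := ⁅x, t⁆ with hg
      have hgN : g ∈ N := htN x hx
      set g' := x⁻¹ * g⁻¹ * x with hg'
      have hg'N : g' ∈ N := by
        have : g' = ⁅x⁻¹, g⁻¹⁆ * g⁻¹ := by
          rw [hg']; simp [commutatorElement_def]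
        rw [this]
        exact N.mul_mem (hDN (hN₁D (hVN _ (inv_mem hx) _ (inv_mem hgN)))) (inv_mem hgN)
      set g'' := b * g' * b⁻¹ with hg''
      have hg''N : g'' ∈ N := (mem_normalizer_iff.mp (hAN (hBA hb)) g').mp hg'N
      have hbt : b * t * b⁻¹ = t := by
        rw [htB b hb]; group
      have hy : ⁅b * x⁻¹ * b⁻¹, t⁆ = g'' := by
        have h0 : ⁅b * x⁻¹ * b⁻¹, b * t * b⁻¹⁆ = b * ⁅x⁻¹, t⁆ * b⁻¹ := by
          simp only [commutatorElement_def]; group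
        rw [hbt] at h0
        rw [h0, hg'', hg', hg]
        simp only [commutatorElement_def]; group
      have hform : ⁅⁅x, b⁆, t⁆ = ⁅x, g''⁆ * (⁅b, g'⁆ * ⁅x⁻¹, g⁻¹⁆) := by
        have h1 : ⁅x, b⁆ = x * (b * x⁻¹ * b⁻¹) := by
          simp only [commutatorElement_def]; group
        rw [h1, hmulf, hy, ← hg]
        have e3 : ⁅x⁻¹, g⁻¹⁆ = g' * g := by
          rw [hg']; simp only [commutatorElement_def]; group
        have e4 : ⁅b, g'⁆ = g'' * g'⁻¹ := by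
          rw [hg'']; simp only [commutatorElement_def]
        have e5 : ⁅x, g''⁆ = x * g'' * x⁻¹ * g''⁻¹ := by
          simp only [commutatorElement_def]
        rw [e3, e4, e5]
        group
      rw [hform]
      refine D.mul_mem (hN₁D (hVN x hx _ hg''N)) (D.mul_mem ?_ (hN₁D (hVN _ (inv_mem hx) _ (inv_mem hgN))))
      have h2 : ⁅b, g'⁆ = ⁅g', b⁆⁻¹ := by
        simp only [commutatorElement_def]; group
      rw [h2]
      exact D.inv_mem (hcD (Subgroup.commutator_mem_commutator hg'N (hBA hb)))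
    | one => exact ⟨V.one_mem, by simp⟩
    | mul c₁ c₂ _ _ h₁ h₂ =>
      refine ⟨V.mul_mem h₁.1 h₂.1, ?_⟩
      rw [hmulf]
      exact D.mul_mem (hVconj _ h₁.1 _ h₂.2) h₁.2
    | inv c _ h₁ =>
      refine ⟨V.inv_mem h₁.1, ?_⟩
      have h3 : ⁅c⁻¹, t⁆ = c⁻¹ * ⁅c, t⁆⁻¹ * c⁻¹⁻¹ := by
        simp only [commutatorElement_def]; group
      rw [h3]
      exact hVconj _ (V.inv_mem h₁.1) _ (D.inv_mem h₁.2)
  obtain ⟨c, hc, z, hz', rfl⟩ := exists_comm_mul_fixed hBV hcopB (Or.inl hsolvB) hv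
  rw [hmulf]
  exact D.mul_mem (hVconj _ (key c hc).1 _ (hz z hz')) (key c hc).2

/-- The subgroup of elements normalizing `V` all of whose commutators with `V` are in `E`. -/
def commStab (V E : Subgroup G) : Subgroup G where
  carrier := {y | y ∈ normalizer (V : Set G) ∧ ∀ v ∈ V, ⁅v, y⁆ ∈ E}
  one_mem' := ⟨one_mem _, fun v _ => by simp⟩
  mul_mem' := by
    rintro y₁ y₂ ⟨h1, h2⟩ ⟨h3, h4⟩
    refine ⟨mul_mem h1 h3, fun v hv => ?_⟩
    have : ⁅v, y₁ * y₂⁆ = ⁅v, y₂⁆ * ⁅y₂ * v * y₂⁻¹, y₁⁆ := by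
      simp only [commutatorElement_def]; group
    rw [this]
    exact E.mul_mem (h4 v hv) (h2 _ ((mem_normalizer_iff.mp h3 v).mp hv))
  inv_mem' := by
    rintro y ⟨h1, h2⟩
    refine ⟨inv_mem h1, fun v hv => ?_⟩
    have : ⁅v, y⁻¹⁆ = ⁅y⁻¹ * v * y, y⁆⁻¹ := by
      simp only [commutatorElement_def]; group
    rw [this]
    refine E.inv_mem (h2 _ ?_)
    have := (mem_normalizer_iff.mp (inv_mem h1) v).mp hv
    simpa using this

/-- The context. -/
structure Ctx (A Y W : Subgroup G) : Prop where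
  hAc : IsMulCommutative A
  hAY : A ≤ normalizer (Y : Set G)
  hcop : (Nat.card A).Coprime (Nat.card Y)
  hWY : W ≤ Y
  hWA : W ≤ centralizer (A : Set G)
  hT : ∀ B ∈ cocyclicSubgroups A,
    (Y ⊓ centralizer (A : Set G)) ⊓ ⁅Y ⊓ centralizer (B : Set G), A⁆ ≤ W

variable {A Y W : Subgroup G}

theorem Ctx.solvA (ctx : Ctx A Y W) : Group.IsSolvable A := by
  apply Group.isSolvable_of_comm
  exact ctx.hAc.is_comm.comm

theorem Ctx.solvS (ctx : Ctx A Y W) {B : Subgroup G} (hB : B ≤ A) : Group.IsSolvable B := by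
  apply Group.isSolvable_of_comm
  intro a b
  have := ctx.hAc.is_comm.comm ⟨a, hB a.2⟩ ⟨b, hB b.2⟩
  have h2 : (a : G) * (b : G) = (b : G) * (a : G) := Subtype.ext_iff.mp this
  exact Subtype.ext h2

theorem Ctx.cop_le (ctx : Ctx A Y W) {K : Subgroup G} (hK : K ≤ Y) :
    (Nat.card A).Coprime (Nat.card K) :=
  Nat.Coprime.coprime_dvd_right (Subgroup.card_dvd_of_le hK) ctx.hcop

theorem Ctx.cop_le₂ (ctx : Ctx A Y W) {B K : Subgroup G} (hB : B ≤ A) (hK : K ≤ Y) :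
    (Nat.card B).Coprime (Nat.card K) :=
  Nat.Coprime.coprime_dvd_left (Subgroup.card_dvd_of_le hB) (ctx.cop_le hK)

/-- `A` normalizes `Y ⊓ C(B)`. -/
theorem Ctx.norm_C (ctx : Ctx A Y W) {B : Subgroup G} (hB : B ≤ A) :
    A ≤ normalizer ((Y ⊓ centralizer (B : Set G) : Subgroup G) : Set G) := by
  intro a ha
  apply mem_normalizer_of_conj_mem
  rintro x ⟨hx1, hx2⟩
  refine ⟨(mem_normalizer_iff.mp (ctx.hAY ha) x).mp hx1, ?_⟩
  have hx2' : x ∈ centralizer (B : Set G) := hx2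
  change a * x * a⁻¹ ∈ centralizer (B : Set G)
  rw [mem_centralizer_iff] at hx2' ⊢
  intro b hb
  have h1 := ctx.hAc.is_comm.comm ⟨a, ha⟩ ⟨b, hB hb⟩
  have h2 : a * b = b * a := Subtype.ext_iff.mp h1
  have h3 : b * a⁻¹ = a⁻¹ * b := by
    rw [eq_inv_mul_iff_mul_eq, ← mul_assoc, h2, mul_assoc, mul_inv_cancel, mul_one]
  calc b * (a * x * a⁻¹) = a * b * x * a⁻¹ := by rw [h2]; group
    _ = a * (x * b) * a⁻¹ := by rw [mul_assoc a b x, hx2' b hb]
    _ = a * x * (b * a⁻¹) := by group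
    _ = a * x * a⁻¹ * b := by rw [h3]; group

/-- the commutators `⁅v, t⁆` with `t ∈ T(B)` -/
theorem Ctx.comm_T (ctx : Ctx A Y W) {B V N N₁ : Subgroup G} (hB : B ∈ cocyclicSubgroups A)
    (hVY : V ≤ Y) (hAV : A ≤ normalizer (V : Set G)) (hNY : N ≤ Y)
    (hAN : A ≤ normalizer (N : Set G)) (hAN₁ : N₁ ≤ N)
    (hVN : ∀ v ∈ V, ∀ n ∈ N, ⁅v, n⁆ ∈ N₁)
    {t : G} (ht : t ∈ ⁅Y ⊓ centralizer (B : Set G), A⁆)
    (htN : ∀ v ∈ V, ⁅v, t⁆ ∈ N) {v : G} (hv : v ∈ V) :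
    ⁅v, t⁆ ∈ (⁅N, A⁆ ⊔ N₁) ⊔ (W ⊓ N) := by
  have hBA : B ≤ A := hB.1
  have hnC := ctx.norm_C hBA
  have hTle : ⁅Y ⊓ centralizer (B : Set G), A⁆ ≤ Y ⊓ centralizer (B : Set G) :=
    commutator_le_left_of_le_normalizer hnC
  have hcN : ⁅N, A⁆ ≤ N := commutator_le_left_of_le_normalizer hAN
  have hDN : (⁅N, A⁆ ⊔ N₁) ⊔ (W ⊓ N) ≤ N := sup_le (sup_le hcN hAN₁) inf_le_right
  refine comm_mem_of_split hBA (hBA.trans hAV) (ctx.cop_le₂ hBA hVY) (ctx.solvS hBA) hAN hVN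
    (le_sup_of_le_left le_sup_right) hDN (le_sup_of_le_left le_sup_left) htN ?_ ?_ hv
  · intro b hb
    exact (mem_centralizer_iff.mp (hTle ht).2 b hb)
  · rintro z ⟨hzV, hzB⟩
    -- `⁅z, t⁆ ∈ T(B) ∩ N`
    have hzC : z ∈ Y ⊓ centralizer (B : Set G) := ⟨hVY hzV, hzB⟩
    have h1 : ⁅z, t⁆ ∈ ⁅Y ⊓ centralizer (B : Set G), A⁆ := by
      have h2 : z * t * z⁻¹ ∈ ⁅Y ⊓ centralizer (B : Set G), A⁆ :=
        (mem_normalizer_iff.mp (commutator_le_normalizer_left hnC hzC) t).mp ht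
      have h3 : ⁅z, t⁆ = (z * t * z⁻¹) * t⁻¹ := by
        simp only [commutatorElement_def]
      rw [h3]
      exact Subgroup.mul_mem _ h2 (Subgroup.inv_mem _ ht)
    have h4 : ⁅z, t⁆ ∈ N := htN z hzV
    set X := ⁅Y ⊓ centralizer (B : Set G), A⁆ ⊓ N with hX
    have hAX : A ≤ normalizer (X : Set G) := by
      intro a ha
      apply mem_normalizer_of_conj_mem
      rintro x ⟨hx1, hx2⟩
      exact ⟨(mem_normalizer_iff.mp (commutator_le_normalizer_right hnC ha) x).mp hx1,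
        (mem_normalizer_iff.mp (hAN ha) x).mp hx2⟩
    have hXY : X ≤ Y := inf_le_right.trans hNY
    obtain ⟨c, hc, f, hf, hcf⟩ := exists_comm_mul_fixed hAX (ctx.cop_le hXY)
      (Or.inl ctx.solvA) (⟨h1, h4⟩ : ⁅z, t⁆ ∈ X)
    rw [hcf]
    refine Subgroup.mul_mem _ ?_ ?_
    · exact Subgroup.mem_sup_left (Subgroup.mem_sup_left
        (Subgroup.commutator_mono inf_le_right le_rfl hc))
    · exact Subgroup.mem_sup_right ⟨ctx.hT B hB ⟨⟨hXY hf.1, hf.2⟩, hf.1.1⟩, hf.1.2⟩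


/-- Lemma A: the `⁅V, Y⁆`-steps. -/
theorem Ctx.stepA (ctx : Ctx A Y W)
    (hgen : Y ≤ ⨆ B ∈ cocyclicSubgroups A, ⁅Y ⊓ centralizer (B : Set G), A⁆)
    {V N N₁ : Subgroup G} (hVY : V ≤ Y) (hAV : A ≤ normalizer (V : Set G))
    (hYV : Y ≤ normalizer (V : Set G)) (hNY : N ≤ Y)
    (hAN : A ≤ normalizer (N : Set G)) (hAN₁ : A ≤ normalizer (N₁ : Set G)) (h1 : N₁ ≤ N)
    (hVYN : ⁅V, Y⁆ ≤ N) (hVN : ∀ v ∈ V, ∀ n ∈ N, ⁅v, n⁆ ∈ N₁)
    (hNle : N ≤ ⁅V, Y⁆ ⊔ N₁) (hcomm : ⁅N, N⁆ ≤ N₁) {x : G} (hx : x ∈ N)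
    (hxA : x ∈ centralizer (A : Set G)) : ∃ w ∈ W, ∃ n ∈ N₁, x = w * n := by
  refine exists_mul_of_le ctx.hWA h1 hcomm hAN hAN₁ (ctx.cop_le hNY) ?_ hx hxA
  have hstab : Y ≤ commStab V ((⁅N, A⁆ ⊔ N₁) ⊔ (W ⊓ N)) := by
    refine hgen.trans (iSup₂_le fun B hB t ht => ?_)
    have hnC := ctx.norm_C hB.1
    have hTY : ⁅Y ⊓ centralizer (B : Set G), A⁆ ≤ Y :=
      (commutator_le_left_of_le_normalizer hnC).trans inf_le_left
    refine ⟨hYV (hTY ht), fun v hv => ?_⟩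
    exact ctx.comm_T hB hVY hAV hNY hAN h1 hVN ht
      (fun v hv => hVYN (Subgroup.commutator_mem_commutator hv (hTY ht))) hv
  refine hNle.trans (sup_le ?_ (le_sup_of_le_left le_sup_right))
  rw [Subgroup.commutator_le]
  intro v hv y hy
  exact (hstab hy).2 v hv

/-- Lemma B: the `⁅X, X⁆`-step. -/
theorem Ctx.stepB (ctx : Ctx A Y W) {X N₁ : Subgroup G} (hXY : X ≤ Y)
    (hAX : A ≤ normalizer (X : Set G)) (hYX : Y ≤ normalizer (X : Set G))
    (hAN₁ : A ≤ normalizer (N₁ : Set G)) (hYN₁ : Y ≤ normalizer (N₁ : Set G))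
    (h1 : N₁ ≤ ⁅X, X⁆) (hcY : ⁅⁅X, X⁆, Y⁆ ≤ N₁)
    (hP : ∀ x ∈ X, x ∈ centralizer (A : Set G) → ∃ w ∈ W, ∃ d ∈ ⁅X, X⁆, x = w * d)
    {x : G} (hx : x ∈ ⁅X, X⁆) (hxA : x ∈ centralizer (A : Set G)) :
    ∃ w ∈ W, ∃ n ∈ N₁, x = w * n := by
  set N := ⁅X, X⁆ with hN
  have hNX : N ≤ X := by
    rw [hN, Subgroup.commutator_le]
    intro a ha b hb
    have : ⁅a, b⁆ = a * (b * a⁻¹ * b⁻¹) := by
      simp only [commutatorElement_def]; group
    rw [this]
    exact X.mul_mem ha ((mem_normalizer_iff.mp (hYX (hXY hb)) _).mp (X.inv_mem ha))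
  have hNY : N ≤ Y := hNX.trans hXY
  have hAN : A ≤ normalizer (N : Set G) := fun a ha =>
    commutator_mem_normalizer (hAX ha) (hAX ha)
  have hVN : ∀ v ∈ X, ∀ n ∈ N, ⁅v, n⁆ ∈ N₁ := by
    intro v hv n hn
    have : ⁅v, n⁆ = ⁅n, v⁆⁻¹ := by
      simp only [commutatorElement_def]; group
    rw [this]
    exact N₁.inv_mem (hcY (Subgroup.commutator_mem_commutator hn (hXY hv)))
  have hcomm : ⁅N, N⁆ ≤ N₁ := (Subgroup.commutator_mono le_rfl hNY).trans hcY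
  refine exists_mul_of_le ctx.hWA h1 hcomm hAN hAN₁ (ctx.cop_le hNY) ?_ hx hxA
  set D := (⁅N, A⁆ ⊔ N₁) ⊔ (W ⊓ N) with hD
  have hcN : ⁅N, A⁆ ≤ N := commutator_le_left_of_le_normalizer hAN
  have hDN : D ≤ N := sup_le (sup_le hcN h1) inf_le_right
  have hN₁D : N₁ ≤ D := le_sup_of_le_left le_sup_right
  have hcD : ⁅N, A⁆ ≤ D := le_sup_of_le_left le_sup_left
  have hXN : ∀ a ∈ X, ∀ b ∈ X, ⁅a, b⁆ ∈ N := fun a ha b hb =>
    Subgroup.commutator_mem_commutator ha hb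
  -- elements of `X` fixed by `A`
  have hfixed : ∀ s ∈ X, s ∈ centralizer (A : Set G) → s ∈ commStab X D := by
    intro s hs hsA
    obtain ⟨w, hw, d, hd, rfl⟩ := hP s hs hsA
    have hwX : w ∈ X := by
      have : w = (w * d) * d⁻¹ := by group
      rw [this]
      exact X.mul_mem hs (X.inv_mem (hNX hd))
    have hwA := ctx.hWA hw
    refine ⟨hYX (hXY hs), fun v hv => ?_⟩
    have e1 : ⁅v, w * d⁆ = ⁅v, w⁆ * (w * ⁅v, d⁆ * w⁻¹) := by
      simp only [commutatorElement_def]; group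
    rw [e1]
    refine D.mul_mem ?_ (hN₁D ((mem_normalizer_iff.mp (hYN₁ (ctx.hWY hw)) _).mp (hVN v hv d hd)))
    refine comm_mem_of_split (B := A) le_rfl hAX (ctx.cop_le hXY) ctx.solvA hAN hVN hN₁D hDN hcD
      (fun v hv => hXN v hv w hwX) ?_ ?_ hv
    · intro b hb
      exact (mem_centralizer_iff.mp hwA b hb)
    · rintro z ⟨hzX, hzA⟩
      obtain ⟨w₂, hw₂, d₂, hd₂, rfl⟩ := hP z hzX hzA
      have hw₂X : w₂ ∈ X := by
        have : w₂ = (w₂ * d₂) * d₂⁻¹ := by group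
        rw [this]
        exact X.mul_mem hzX (X.inv_mem (hNX hd₂))
      have e2 : ⁅w₂ * d₂, w⁆ = (w₂ * ⁅d₂, w⁆ * w₂⁻¹) * ⁅w₂, w⁆ := by
        simp only [commutatorElement_def]; group
      rw [e2]
      refine D.mul_mem (hN₁D ?_) ?_
      · exact (mem_normalizer_iff.mp (hYN₁ (ctx.hWY hw₂)) _).mp
          (hcY (Subgroup.commutator_mem_commutator hd₂ (ctx.hWY hw)))
      · refine Subgroup.mem_sup_right ⟨?_, hXN _ hw₂X _ hwX⟩
        have : ⁅w₂, w⁆ = w₂ * w * w₂⁻¹ * w⁻¹ := by simp only [commutatorElement_def]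
        rw [this]
        exact W.mul_mem (W.mul_mem (W.mul_mem hw₂ hw) (W.inv_mem hw₂)) (W.inv_mem hw)
  -- generation
  have hXstab : X ≤ commStab X D := by
    refine (le_iSup_cocyclic A X ctx.hAc hAX (ctx.cop_le hXY)).trans (iSup₂_le fun B hB => ?_)
    rintro s ⟨hsX, hsB⟩
    have hBA : B ≤ A := hB.1
    set XB := X ⊓ centralizer (B : Set G) with hXB
    have hnC := ctx.norm_C hBA
    have hAXB : A ≤ normalizer (XB : Set G) := by
      intro a ha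
      apply mem_normalizer_of_conj_mem
      rintro y ⟨hy1, hy2⟩
      have := (mem_normalizer_iff.mp (hnC ha) y).mp ⟨hXY hy1, hy2⟩
      exact ⟨(mem_normalizer_iff.mp (hAX ha) y).mp hy1, this.2⟩
    obtain ⟨c, hc, z, hz, rfl⟩ := exists_comm_mul_fixed hAXB (ctx.cop_le (inf_le_left.trans hXY))
      (Or.inl ctx.solvA) (⟨hsX, hsB⟩ : s ∈ XB)
    refine (commStab X D).mul_mem ?_ (hfixed z hz.1.1 hz.2)
    have hcXB : c ∈ XB := commutator_le_left_of_le_normalizer hAXB hc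
    have hcT : c ∈ ⁅Y ⊓ centralizer (B : Set G), A⁆ :=
      Subgroup.commutator_mono (inf_le_inf_right _ hXY) le_rfl hc
    refine ⟨hYX (hXY hcXB.1), fun v hv => ?_⟩
    exact ctx.comm_T hB hXY hAX hNY hAN h1 hVN hcT (fun v hv => hXN v hv c hcXB.1) hv
  rw [hN, Subgroup.commutator_le]
  intro a ha b hb
  exact (hXstab hb).2 a ha

/-- Normal `A`-invariant subgroups of `Y`. -/
def Nrm (A Y N : Subgroup G) : Prop :=
  N ≤ Y ∧ Y ≤ normalizer (N : Set G) ∧ A ≤ normalizer (N : Set G)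

theorem Ctx.nrm_comm (ctx : Ctx A Y W) {N : Subgroup G} (hN : Nrm A Y N) : Nrm A Y ⁅N, Y⁆ :=
  ⟨(commutator_le_left_of_le_normalizer hN.2.1).trans hN.1, commutator_le_normalizer_right hN.2.1,
    fun a ha => commutator_mem_normalizer (hN.2.2 ha) (ctx.hAY ha)⟩

theorem Nrm.comm_self {N : Subgroup G} (hN : Nrm A Y N) : Nrm A Y ⁅N, N⁆ := by
  refine ⟨?_, fun y hy => commutator_mem_normalizer (hN.2.1 hy) (hN.2.1 hy),
    fun a ha => commutator_mem_normalizer (hN.2.2 ha) (hN.2.2 ha)⟩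
  exact (commutator_le_left_of_le_normalizer Subgroup.le_normalizer).trans hN.1


theorem commutator_ne_self {N Y : Subgroup G} (hsolv : Group.IsSolvable Y) (hNY : N ≤ Y)
    (hN : N ≠ ⊥) : ⁅N, N⁆ ≠ N := by
  intro h
  haveI : Group.IsSolvable Y := hsolv
  haveI : Group.IsSolvable N := by
    have : Function.Injective (Subgroup.inclusion hNY) := Subgroup.inclusion_injective hNY
    exact solvable_of_solvable_injective this
  haveI : Nontrivial N := (Subgroup.nontrivial_iff_ne_bot N).mpr hN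
  have h1 := Group.IsSolvable.commutator_lt_top_of_nontrivial N
  apply ne_of_lt h1
  apply Subgroup.map_injective N.subtype_injective
  rw [Subgroup.map_subtype_commutator, h, ← MonoidHom.range_eq_map, Subgroup.range_subtype]

/-- The strong induction. -/
theorem Ctx.main (ctx : Ctx A Y W)
    (hgen : Y ≤ ⨆ B ∈ cocyclicSubgroups A, ⁅Y ⊓ centralizer (B : Set G), A⁆)
    (hsolv : Group.IsSolvable Y) (n : ℕ) :
    ∀ N : Subgroup G, Nat.card N = n → Nrm A Y N →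
      ((∃ V, Nrm A Y V ∧ N = ⁅V, Y⁆) ∨ (∃ X, Nrm A Y X ∧ ⁅X, Y⁆ = X ∧ N = ⁅X, X⁆)) →
      ∀ x ∈ N, x ∈ centralizer (A : Set G) → x ∈ W := by
  induction n using Nat.strong_induction_on with
  | _ n ih =>
  intro N hcard hN hgood x hx hxA
  have hlt : ∀ M : Subgroup G, M ≤ N → M ≠ N → Nat.card M < n := by
    intro M hM hne
    rw [← hcard]
    by_contra hge
    exact hne (Subgroup.eq_of_le_of_card_ge hM (not_lt.mp hge))
  have hfinish : ∀ {N₁ : Subgroup G}, (∃ w ∈ W, ∃ m ∈ N₁, x = w * m) →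
      (∀ y ∈ N₁, y ∈ centralizer (A : Set G) → y ∈ W) → x ∈ W := by
    rintro N₁ ⟨w, hw, m, hm, rfl⟩ hN₁
    refine W.mul_mem hw (hN₁ m hm ?_)
    have : m = w⁻¹ * (w * m) := by group
    rw [this]
    exact Subgroup.mul_mem _ (Subgroup.inv_mem _ (ctx.hWA hw)) hxA
  by_cases hfix : ⁅N, Y⁆ = N
  · by_cases hbot : N = ⊥
    · subst hbot
      rw [Subgroup.mem_bot] at hx
      rw [hx]; exact W.one_mem
    have hne := commutator_ne_self hsolv hN.1 hbot
    have hle : ⁅N, N⁆ ≤ N := commutator_le_left_of_le_normalizer Subgroup.le_normalizer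
    have h2 := ih _ (hlt _ hle hne) ⁅N, N⁆ rfl hN.comm_self (Or.inr ⟨N, hN, hfix, rfl⟩)
    refine hfinish (ctx.stepA hgen hN.1 hN.2.2 hN.2.1 hN.1 hN.2.2 hN.comm_self.2.2 hle ?_ ?_ ?_
      le_rfl hx hxA) h2
    · rw [hfix]
    · exact fun v hv m hm => Subgroup.commutator_mem_commutator hv hm
    · rw [hfix]; exact le_sup_left
  · have hle : ⁅N, Y⁆ ≤ N := commutator_le_left_of_le_normalizer hN.2.1
    have hcN := ctx.nrm_comm hN
    have h2 := ih _ (hlt _ hle hfix) ⁅N, Y⁆ rfl hcN (Or.inl ⟨N, hN, rfl⟩)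
    have hcomm : ⁅N, N⁆ ≤ ⁅N, Y⁆ := Subgroup.commutator_mono le_rfl hN.1
    rcases hgood with ⟨V, hV, rfl⟩ | ⟨X, hX, hXY, rfl⟩
    · refine hfinish (ctx.stepA hgen hV.1 hV.2.2 hV.2.1 hN.1 hN.2.2 hcN.2.2 hle le_rfl ?_ ?_
        hcomm hx hxA) h2
      · intro v hv m hm
        have : ⁅v, m⁆ = ⁅m, v⁆⁻¹ := by
          simp only [commutatorElement_def]; group
        rw [this]
        exact Subgroup.inv_mem _ (Subgroup.commutator_mem_commutator hm (hV.1 hv))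
      · exact le_sup_left
    · have hP : ∀ y ∈ X, y ∈ centralizer (A : Set G) → ∃ w ∈ W, ∃ d ∈ ⁅X, X⁆, y = w * d := by
        intro y hy hyA
        refine ctx.stepA hgen hX.1 hX.2.2 hX.2.1 hX.1 hX.2.2 hX.comm_self.2.2
          (commutator_le_left_of_le_normalizer Subgroup.le_normalizer) ?_ ?_ ?_ le_rfl hy hyA
        · rw [hXY]
        · exact fun v hv m hm => Subgroup.commutator_mem_commutator hv hm
        · rw [hXY]; exact le_sup_left
      exact hfinish (ctx.stepB hX.1 hX.2.2 hX.2.1 hcN.2.2 hcN.2.1 hle le_rfl hP hx hxA) h2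

/-- `Y = [Y, A]` is generated by the `[C_Y(B), A]`. -/
theorem Ctx.gen (ctx : Ctx A Y W) (hYA : ⁅Y, A⁆ = Y) :
    Y ≤ ⨆ B ∈ cocyclicSubgroups A, ⁅Y ⊓ centralizer (B : Set G), A⁆ := by
  set Y₀ := ⨆ B ∈ cocyclicSubgroups A, ⁅Y ⊓ centralizer (B : Set G), A⁆ with hY₀
  have hTle : ∀ B ∈ cocyclicSubgroups A, ⁅Y ⊓ centralizer (B : Set G), A⁆ ≤ Y₀ := fun B hB =>
    le_iSup₂_of_le B hB le_rfl
  -- `A` and `C_Y(A)` normalize `Y₀`
  have hconj : ∀ g : G, (∀ B ∈ cocyclicSubgroups A,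
      g ∈ normalizer ((⁅Y ⊓ centralizer (B : Set G), A⁆ : Subgroup G) : Set G)) →
      g ∈ normalizer (Y₀ : Set G) := by
    intro g hg
    apply mem_normalizer_of_conj_mem
    have : Y₀ ≤ Y₀.comap (MulAut.conj g).toMonoidHom := by
      refine iSup₂_le fun B hB t ht => ?_
      change g * t * g⁻¹ ∈ Y₀
      exact hTle B hB ((mem_normalizer_iff.mp (hg B hB) t).mp ht)
    exact fun v hv => this hv
  have hAY₀ : A ≤ normalizer (Y₀ : Set G) := fun a ha =>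
    hconj a fun B hB => commutator_le_normalizer_right (ctx.norm_C hB.1) ha
  have hCY₀ : Y ⊓ centralizer (A : Set G) ≤ normalizer (Y₀ : Set G) := by
    rintro c ⟨hc1, hc2⟩
    refine hconj c fun B hB => commutator_le_normalizer_left (ctx.norm_C hB.1) ⟨hc1, ?_⟩
    exact Subgroup.centralizer_le hB.1 hc2
  -- `Y ≤ Y₀ C_Y(A)`
  have hYle : Y ≤ Y₀ ⊔ (Y ⊓ centralizer (A : Set G)) := by
    refine (le_iSup_cocyclic A Y ctx.hAc ctx.hAY ctx.hcop).trans (iSup₂_le fun B hB => ?_)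
    rw [← commutator_sup_centralizer (ctx.norm_C hB.1) (ctx.cop_le inf_le_left)
      (Or.inl ctx.solvA)]
    refine sup_le (le_sup_of_le_left (hTle B hB)) (le_sup_of_le_right ?_)
    exact fun x hx => ⟨hx.1.1, hx.2⟩
  conv_lhs => rw [← hYA]
  rw [Subgroup.commutator_le]
  intro y hy a ha
  obtain ⟨y₀, hy₀, c, hc, rfl⟩ := (mem_sup_iff_of_le_normalizer hCY₀ y).mp (hYle hy)
  have hca : c * a = a * c := (mem_centralizer_iff.mp hc.2 a ha).symm
  have h1 : ⁅y₀ * c, a⁆ = ⁅y₀, a⁆ := by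
    simp only [commutatorElement_def]
    calc y₀ * c * a * (y₀ * c)⁻¹ * a⁻¹ = y₀ * (c * a) * c⁻¹ * y₀⁻¹ * a⁻¹ := by group
      _ = y₀ * (a * c) * c⁻¹ * y₀⁻¹ * a⁻¹ := by rw [hca]
      _ = _ := by group
  rw [h1]
  have h2 : ⁅y₀, a⁆ = y₀ * (a * y₀⁻¹ * a⁻¹) := by
    simp only [commutatorElement_def]; group
  rw [h2]
  exact Y₀.mul_mem hy₀ ((mem_normalizer_iff.mp (hAY₀ ha) _).mp (Y₀.inv_mem hy₀))

/-- **Main theorem**. -/
theorem Ctx.fixed_le (ctx : Ctx A Y W) (hYA : ⁅Y, A⁆ = Y) (hsolv : Group.IsSolvable Y) :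
    Y ⊓ centralizer (A : Set G) ≤ W := by
  rintro x ⟨hxY, hxA⟩
  have hn : Nrm A Y Y := ⟨le_rfl, Subgroup.le_normalizer, ctx.hAY⟩
  have hx' : x ∈ ⁅Y, Y⁆ := by
    refine mem_of_fixed_mod (commutator_le_left_of_le_normalizer Subgroup.le_normalizer) le_rfl
      ctx.hAY hn.comm_self.2.2 ctx.hcop ?_ (fun a ha => ?_)
    · exact Subgroup.mem_sup_left (by rwa [hYA])
    · have := mem_centralizer_iff.mp hxA a ha
      rw [this]; group
  exact ctx.main (ctx.gen hYA) hsolv _ _ rfl hn.comm_self (Or.inl ⟨Y, hn, rfl⟩) x hx' hxA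

/-- The form of S1329, for solvable `Y`. -/
theorem s1329_of_solvable {A B Y : Subgroup G} (hAc : IsMulCommutative A) (hB : B ≤ A)
    (hcop : (Nat.card A).Coprime (Nat.card Y)) (hAY : A ≤ normalizer (Y : Set G))
    (hYA : ⁅Y, A⁆ = Y) (hsolv : Group.IsSolvable Y) :
    Y ⊓ centralizer (B : Set G) = ⨆ B₀ : {B₀ : Subgroup G // B₀ ≤ B ∧
      ∀ [(B₀.subgroupOf B).Normal], IsCyclic (↥B ⧸ B₀.subgroupOf B)},
      Y ⊓ centralizer (B : Set G) ⊓ ⁅Y ⊓ centralizer ((B₀ : Subgroup G) : Set G), A⁆ := by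
  classical
  set R := ⨆ B₀ : {B₀ : Subgroup G // B₀ ≤ B ∧
      ∀ [(B₀.subgroupOf B).Normal], IsCyclic (↥B ⧸ B₀.subgroupOf B)},
      Y ⊓ centralizer (B : Set G) ⊓ ⁅Y ⊓ centralizer ((B₀ : Subgroup G) : Set G), A⁆ with hR
  have hsup : R ≤ Y ⊓ centralizer (B : Set G) := iSup_le fun _ => inf_le_left
  refine le_antisymm ?_ hsup
  have hcomm : ∀ a ∈ A, ∀ b ∈ A, a * b = b * a := fun a ha b hb =>
    Subtype.ext_iff.mp (hAc.is_comm.comm ⟨a, ha⟩ ⟨b, hb⟩)
  have hCAB : Y ⊓ centralizer (A : Set G) ≤ Y ⊓ centralizer (B : Set G) :=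
    inf_le_inf_left _ (Subgroup.centralizer_le hB)
  -- the context with `W = R ⊓ C_Y(A)`
  have ctx : Ctx A Y (R ⊓ (Y ⊓ centralizer (A : Set G))) := by
    refine ⟨hAc, hAY, hcop, inf_le_right.trans inf_le_left, inf_le_right.trans inf_le_right, ?_⟩
    intro A₀ hA₀ x hx
    refine ⟨?_, hx.1⟩
    obtain ⟨hA₀A, a, ha, hsup'⟩ := hA₀
    -- `B₀ = A₀ ⊓ B`
    have hcyc : ∀ [((A₀ ⊓ B).subgroupOf B).Normal], IsCyclic (↥B ⧸ (A₀ ⊓ B).subgroupOf B) := by
      intro inst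
      haveI hn : (A₀.subgroupOf A).Normal := by
        refine ⟨fun n hn g => ?_⟩
        rw [Subgroup.mem_subgroupOf] at hn ⊢
        have : ((g * n * g⁻¹ : A) : G) = (n : G) := by
          have h1 := hcomm g g.2 n n.2
          simp only [Subgroup.coe_mul, Subgroup.coe_inv]
          rw [h1]; group
        rw [this]; exact hn
      have hcycA : IsCyclic (↥A ⧸ A₀.subgroupOf A) := by
        refine ⟨⟨((⟨a, ha⟩ : A) : ↥A ⧸ A₀.subgroupOf A), fun y => ?_⟩⟩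
        induction y using QuotientGroup.induction_on with
        | H u =>
        have hza : zpowers a ≤ normalizer (A₀ : Set G) := by
          rw [Subgroup.zpowers_le]
          apply mem_normalizer_of_conj_mem
          intro v hv
          have := hcomm a ha v (hA₀A hv)
          rw [this]; simpa using hv
        have hu : (u : G) ∈ A₀ ⊔ zpowers a := by rw [hsup']; exact u.2
        obtain ⟨a₀, ha₀, z, ⟨k, hk⟩, hu'⟩ := (mem_sup_iff_of_le_normalizer hza _).mp hu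
        refine ⟨k, ?_⟩
        change ((⟨a, ha⟩ : A) : ↥A ⧸ A₀.subgroupOf A) ^ k = _
        rw [← QuotientGroup.mk_zpow, QuotientGroup.eq, Subgroup.mem_subgroupOf]
        have : ((((⟨a, ha⟩ : A) ^ k)⁻¹ * u : A) : G) = a₀ := by
          simp only [Subgroup.coe_mul, Subgroup.coe_inv, Subgroup.coe_zpow]
          rw [← hu']
          have h3 : z = a ^ k := hk.symm
          rw [h3]
          have h4 := hcomm (a ^ k) (A.zpow_mem ha k) a₀ (hA₀A ha₀)
          rw [← h4]; group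
        rw [this]; exact ha₀
      let f : ↥B →* ↥A ⧸ A₀.subgroupOf A :=
        (QuotientGroup.mk' (A₀.subgroupOf A)).comp (Subgroup.inclusion hB)
      have hker : f.ker = (A₀ ⊓ B).subgroupOf B := by
        ext y
        rw [MonoidHom.mem_ker, Subgroup.mem_subgroupOf]
        change ((Subgroup.inclusion hB y : A) : ↥A ⧸ A₀.subgroupOf A) = 1 ↔ _
        rw [QuotientGroup.eq_one_iff, Subgroup.mem_subgroupOf]
        exact ⟨fun h => ⟨h, y.2⟩, fun h => h.1⟩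
      haveI : IsCyclic f.range := Subgroup.isCyclic _
      let e1 := QuotientGroup.quotientKerEquivRange f
      let e2 := QuotientGroup.quotientMulEquivOfEq hker
      exact isCyclic_of_surjective (e2.toMonoidHom.comp e1.symm.toMonoidHom)
        (e2.surjective.comp e1.symm.surjective)
    have hmem := le_iSup (fun B₀ : {B₀ : Subgroup G // B₀ ≤ B ∧
      ∀ [(B₀.subgroupOf B).Normal], IsCyclic (↥B ⧸ B₀.subgroupOf B)} =>
      Y ⊓ centralizer (B : Set G) ⊓ ⁅Y ⊓ centralizer ((B₀ : Subgroup G) : Set G), A⁆)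
      ⟨A₀ ⊓ B, inf_le_right, hcyc⟩
    refine hmem ⟨hCAB hx.1, ?_⟩
    refine Subgroup.commutator_mono ?_ le_rfl hx.2
    exact inf_le_inf_left _ (Subgroup.centralizer_le inf_le_left)
  have hfixed := ctx.fixed_le hYA hsolv
  intro x hx
  have hnB := ctx.norm_C hB
  obtain ⟨c, hc, z, hz, rfl⟩ := exists_comm_mul_fixed hnB (ctx.cop_le inf_le_left)
    (Or.inl ctx.solvA) hx
  refine R.mul_mem ?_ (hfixed ⟨hz.1.1, hz.2⟩).1
  have hcyc : ∀ [(B.subgroupOf B).Normal], IsCyclic (↥B ⧸ B.subgroupOf B) := by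
    intro inst
    haveI : Subsingleton (↥B ⧸ B.subgroupOf B) := by
      refine ⟨fun x y => ?_⟩
      induction x using QuotientGroup.induction_on with
      | H x =>
      induction y using QuotientGroup.induction_on with
      | H y =>
      rw [QuotientGroup.eq, Subgroup.mem_subgroupOf]
      exact Subtype.mem _
    infer_instance
  have hmem := le_iSup (fun B₀ : {B₀ : Subgroup G // B₀ ≤ B ∧
      ∀ [(B₀.subgroupOf B).Normal], IsCyclic (↥B ⧸ B₀.subgroupOf B)} =>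
      Y ⊓ centralizer (B : Set G) ⊓ ⁅Y ⊓ centralizer ((B₀ : Subgroup G) : Set G), A⁆)
      ⟨B, le_rfl, hcyc⟩
  exact hmem ⟨commutator_le_left_of_le_normalizer hnB hc, hc⟩

end Cfsg.Agent.Lib.Components.CoprimeGen
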