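import Mathlib
import Cfsg.Prelude.Def_Balance
import Cfsg.Agent.Lib.Components.InvComp

/-!
The maximal component lemma: a component of largest order (and largest `2`-rank of its centralizer) of
an involution centralizer is a component of the centralizer of each involution in a large elementary
abelian subgroup of its centralizer.
-/

set_option autoImplicit false
set_option linter.unusedSectionVars false
set_option linter.style.haveILetI false
set_option linter.unusedVariables false

namespace Cfsg.Agent.Lib.Components.MaxComp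

open Cfsg Cfsg.Agent.Lib.Components Cfsg.Agent.Lib.Components.PComponent
open Cfsg.Agent.Lib.Components.InvComp Cfsg.Agent.Lib.Components.Quasisimple
open Subgroup
open scoped commutatorElement

variable {G : Type*} [Group G] [Finite G]

/-- Under the `B`-property with `O(G) = 1`, `2`-components of an involution centralizer are components. -/
theorem pLayer_le_layer (hO : oddCore G = ⊥) (hB : HasBProperty G) {b : G} (hb : orderOf b = 2) :
    pLayer 2 ↥(centralizer ({b} : Set G)) ≤ layer ↥(centralizer ({b} : Set G)) := by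
  have hf2 : Fact (Nat.Prime 2) := ⟨Nat.prime_two⟩
  set C := centralizer ({b} : Set G) with hC
  have h1 := hB b hb
  rw [hO, le_bot_iff, Subgroup.map_eq_bot_iff_of_injective _ C.subtype_injective] at h1
  refine sSup_le fun J hJ => ?_
  have hq : IsQuasisimple ↥J := by
    rw [isQuasisimple_iff_commutator_core hJ, eq_bot_iff, ← h1]
    apply Subgroup.commutator_mono (le_pLayer hJ)
    have hsubn : ((pPrimeCore 2 ↥J).map J.subtype).IsSubnormal :=
      (Cfsg.pPrimeCore_normal 2 (↥J)).isSubnormal.trans' hJ.1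
    refine le_pPrimeCore_of_isSubnormal 2 hsubn ?_
    rw [← Nat.card_congr (Subgroup.equivMapOfInjective _ _ J.subtype_injective).toEquiv]
    exact Transport.coprime_card_pPrimeCore 2
  exact FStar.le_layer ⟨hJ.1, hq⟩

/-- A component of `C(a)` inside `C(b)` is a component of `C_{C(b)}(a)`. -/
theorem isComponent_double {a b : G} (hab : a * b = b * a) {K : Subgroup G}
    (hKa : K ≤ centralizer ({a} : Set G)) (hKb : K ≤ centralizer ({b} : Set G))
    (hK : IsComponent (K.subgroupOf (centralizer ({a} : Set G)))) :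
    ∃ (haC : a ∈ centralizer ({b} : Set G)),
      K.subgroupOf (centralizer ({b} : Set G)) ≤ centralizer ({(⟨a, haC⟩ : ↥(centralizer ({b} : Set G)))} :
        Set ↥(centralizer ({b} : Set G))) ∧
      IsComponent ((K.subgroupOf (centralizer ({b} : Set G))).subgroupOf
        (centralizer ({(⟨a, haC⟩ : ↥(centralizer ({b} : Set G)))} : Set ↥(centralizer ({b} : Set G))))) := by
  have haC : a ∈ centralizer ({b} : Set G) := by
    rw [mem_centralizer_singleton_iff]; exact hab
  refine ⟨haC, ?_, ?_⟩
  · intro x hx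
    rw [mem_subgroupOf] at hx
    rw [mem_centralizer_singleton_iff]
    apply Subtype.ext
    exact mem_centralizer_singleton_iff.mp (hKa hx)
  · set C := centralizer ({b} : Set G) with hC
    set a' : ↥C := ⟨a, haC⟩ with ha'
    set CC := centralizer ({a'} : Set ↥C) with hCC
    let ψ : ↥CC →* ↥(centralizer ({a} : Set G)) :=
      { toFun := fun x => ⟨((x : ↥C) : G), by
          rw [mem_centralizer_singleton_iff]
          have := mem_centralizer_singleton_iff.mp x.2
          exact congrArg Subtype.val this⟩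
        map_one' := rfl
        map_mul' := fun _ _ => rfl }
    have hle : K.subgroupOf C ≤ CC := by
      intro x hx
      rw [mem_subgroupOf] at hx
      rw [hCC, mem_centralizer_singleton_iff]
      apply Subtype.ext
      exact mem_centralizer_singleton_iff.mp (hKa hx)
    have hcomap : (K.subgroupOf (centralizer ({a} : Set G))).comap ψ = (K.subgroupOf C).subgroupOf CC := by
      ext x
      simp only [mem_comap, mem_subgroupOf]
      rfl
    refine ⟨?_, ?_⟩
    · rw [← hcomap]
      exact IsSubnormal.comap ψ hK.1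
    · have hq : IsQuasisimple ↥K := (isQuasisimple_congr (Subgroup.subgroupOfEquivOfLe hKa)).mp hK.2
      exact (isQuasisimple_congr ((Subgroup.subgroupOfEquivOfLe hle).trans
        (Subgroup.subgroupOfEquivOfLe hKb))).mpr hq

theorem card_le_of_prankLE {T X : Subgroup G} {m : ℕ} (h : PRankLE 2 m ↥T) (hXT : X ≤ T)
    (hc : ∀ x ∈ X, ∀ y ∈ X, x * y = y * x) (hs : ∀ x ∈ X, x ^ 2 = 1) : Nat.card X ≤ 2 ^ m := by
  have h1 := h (X.subgroupOf T)
    ⟨⟨by
      rintro ⟨⟨a, haT⟩, ha⟩ ⟨⟨b, hbT⟩, hb⟩
      rw [mem_subgroupOf] at ha hb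
      apply Subtype.ext
      apply Subtype.ext
      exact hc a ha b hb⟩⟩
    (by
      rintro ⟨a, haT⟩ ha
      rw [mem_subgroupOf] at ha
      apply Subtype.ext
      exact hs a ha)
  rwa [Nat.card_congr (Subgroup.subgroupOfEquivOfLe hXT).toEquiv] at h1

theorem prankLE_of_max {T B : Subgroup G} {m : ℕ} (hcard : Nat.card B = 2 ^ m)
    (hBmax : ∀ B' : Subgroup G, B' ≤ T → IsElementaryAbelian 2 B' → Nat.card ↥B' ≤ Nat.card ↥B) :
    PRankLE 2 m ↥T := by
  intro A hAc hAs
  rw [← hcard, Nat.card_congr (Subgroup.equivMapOfInjective A T.subtype T.subtype_injective).toEquiv]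
  apply hBmax
  · rintro _ ⟨x, -, rfl⟩
    exact x.2
  · refine ⟨⟨⟨?_⟩⟩, ?_⟩
    · rintro ⟨_, ⟨x, hx, rfl⟩⟩ ⟨_, ⟨y, hy, rfl⟩⟩
      apply Subtype.ext
      have h1 := hAc.is_comm.comm ⟨x, hx⟩ ⟨y, hy⟩
      have h2 : x * y = y * x := congrArg Subtype.val h1
      have h3 : (x : G) * (y : G) = y * x := congrArg Subtype.val h2
      exact h3
    · rintro _ ⟨x, hx, rfl⟩
      have h1 := hAs x hx
      have h2 := congrArg Subtype.val h1
      simpa using h2

theorem mem_normalizer_of_map_eq {D : Subgroup G} {β : G} (h : Cj β D = D) :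
    β ∈ normalizer (D : Set G) := by
  rw [mem_normalizer_iff]
  intro x
  constructor
  · intro hx
    rw [← h]
    exact ⟨x, hx, rfl⟩
  · intro hx
    rw [← h] at hx
    obtain ⟨y, hy, e⟩ := hx
    have e' : β * y * β⁻¹ = β * x * β⁻¹ := e
    have : y = x := by simpa using e'
    rwa [← this]

/-- The key counting lemma for the diagonal case. -/
theorem exists_large {D K B A : Subgroup G} {t : G} (hD : IsComponent D) (htt : t * t = 1) (htB : t ∈ B)
    (hBc : ∀ x ∈ B, ∀ y ∈ B, x * y = y * x) (hBs : ∀ x ∈ B, x ^ 2 = 1)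
    (hBK : ∀ β ∈ B, ∀ k ∈ K, β * k = k * β) (π : ↥D →* G)
    (hπ : ∀ l : ↥D, π l = (l : G) * (t * (l : G) * t⁻¹)) (hinj : Function.Injective π)
    (hK : K = π.range) (hne : Cj t D ≠ D) (hqK : IsQuasisimple ↥K) (hA : A ≤ K)
    (hAc : ∀ x ∈ A, ∀ y ∈ A, x * y = y * x) (hAs : ∀ x ∈ A, x ^ 2 = 1) (hA2 : 2 < Nat.card A) :
    ∃ X : Subgroup G, X ≤ centralizer (D : Set G) ∧ (∀ x ∈ X, ∀ y ∈ X, x * y = y * x) ∧
      (∀ x ∈ X, x ^ 2 = 1) ∧ Nat.card B < Nat.card X := by
  have hDt : IsComponent (Cj t D) := FStar.isComponent_conj t hD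
  have hDDt : ⁅D, Cj t D⁆ = ⊥ := by
    rcases Layer.eq_or_commutator_eq_bot hD hDt with h | h
    · exact absurd h.symm hne
    · exact h
  have hcDDt : ∀ d ∈ D, ∀ e ∈ Cj t D, d * e = e * d := by
    intro d hd e he
    have := Subgroup.commutator_mem_commutator hd he
    rw [hDDt, Subgroup.mem_bot, commutatorElement_eq_one_iff_mul_comm] at this
    exact this
  have htinv : t⁻¹ = t := inv_eq_of_mul_eq_one_left htt
  set B₀ := B ⊓ normalizer (D : Set G) with hB₀
  -- `B₀` centralizes `D`
  have hcen0 : ∀ β ∈ B₀, ∀ d ∈ D, β * d * β⁻¹ = d := by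
    intro β hβ d hd
    have hβt : β * t = t * β := hBc β hβ.1 t htB
    have hdβ : β * d * β⁻¹ ∈ D := (mem_normalizer_iff.mp hβ.2 d).mp hd
    have h1 : π ⟨β * d * β⁻¹, hdβ⟩ = π ⟨d, hd⟩ := by
      rw [hπ, hπ]
      have h2 : π ⟨d, hd⟩ ∈ K := by rw [hK]; exact ⟨_, rfl⟩
      have h3 := hBK β hβ.1 _ h2
      rw [hπ] at h3
      have h4 : (β * d * β⁻¹) * (t * (β * d * β⁻¹) * t⁻¹) = β * (d * (t * d * t⁻¹)) * β⁻¹ := by
        have h8 : t * (β * d * β⁻¹) * t⁻¹ = β * (t * d * t⁻¹) * β⁻¹ := by
          calc t * (β * d * β⁻¹) * t⁻¹ = (t * β) * d * (t * β)⁻¹ := by group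
            _ = (β * t) * d * (β * t)⁻¹ := by rw [hβt]
            _ = _ := by group
        rw [h8]
        group
      rw [h4, h3]
      group
    have h2 := hinj h1
    exact congrArg Subtype.val h2
  have hcent : ∀ β ∈ B₀, ∀ d ∈ D, d * β = β * d := by
    intro β hβ d hd
    have := hcen0 β hβ d hd
    rw [mul_inv_eq_iff_eq_mul] at this
    exact this.symm
  -- the subgroup `Y`
  set ρ : ↥D →* G := (MulAut.conj t).toMonoidHom.comp D.subtype with hρ
  have hρe : ∀ d : ↥D, ρ d = t * (d : G) * t⁻¹ := fun d => rfl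
  have hρinj : Function.Injective ρ := by
    intro x y h
    have h1 : t * (x : G) * t⁻¹ = t * (y : G) * t⁻¹ := h
    apply Subtype.ext
    simpa using h1
  set A₁ := A.comap π with hA₁
  set Y := A₁.map ρ with hY
  have hAr : A ≤ π.range := hK ▸ hA
  have hcardA₁ : Nat.card A₁ = Nat.card A := by
    rw [← Subgroup.map_comap_eq_self hAr]
    exact Nat.card_congr (Subgroup.equivMapOfInjective (A.comap π) π hinj).toEquiv
  have hcardY : Nat.card Y = Nat.card A := by
    rw [← hcardA₁]
    exact (Nat.card_congr (Subgroup.equivMapOfInjective A₁ ρ hρinj).toEquiv).symm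
  have hYcen : ∀ y ∈ Y, y ∈ centralizer (D : Set G) := by
    rintro _ ⟨d, -, rfl⟩
    rw [mem_centralizer_iff]
    intro d' hd'
    exact hcDDt d' hd' _ ⟨d, d.2, rfl⟩
  have hYc : ∀ x ∈ Y, ∀ y ∈ Y, x * y = y * x := by
    rintro _ ⟨d₁, h₁, rfl⟩ _ ⟨d₂, h₂, rfl⟩
    have h3 := hAc _ h₁ _ h₂
    rw [← map_mul, ← map_mul] at h3
    have h4 := hinj h3
    rw [← map_mul, ← map_mul, h4]
  have hYs : ∀ y ∈ Y, y ^ 2 = 1 := by
    rintro _ ⟨d, hd, rfl⟩
    have h3 := hAs _ hd
    rw [← map_pow] at h3
    have h4 : d ^ 2 = 1 := hinj (by rw [h3, map_one])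
    rw [← map_pow, h4, map_one]
  have hB₀Y : ∀ β ∈ B₀, ∀ y ∈ Y, β * y = y * β := by
    rintro β hβ _ ⟨d, -, rfl⟩
    rw [hρe]
    have hβt : β * t = t * β := hBc β hβ.1 t htB
    have h1 := hcent β hβ d d.2
    have h8 : β * (t * (d : G) * t⁻¹) * β⁻¹ = t * (d : G) * t⁻¹ := by
      calc β * (t * (d : G) * t⁻¹) * β⁻¹ = (β * t) * (d : G) * (β * t)⁻¹ := by group
        _ = (t * β) * (d : G) * (t * β)⁻¹ := by rw [hβt]
        _ = t * (β * (d : G) * β⁻¹) * t⁻¹ := by group
        _ = _ := by rw [hcen0 β hβ d d.2]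
    rw [mul_inv_eq_iff_eq_mul] at h8
    exact h8
  have hdisj : ∀ x, x ∈ B₀ → x ∈ Y → x = 1 := by
    rintro x hx ⟨d, -, rfl⟩
    rw [hρe] at hx ⊢
    set x := t * (d : G) * t⁻¹ with hxdef
    have hxt : x * t = t * x := hBc x hx.1 t htB
    have hdx : (d : G) = x := by
      have h3 : (d : G) = t⁻¹ * x * t := by rw [hxdef]; group
      rw [h3, mul_assoc, hxt, ← mul_assoc, inv_mul_cancel, one_mul]
    have h1 : π d = 1 := by
      rw [hπ, ← hxdef, hdx, ← pow_two, hBs x hx.1]
    have h2 : d = 1 := hinj (by rw [h1, map_one])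
    rw [hxdef, h2]
    simp
  -- two cosets
  have hqK' := hqK
  have hKle : K ≤ D ⊔ Cj t D := by
    rw [hK]
    rintro _ ⟨d, rfl⟩
    rw [hπ]
    exact Subgroup.mul_mem _ (mem_sup_left d.2) (mem_sup_right ⟨d, d.2, rfl⟩)
  have hconj : ∀ β ∈ B, Cj β D = D ∨ Cj β D = Cj t D := by
    intro β hβ
    by_contra hcon
    push Not at hcon
    obtain ⟨h1, h2⟩ := hcon
    have hE : IsComponent (Cj β D) := FStar.isComponent_conj β hD
    have hc1 : ⁅Cj β D, D⁆ = ⊥ := by
      rcases Layer.eq_or_commutator_eq_bot hE hD with h | h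
      · exact absurd h h1
      · exact h
    have hc2 : ⁅Cj β D, Cj t D⁆ = ⊥ := by
      rcases Layer.eq_or_commutator_eq_bot hE hDt with h | h
      · exact absurd h h2
      · exact h
    have hc3 : D ⊔ Cj t D ≤ centralizer ((Cj β D : Subgroup G) : Set G) := by
      refine sup_le ?_ ?_
      · rw [← Subgroup.commutator_eq_bot_iff_le_centralizer, Subgroup.commutator_comm]
        exact hc1
      · rw [← Subgroup.commutator_eq_bot_iff_le_centralizer, Subgroup.commutator_comm]
        exact hc2
    have hkd : ∀ k ∈ K, ∀ d ∈ D, k * d = d * k := by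
      intro k hk d hd
      have h3 := Subgroup.mem_centralizer_iff.mp (hc3 (hKle hk)) (β * d * β⁻¹) ⟨d, hd, rfl⟩
      have h4 := hBK β hβ k hk
      have h5 : β⁻¹ * k = k * β⁻¹ := by
        rw [inv_mul_eq_iff_eq_mul, ← mul_assoc, h4, mul_assoc, mul_inv_cancel, mul_one]
      have e1 : β * d * β⁻¹ * k = β * (d * k) * β⁻¹ := by
        rw [mul_assoc, h5]; group
      have e2 : k * (β * d * β⁻¹) = β * (k * d) * β⁻¹ := by
        rw [← mul_assoc, ← mul_assoc, ← h4]; group
      rw [e1, e2] at h3
      have h6 : d * k = k * d := by simpa using h3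
      exact h6.symm
    have hkt : ∀ k ∈ K, k * t = t * k := fun k hk => (hBK t htB k hk).symm
    have hkd2 : ∀ k ∈ K, ∀ e ∈ Cj t D, k * e = e * k := by
      rintro k hk _ ⟨d, hd, rfl⟩
      have h3 := hkd k hk d hd
      have h4 := hkt k hk
      change k * (t * d * t⁻¹) = (t * d * t⁻¹) * k
      have h5 : t⁻¹ * k = k * t⁻¹ := by
        rw [inv_mul_eq_iff_eq_mul, ← mul_assoc, ← h4, mul_assoc, mul_inv_cancel, mul_one]
      calc k * (t * d * t⁻¹) = (k * t) * d * t⁻¹ := by group
        _ = t * (k * d) * t⁻¹ := by rw [h4]; group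
        _ = t * (d * k) * t⁻¹ := by rw [h3]
        _ = t * d * (k * t⁻¹) := by group
        _ = t * d * (t⁻¹ * k) := by rw [h5]
        _ = _ := by group
    have hKcen : D ⊔ Cj t D ≤ centralizer (K : Set G) := by
      refine sup_le ?_ ?_
      · intro d hd
        rw [mem_centralizer_iff]
        intro k hk
        exact hkd k hk d hd
      · intro e he
        rw [mem_centralizer_iff]
        intro k hk
        exact hkd2 k hk e he
    apply not_isMulCommutative_of_isQuasisimple hqK
    refine ⟨⟨fun a b => Subtype.ext ?_⟩⟩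
    exact (mem_centralizer_iff.mp (hKcen (hKle b.2)) a a.2)
  have hcard1 : Nat.card B ≤ 2 * Nat.card B₀ := by
    classical
    have hmem : ∀ β (hβ : β ∈ B), β ∉ normalizer (D : Set G) → t * β ∈ B₀ := by
      intro β hβ hnN
      refine ⟨B.mul_mem htB hβ, ?_⟩
      rcases hconj β hβ with h | h
      · exact absurd (mem_normalizer_of_map_eq h) hnN
      · apply mem_normalizer_of_map_eq
        ext x
        constructor
        · rintro ⟨y, hy, rfl⟩
          have h1 : β * y * β⁻¹ ∈ Cj t D := by rw [← h]; exact ⟨y, hy, rfl⟩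
          obtain ⟨z, hz, e⟩ := h1
          have e' : t * z * t⁻¹ = β * y * β⁻¹ := e
          have e2 : (MulAut.conj (t * β)).toMonoidHom y = t * (β * y * β⁻¹) * t⁻¹ := by
            change (t * β) * y * (t * β)⁻¹ = _
            group
          rw [e2, ← e', htinv]
          have e3 : t * (t * z * t) * t = (t * t) * z * (t * t) := by group
          rw [e3, htt]
          simpa using hz
        · intro hx
          have h1 : t * x * t⁻¹ ∈ Cj t D := ⟨x, hx, rfl⟩
          rw [← h] at h1
          obtain ⟨y, hy, e⟩ := h1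
          have e' : β * y * β⁻¹ = t * x * t⁻¹ := e
          refine ⟨y, hy, ?_⟩
          change (t * β) * y * (t * β)⁻¹ = x
          have e2 : (t * β) * y * (t * β)⁻¹ = t * (β * y * β⁻¹) * t⁻¹ := by group
          rw [e2, e', htinv]
          have e3 : t * (t * x * t) * t = (t * t) * x * (t * t) := by group
          rw [e3, htt]
          group
    let f : ↥B → ↥B₀ × Bool := fun β =>
      if h : (β : G) ∈ normalizer (D : Set G) then (⟨β, β.2, h⟩, false)
      else (⟨t * β, hmem β β.2 h⟩, true)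
    have hf : Function.Injective f := by
      intro x y hxy
      by_cases hx : (x : G) ∈ normalizer (D : Set G) <;> by_cases hy : (y : G) ∈ normalizer (D : Set G)
      · simp only [f, dif_pos hx, dif_pos hy, Prod.mk.injEq] at hxy
        exact Subtype.ext (congrArg (fun z : ↥B₀ => (z : G)) hxy.1)
      · simp [f, dif_pos hx, dif_neg hy] at hxy
      · simp [f, dif_neg hx, dif_pos hy] at hxy
      · simp only [f, dif_neg hx, dif_neg hy, Prod.mk.injEq] at hxy
        apply Subtype.ext
        have := congrArg Subtype.val hxy.1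
        simpa using this
    have h1 := Nat.card_le_card_of_injective f hf
    rw [Nat.card_prod, Nat.card_eq_fintype_card (α := Bool), Fintype.card_bool] at h1
    rw [mul_comm]
    exact h1
  -- the final group
  set X := B₀ ⊔ Y with hX
  have hdec : ∀ x ∈ X, ∃ β ∈ B₀, ∃ y ∈ Y, x = β * y := fun x hx =>
    LayerProduct.mem_sup_of_commute hB₀Y hx
  have hXc : ∀ x ∈ X, ∀ y ∈ X, x * y = y * x := by
    intro x hx y hy
    obtain ⟨β, hβ, u, hu, rfl⟩ := hdec x hx
    obtain ⟨β', hβ', u', hu', rfl⟩ := hdec y hy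
    have h1 := hBc β hβ.1 β' hβ'.1
    have h2 := hYc u hu u' hu'
    have h3 := hB₀Y β hβ u' hu'
    have h4 := hB₀Y β' hβ' u hu
    calc β * u * (β' * u') = β * (u * β') * u' := by group
      _ = β * (β' * u) * u' := by rw [h4]
      _ = (β * β') * (u * u') := by group
      _ = (β' * β) * (u' * u) := by rw [h1, h2]
      _ = β' * (β * u') * u := by group
      _ = β' * (u' * β) * u := by rw [h3]
      _ = _ := by group
  have hXs : ∀ x ∈ X, x ^ 2 = 1 := by
    intro x hx
    obtain ⟨β, hβ, u, hu, rfl⟩ := hdec x hx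
    have h3 := hB₀Y β hβ u hu
    rw [(show Commute β u from h3).mul_pow, hBs β hβ.1, hYs u hu, one_mul]
  have hXcen : X ≤ centralizer (D : Set G) := by
    refine sup_le ?_ hYcen
    intro β hβ
    rw [mem_centralizer_iff]
    intro d hd
    exact hcent β hβ d hd
  have hcard2 : Nat.card B₀ * Nat.card Y ≤ Nat.card X := by
    let g : ↥B₀ × ↥Y → ↥X := fun p => ⟨p.1 * p.2, X.mul_mem (mem_sup_left p.1.2) (mem_sup_right p.2.2)⟩
    have hg : Function.Injective g := by
      rintro ⟨a, b⟩ ⟨c, d⟩ h
      have h1 : (a : G) * b = c * d := congrArg Subtype.val h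
      have h2 : (c : G)⁻¹ * a = d * (b : G)⁻¹ := by
        rw [inv_mul_eq_iff_eq_mul, ← mul_assoc, ← h1]; group
      have h3 : (c : G)⁻¹ * a ∈ B₀ := B₀.mul_mem (B₀.inv_mem c.2) a.2
      have h4 : (c : G)⁻¹ * a ∈ Y := by rw [h2]; exact Y.mul_mem d.2 (Y.inv_mem b.2)
      have h5 := hdisj _ h3 h4
      have h6 : (a : G) = c := by
        rw [inv_mul_eq_one] at h5
        exact h5.symm
      have h7 : (b : G) = d := by
        rw [h6] at h1
        exact mul_left_cancel h1
      rw [Prod.mk.injEq]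
      exact ⟨Subtype.ext h6, Subtype.ext h7⟩
    have h1 := Nat.card_le_card_of_injective g hg
    rwa [Nat.card_prod] at h1
  refine ⟨X, hXcen, hXc, hXs, ?_⟩
  rw [hcardY] at hcard2
  have hpos : 0 < Nat.card B₀ := Nat.card_pos
  calc Nat.card B ≤ 2 * Nat.card B₀ := hcard1
    _ < Nat.card A * Nat.card B₀ := Nat.mul_lt_mul_of_pos_right hA2 hpos
    _ = Nat.card B₀ * Nat.card A := mul_comm _ _
    _ ≤ Nat.card X := hcard2

/-- The maximal component lemma. -/
theorem main (hO : Cfsg.oddCore G = ⊥) (hB : Cfsg.HasBProperty G) (a : G) (ha : orderOf a = 2)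
    (K : Subgroup G) (hKa : K ≤ centralizer ({a} : Set G))
    (hK : Cfsg.IsComponent (K.subgroupOf (centralizer ({a} : Set G))))
    (hmax : ∀ y : G, orderOf y = 2 → ∀ K' : Subgroup G, K' ≤ centralizer ({y} : Set G) →
      Cfsg.IsComponent (K'.subgroupOf (centralizer ({y} : Set G))) →
      Nat.card ↥K' ≤ Nat.card ↥K ∧ (Nat.card ↥K' = Nat.card ↥K → ∀ k : ℕ,
        Cfsg.PRankLE 2 k ↥(centralizer ({a} : Set G) ⊓ centralizer (K : Set G)) →
        Cfsg.PRankLE 2 k ↥(centralizer ({y} : Set G) ⊓ centralizer (K' : Set G))))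
    (hrk : ¬ Cfsg.PRankLE 2 1 ↥K) (B : Subgroup G)
    (hBle : B ≤ centralizer ({a} : Set G) ⊓ centralizer (K : Set G))
    (hBel : Cfsg.IsElementaryAbelian 2 B)
    (hBmax : ∀ B' : Subgroup G, B' ≤ centralizer ({a} : Set G) ⊓ centralizer (K : Set G) →
      Cfsg.IsElementaryAbelian 2 B' → Nat.card ↥B' ≤ Nat.card ↥B)
    (b : G) (hb : b ∈ B) (hb1 : b ≠ 1) :
    K ≤ centralizer ({b} : Set G) ∧ Cfsg.IsComponent (K.subgroupOf (centralizer ({b} : Set G))) := by
  have hf2 : Fact (Nat.Prime 2) := ⟨Nat.prime_two⟩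
  have hbo : orderOf b = 2 := orderOf_eq_prime (hBel.2 b hb) hb1
  have hBc : ∀ x ∈ B, ∀ y ∈ B, x * y = y * x := by
    intro x hx y hy
    have := hBel.1.is_comm.comm ⟨x, hx⟩ ⟨y, hy⟩
    exact congrArg Subtype.val this
  have hKb : K ≤ centralizer ({b} : Set G) := by
    intro k hk
    rw [mem_centralizer_singleton_iff]
    exact mem_centralizer_iff.mp (hBle hb).2 k hk
  refine ⟨hKb, ?_⟩
  have hab : a * b = b * a := (mem_centralizer_singleton_iff.mp (hBle hb).1).symm
  have haa : a * a = 1 := by rw [← pow_two, ← ha, pow_orderOf_eq_one]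
  -- `a ∈ B`
  have haB : a ∈ B := by
    have hcom : ∀ x ∈ B, ∀ y ∈ zpowers a, x * y = y * x := by
      rintro x hx _ ⟨k, rfl⟩
      have h1 : Commute x a := (mem_centralizer_singleton_iff.mp (hBle hx).1)
      exact (h1.zpow_right k).eq
    have hle : B ⊔ zpowers a ≤ centralizer ({a} : Set G) ⊓ centralizer (K : Set G) := by
      refine sup_le hBle ?_
      rw [zpowers_le]
      refine ⟨?_, ?_⟩
      · change a ∈ centralizer ({a} : Set G)
        rw [mem_centralizer_singleton_iff]
      · change a ∈ centralizer (K : Set G)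
        rw [mem_centralizer_iff]
        intro k hk
        exact mem_centralizer_singleton_iff.mp (hKa hk)
    have hel : IsElementaryAbelian 2 (B ⊔ zpowers a) := by
      refine ⟨⟨⟨?_⟩⟩, ?_⟩
      · rintro ⟨x, hx⟩ ⟨y, hy⟩
        apply Subtype.ext
        obtain ⟨x₁, hx₁, x₂, ⟨k, rfl⟩, rfl⟩ := LayerProduct.mem_sup_of_commute hcom hx
        obtain ⟨y₁, hy₁, y₂, ⟨l, rfl⟩, rfl⟩ := LayerProduct.mem_sup_of_commute hcom hy
        have h1 := hBc x₁ hx₁ y₁ hy₁
        have h2 : Commute ((fun x => a ^ x) k) y₁ := (hcom y₁ hy₁ _ ⟨k, rfl⟩).symm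
        have h3 : Commute x₁ ((fun x => a ^ x) l) := (hcom x₁ hx₁ _ ⟨l, rfl⟩)
        have h4 : Commute ((fun x => a ^ x) k) ((fun x => a ^ x) l) :=
          (Commute.refl a).zpow_zpow k l
        change x₁ * (fun x => a ^ x) k * (y₁ * (fun x => a ^ x) l) =
          y₁ * (fun x => a ^ x) l * (x₁ * (fun x => a ^ x) k)
        calc x₁ * (fun x => a ^ x) k * (y₁ * (fun x => a ^ x) l)
            = x₁ * ((fun x => a ^ x) k * y₁) * (fun x => a ^ x) l := by group
          _ = x₁ * (y₁ * (fun x => a ^ x) k) * (fun x => a ^ x) l := by rw [h2.eq]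
          _ = (x₁ * y₁) * ((fun x => a ^ x) k * (fun x => a ^ x) l) := by group
          _ = (y₁ * x₁) * ((fun x => a ^ x) l * (fun x => a ^ x) k) := by rw [h1, h4.eq]
          _ = y₁ * (x₁ * (fun x => a ^ x) l) * (fun x => a ^ x) k := by group
          _ = y₁ * ((fun x => a ^ x) l * x₁) * (fun x => a ^ x) k := by rw [h3.eq]
          _ = _ := by group
      · intro x hx
        obtain ⟨x₁, hx₁, x₂, ⟨k, rfl⟩, rfl⟩ := LayerProduct.mem_sup_of_commute hcom hx
        have h3 : Commute x₁ ((fun x => a ^ x) k) := (hcom x₁ hx₁ _ ⟨k, rfl⟩)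
        rw [h3.mul_pow, hBel.2 x₁ hx₁, one_mul]
        change (a ^ k) ^ 2 = 1
        rw [← zpow_natCast, ← zpow_mul, mul_comm, zpow_mul, zpow_natCast, pow_two, haa, one_zpow]
    have h1 := hBmax _ hle hel
    have h2 : B = B ⊔ zpowers a := Subgroup.eq_of_le_of_card_ge le_sup_left h1
    rw [h2]
    exact mem_sup_right (mem_zpowers a)
  -- even order
  have hq : IsQuasisimple ↥K := (isQuasisimple_congr (Subgroup.subgroupOfEquivOfLe hKa)).mp hK.2
  rw [PRankLE] at hrk
  push Not at hrk
  obtain ⟨A, hAc, hAs, hA2⟩ := hrk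
  have hA2' : 2 < Nat.card A := by simpa using hA2
  have hAeven : 2 ∣ Nat.card A := by
    by_contra hnd
    have hcop : (Nat.card A).Coprime 2 := by
      rwa [Nat.coprime_comm, Nat.Prime.coprime_iff_not_dvd Nat.prime_two]
    have : Nat.card A = 1 := by
      rw [Nat.card_eq_one_iff_unique]
      refine ⟨⟨fun x y => ?_⟩, ⟨1⟩⟩
      have key : ∀ x : ↥A, x = 1 := by
        intro x
        have h1 : x ^ 2 = 1 := Subtype.ext (hAs x x.2)
        have h2 : orderOf x ∣ 2 := orderOf_dvd_of_pow_eq_one h1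
        have h3 : orderOf x ∣ Nat.card A := orderOf_dvd_natCard x
        have h4 := Nat.Coprime.eq_one_of_dvd (Nat.Coprime.coprime_dvd_left h3 hcop) h2
        exact orderOf_eq_one_iff.mp h4
      rw [key x, key y]
    omega
  have hKeven : Even (Nat.card K) := by
    have h1 : Nat.card A ∣ Nat.card K := Subgroup.card_subgroup_dvd_card A
    exact even_iff_two_dvd.mpr (hAeven.trans h1)
  -- passing to `C(b)`
  set C := centralizer ({b} : Set G) with hC
  obtain ⟨haC, hLt, hL⟩ := isComponent_double hab hKa hKb hK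
  set a' : ↥C := ⟨a, haC⟩ with ha'
  set K' := K.subgroupOf C with hK'
  have haa' : a' * a' = 1 := Subtype.ext haa
  have hao : orderOf a' = 2 := by rw [← ha, ← Subgroup.orderOf_coe a']
  have hK'eq : Nat.card K' = Nat.card K := Nat.card_congr (Subgroup.subgroupOfEquivOfLe hKb).toEquiv
  have hqK' : IsQuasisimple ↥K' := (isQuasisimple_congr (Subgroup.subgroupOfEquivOfLe hKb)).mpr hq
  have hLE : K' ≤ layer ↥C := by
    have hT : IsPGroup 2 ↥(zpowers a') := by
      apply IsPGroup.of_card (n := 1)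
      rw [Nat.card_zpowers, hao, pow_one]
    have hl := LBalanceTwo.l_balance (zpowers a') hT
    rw [centralizer_zpowers_eq] at hl
    have hev' : Even (Nat.card ↥(K'.subgroupOf (centralizer ({a'} : Set ↥C)))) := by
      rw [Nat.card_congr (Subgroup.subgroupOfEquivOfLe hLt).toEquiv, hK'eq]
      exact hKeven
    have h1 := le_pLayer_of_even hL hev'
    have h2 : K' = (K'.subgroupOf (centralizer ({a'} : Set ↥C))).map (centralizer ({a'} : Set ↥C)).subtype := by
      rw [Subgroup.map_subgroupOf_eq_of_le hLt]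
    rw [h2]
    exact (Subgroup.map_mono h1).trans (hl.trans (pLayer_le_layer hO hB hbo))
  obtain ⟨D, hD, hLD⟩ := exists_component_le_sup haa' hLt hL hLE
  -- the size of `D`
  have hDmap : D.map C.subtype ≤ C := by
    rintro _ ⟨x, -, rfl⟩
    exact x.2
  have hDsub : (D.map C.subtype).subgroupOf C = D :=
    Subgroup.comap_map_eq_self_of_injective C.subtype_injective D
  have hDcard : Nat.card (D.map C.subtype) = Nat.card D :=
    (Nat.card_congr (Subgroup.equivMapOfInjective D C.subtype C.subtype_injective).toEquiv).symm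
  obtain ⟨hm1, hm2⟩ := hmax b hbo (D.map C.subtype) hDmap (by rw [hDsub]; exact hD)
  rw [hDcard] at hm1 hm2
  by_cases hn : Cj a' D = D
  · rw [hn, sup_idem] at hLD
    have heq : K' = D := Subgroup.eq_of_le_of_card_ge hLD (by rw [hK'eq]; exact hm1)
    rw [heq]
    exact hD
  · exfalso
    obtain ⟨π, hπ, hker, hLeq, -⟩ := exists_range_of_ne hao hD hn hLt hL hLD
    -- `π` is injective
    have hinj : Function.Injective π := by
      have h1 : Nat.card π.range * Nat.card π.ker = Nat.card D := by
        rw [← Subgroup.index_ker π, mul_comm]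
        exact Subgroup.card_mul_index _
      have hpos : 0 < Nat.card π.ker := Nat.card_pos
      have hDpos : 0 < Nat.card D := Nat.card_pos
      have h2 : Nat.card π.range = Nat.card K := by rw [← hLeq, hK'eq]
      rw [h2] at h1
      have h3 : Nat.card π.ker = 1 := by
        by_contra hne
        have h4 : 2 ≤ Nat.card π.ker := by omega
        have : Nat.card K * 2 ≤ Nat.card D := by
          rw [← h1]; exact Nat.mul_le_mul_left _ h4
        have hKpos : 0 < Nat.card K := Nat.card_pos
        omega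
      rw [injective_iff_map_eq_one]
      intro x hx
      have := (Nat.card_eq_one_iff_unique.mp h3).1
      have h5 : (⟨x, hx⟩ : π.ker) = 1 := Subsingleton.elim _ _
      exact congrArg Subtype.val h5
    have hDK : Nat.card D = Nat.card K := by
      apply le_antisymm hm1
      rw [← hK'eq, hLeq]
      exact Nat.card_congr (MonoidHom.ofInjective hinj).toEquiv |>.symm.le
    -- apply the counting lemma
    obtain ⟨m, hm⟩ : ∃ m : ℕ, Nat.card B = 2 ^ m := by
      have hBp : IsPGroup 2 ↥B := by
        intro x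
        exact ⟨1, Subtype.ext (by simpa using hBel.2 x x.2)⟩
      exact IsPGroup.iff_card.mp hBp
    have hrkD := hm2 hDK m (prankLE_of_max hm hBmax)
    have hBC : B ≤ C := by
      intro β hβ
      rw [hC, mem_centralizer_singleton_iff]
      exact hBc β hβ b hb
    set A' : Subgroup ↥C := (A.map K.subtype).subgroupOf C with hA'
    have hA'K : A' ≤ K' := by
      intro x hx
      rw [hA', mem_subgroupOf] at hx
      obtain ⟨y, -, e⟩ := hx
      rw [hK', mem_subgroupOf, ← e]
      exact y.2
    have hA'le : A.map K.subtype ≤ C := by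
      rintro _ ⟨y, -, rfl⟩
      exact hKb y.2
    have hA'card : Nat.card A' = Nat.card A := by
      rw [hA', Nat.card_congr (Subgroup.subgroupOfEquivOfLe hA'le).toEquiv]
      exact (Nat.card_congr (Subgroup.equivMapOfInjective A K.subtype K.subtype_injective).toEquiv).symm
    obtain ⟨X, hX1, hX2, hX3, hX4⟩ := exists_large (G := ↥C) (D := D) (K := K') (B := B.subgroupOf C) (A := A')
      (t := a') hD haa' (by rw [mem_subgroupOf]; exact haB)
      (by
        intro x hx y hy
        rw [mem_subgroupOf] at hx hy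
        exact Subtype.ext (hBc _ hx _ hy))
      (by
        intro x hx
        rw [mem_subgroupOf] at hx
        exact Subtype.ext (hBel.2 _ hx))
      (by
        intro β hβ k hk
        rw [mem_subgroupOf] at hβ hk
        apply Subtype.ext
        exact (mem_centralizer_iff.mp (hBle hβ).2 _ hk).symm)
      π hπ hinj hLeq hn hqK' hA'K
      (by
        intro x hx y hy
        rw [hA', mem_subgroupOf] at hx hy
        obtain ⟨u, hu, eu⟩ := hx
        obtain ⟨v, hv, ev⟩ := hy
        apply Subtype.ext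
        have h1 := hAc.is_comm.comm ⟨u, hu⟩ ⟨v, hv⟩
        have h2 : u * v = v * u := congrArg Subtype.val h1
        have h3 : (u : G) * v = v * u := congrArg Subtype.val h2
        rw [Subgroup.coe_mul, Subgroup.coe_mul, ← eu, ← ev]
        exact h3)
      (by
        intro x hx
        rw [hA', mem_subgroupOf] at hx
        obtain ⟨u, hu, eu⟩ := hx
        apply Subtype.ext
        have h1 := hAs u hu
        have h2 := congrArg Subtype.val h1
        rw [Subgroup.coe_pow, ← eu]
        simpa using h2)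
      (by rw [hA'card]; exact hA2')
    have hXG : X.map C.subtype ≤ C ⊓ centralizer ((D.map C.subtype : Subgroup G) : Set G) := by
      rintro _ ⟨x, hx, rfl⟩
      refine ⟨x.2, ?_⟩
      change C.subtype x ∈ centralizer ((D.map C.subtype : Subgroup G) : Set G)
      rw [mem_centralizer_iff]
      rintro _ ⟨d, hd, rfl⟩
      have h1 := mem_centralizer_iff.mp (hX1 hx) d hd
      exact congrArg Subtype.val h1
    have h5 := card_le_of_prankLE hrkD hXG
      (by
        rintro _ ⟨x, hx, rfl⟩ _ ⟨y, hy, rfl⟩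
        exact congrArg Subtype.val (hX2 x hx y hy))
      (by
        rintro _ ⟨x, hx, rfl⟩
        have := congrArg Subtype.val (hX3 x hx)
        simpa using this)
    rw [← hm, ← Nat.card_congr (Subgroup.equivMapOfInjective X C.subtype C.subtype_injective).toEquiv] at h5
    have h6 : Nat.card (B.subgroupOf C) = Nat.card B :=
      Nat.card_congr (Subgroup.subgroupOfEquivOfLe hBC).toEquiv
    rw [h6] at hX4
    omega

end Cfsg.Agent.Lib.Components.MaxComp
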