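import Mathlib
import Cfsg.Prelude.Def_Balance
import Cfsg.Agent.Lib.Components.MaxComp

/-!
Double centralizers: a `2`-component of `L_{2'}(C(x)) ∩ C(y)` maps onto a component of the centralizer
of the image of `x` in `C(y) / O(C(y))`, when the proper sections have the `B`-property.
-/

set_option autoImplicit false
set_option linter.unusedSectionVars false
set_option linter.style.haveILetI false
set_option linter.unusedVariables false

namespace Cfsg.Agent.Lib.Components.DoubleLayer

open Cfsg Cfsg.Agent.Lib.Components Cfsg.Agent.Lib.Components.PComponent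
open Subgroup
open scoped commutatorElement

variable {G : Type*} [Group G] [Finite G]

/-- In a group with the `B`-property and trivial core, `2`-components of an involution centralizer are
components. -/
theorem isComponent_of_isPComponent {Q : Type*} [Group Q] [Finite Q] (hO : oddCore Q = ⊥)
    (hB : HasBProperty Q) {b : Q} (hb : orderOf b = 2)
    {K : Subgroup ↥(centralizer ({b} : Set Q))} (hK : IsPComponent 2 K) : IsComponent K := by
  have hf2 : Fact (Nat.Prime 2) := ⟨Nat.prime_two⟩
  have h1 := hB b hb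
  rw [hO, le_bot_iff, Subgroup.map_eq_bot_iff_of_injective _ (centralizer ({b} : Set Q)).subtype_injective] at h1
  have hq : IsQuasisimple ↥K := by
    rw [isQuasisimple_iff_commutator_core hK, eq_bot_iff, ← h1]
    apply Subgroup.commutator_mono (le_pLayer hK)
    have hsubn : ((pPrimeCore 2 ↥K).map K.subtype).IsSubnormal :=
      (Cfsg.pPrimeCore_normal 2 (↥K)).isSubnormal.trans' hK.1
    refine le_pPrimeCore_of_isSubnormal 2 hsubn ?_
    rw [← Nat.card_congr (Subgroup.equivMapOfInjective _ _ K.subtype_injective).toEquiv]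
    exact Transport.coprime_card_pPrimeCore 2
  exact ⟨hK.1, hq⟩

/-- A component of even order commutes with every odd order subgroup it normalizes. -/
theorem commutator_eq_bot_of_odd {T : Type*} [Group T] [Finite T] {K H : Subgroup T}
    (hK : IsComponent K) (h2 : 2 ∣ Nat.card K) (hH : Odd (Nat.card H))
    (hnorm : ∀ k ∈ K, ∀ h ∈ H, k * h * k⁻¹ ∈ H) : ⁅K, H⁆ = ⊥ := by
  have hle : K ≤ normalizer (H : Set T) := by
    intro k hk
    rw [mem_normalizer_iff]
    intro h
    constructor
    · exact fun hh => hnorm k hk h hh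
    · intro hh
      -- finite: conjugation by `k` is a bijection of `H`
      have hfin : (H.map (MulAut.conj k).toMonoidHom) ≤ H := by
        rintro _ ⟨h', hh', rfl⟩
        exact hnorm k hk h' hh'
      have hcard : Nat.card ↥(H.map (MulAut.conj k).toMonoidHom) = Nat.card H :=
        (Nat.card_congr (Subgroup.equivMapOfInjective H _ (MulAut.conj k).injective).toEquiv).symm
      have heq : H.map (MulAut.conj k).toMonoidHom = H :=
        Subgroup.eq_of_le_of_card_ge hfin (le_of_eq hcard.symm)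
      rw [← heq] at hh
      obtain ⟨h', hh', hc⟩ := hh
      have : h = h' := by
        have hc' : k * h' * k⁻¹ = k * h * k⁻¹ := hc
        have h5 : k * h' = k * h := mul_right_cancel hc'
        exact (mul_left_cancel h5).symm
      rw [this]
      exact hh'
  have hK' := Layer.isComponent_subgroupOf hK hle
  have hn : (H.subgroupOf (normalizer (H : Set T))).Normal := Subgroup.normal_in_normalizer
  rcases Layer.le_or_commutator_eq_bot_of_normal hK' hn with h | h
  · exfalso
    have hKH : K ≤ H := by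
      intro k hk
      have := h (show (⟨k, hle hk⟩ : ↥(normalizer (H : Set T))) ∈ K.subgroupOf _ by
        simpa [Subgroup.mem_subgroupOf] using hk)
      simpa [Subgroup.mem_subgroupOf] using this
    have h3 : Nat.card K ∣ Nat.card H := Subgroup.card_dvd_of_le hKH
    have h4 : 2 ∣ Nat.card H := h2.trans h3
    exact (Nat.not_even_iff_odd.mpr hH) (even_iff_two_dvd.mpr h4)
  · rw [Subgroup.commutator_eq_bot_iff_le_centralizer] at h ⊢
    intro a ha
    rw [mem_centralizer_iff]
    intro b hb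
    have hb' : b ∈ normalizer (H : Set T) := by
      rw [mem_normalizer_iff]
      intro z
      constructor
      · intro hz; exact H.mul_mem (H.mul_mem hb hz) (H.inv_mem hb)
      · intro hz
        have := H.mul_mem (H.mul_mem (H.inv_mem hb) hz) hb
        simpa [mul_assoc] using this
    have h7 := h (show (⟨a, hle ha⟩ : ↥(normalizer (H : Set T))) ∈ K.subgroupOf _ by
      simpa [Subgroup.mem_subgroupOf] using ha)
    rw [mem_centralizer_iff] at h7
    have h8 := h7 ⟨b, hb'⟩ (by simpa [Subgroup.mem_subgroupOf] using hb)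
    exact congrArg Subtype.val h8

/-- `F*(G)` simple non-abelian: `Z(G) = 1`, so centralizers of involutions are proper. -/
theorem centralizer_ne_top (hF : IsSimpleGroup ↥(generalizedFittingSubgroup G))
    (hF' : ¬ IsMulCommutative ↥(generalizedFittingSubgroup G)) {y : G} (hy : orderOf y = 2) :
    centralizer ({y} : Set G) ≠ ⊤ := by
  intro htop
  have hc : ∀ g : G, g * y = y * g := fun g => by
    have : g ∈ centralizer ({y} : Set G) := by rw [htop]; trivial
    exact mem_centralizer_singleton_iff.mp this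
  have hmem : y ∈ generalizedFittingSubgroup G := by
    apply FStar.centralizer_generalizedFitting_le
    rw [mem_centralizer_iff]
    intro h _
    exact hc h
  set y' : ↥(generalizedFittingSubgroup G) := ⟨y, hmem⟩ with hy'
  have hn : (zpowers y').Normal := by
    refine ⟨fun n hn g => ?_⟩
    obtain ⟨k, rfl⟩ := mem_zpowers_iff.mp hn
    have hcomm : (g : G) * y = y * g := hc g
    have : g * y' ^ k * g⁻¹ = y' ^ k := by
      have h1 : Commute g y' := Subtype.ext hcomm
      exact (h1.zpow_right k).eq ▸ by group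
    rw [this]
    exact zpow_mem (mem_zpowers _) k
  have hne : y' ≠ 1 := by
    intro h
    have : y = 1 := congrArg Subtype.val h
    rw [this, orderOf_one] at hy
    omega
  rcases hF.eq_bot_or_eq_top_of_normal _ hn with h | h
  · rw [zpowers_eq_bot] at h
    exact hne h
  · apply hF'
    have : IsCyclic ↥(generalizedFittingSubgroup G) :=
      ⟨⟨y', fun g => by
        have : g ∈ zpowers y' := by rw [h]; trivial
        exact this⟩⟩
    exact ⟨⟨fun a b => by
      obtain ⟨g, hg⟩ := IsCyclic.exists_generator (α := ↥(generalizedFittingSubgroup G))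
      obtain ⟨m, rfl⟩ := mem_zpowers_iff.mp (hg a)
      obtain ⟨n, rfl⟩ := mem_zpowers_iff.mp (hg b)
      exact ((Commute.refl g).zpow_zpow m n).eq⟩⟩

/-- The main statement, with the centralizers abstracted. -/
theorem main_aux (hF : IsSimpleGroup ↥(generalizedFittingSubgroup G))
    (hF' : ¬ IsMulCommutative ↥(generalizedFittingSubgroup G))
    (hsec : ∀ (H : Subgroup G) (N : Subgroup ↥H) [N.Normal], (H ≠ ⊤ ∨ N ≠ ⊥) → HasBProperty (↥H ⧸ N))
    (x y : G) (hx : orderOf x = 2) (hy : orderOf y = 2) (M Cx L : Subgroup G)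
    (hM : M = centralizer ({y} : Set G)) (hCx : Cx = centralizer ({x} : Set G))
    (hL : L = (pLayer 2 ↥Cx).map Cx.subtype) (hxM : x ∈ M)
    (J : Subgroup ↥(L ⊓ M)) (hJ : IsPComponent 2 J) :
    IsComponent
        ((((J.map (Subgroup.subtype _)).subgroupOf M).map
          (QuotientGroup.mk' (oddCore ↥M))).subgroupOf
          (centralizer ({(QuotientGroup.mk' (oddCore ↥M) ⟨x, hxM⟩ : ↥M ⧸ oddCore ↥M)} : Set _))) ∧
      ∀ E : Subgroup G, E ≤ Cx ⊓ M → Odd (Nat.card ↥E) →
        (∀ j ∈ J.map (Subgroup.subtype _), ∀ e ∈ E, j * e * j⁻¹ ∈ E) →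
          ⁅J.map (Subgroup.subtype _), E⁆ ≤ (oddCore ↥M).map M.subtype := by
  have hf2 : Fact (Nat.Prime 2) := ⟨Nat.prime_two⟩
  have hMmem : ∀ g, g ∈ M ↔ g * y = y * g := by
    subst hM; intro g; exact mem_centralizer_singleton_iff
  have hCxmem : ∀ g, g ∈ Cx ↔ g * x = x * g := by
    subst hCx; intro g; exact mem_centralizer_singleton_iff
  set O := oddCore ↥M with hO
  set π := QuotientGroup.mk' O with hπ
  have hOodd : (Nat.card O).Coprime 2 := Transport.coprime_card_pPrimeCore 2
  set x' : ↥M := ⟨x, hxM⟩ with hx'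
  set xb : ↥M ⧸ O := π x' with hxb
  set T := centralizer ({xb} : Set (↥M ⧸ O)) with hT
  -- the section `Q = M / O`
  have hB : HasBProperty (↥M ⧸ O) := hsec M O (Or.inl (hM ▸ centralizer_ne_top hF hF' hy))
  have hOQ : oddCore (↥M ⧸ O) = ⊥ := pPrimeCore_quotient_eq_bot 2
  -- `xb` is an involution
  have hxbord : orderOf xb = 2 := by
    apply orderOf_eq_prime
    · rw [hxb, ← map_pow]
      have : x' ^ 2 = 1 := by
        apply Subtype.ext
        have := pow_orderOf_eq_one x
        rwa [hx] at this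
      rw [this, map_one]
    · intro h
      have hmem : x' ∈ O := (QuotientGroup.eq_one_iff _).mp h
      have h1 : orderOf x' ∣ Nat.card O := Subgroup.orderOf_dvd_natCard O hmem
      have h2 : orderOf x' = 2 := by
        rw [hx', Subgroup.orderOf_mk]; exact hx
      rw [h2] at h1
      have := Nat.Coprime.eq_one_of_dvd hOodd.symm h1
      omega
  -- the map from `C(x) ∩ C(y)` onto `T`
  set Vp := Cx ⊓ M with hVp
  have hmemT : ∀ v : ↥Vp, π ⟨(v : G), v.2.2⟩ ∈ T := by
    intro v
    rw [hT, mem_centralizer_singleton_iff, hxb, ← map_mul, ← map_mul]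
    congr 1
    apply Subtype.ext
    exact (hCxmem _).mp v.2.1
  let Θ : ↥Vp →* ↥T :=
    (π.comp (Subgroup.inclusion (inf_le_right : Vp ≤ M))).codRestrict T (fun v => hmemT v)
  have hΘval : ∀ v : ↥Vp, ((Θ v : ↥T) : ↥M ⧸ O) = π ⟨(v : G), v.2.2⟩ := fun v => rfl
  have hΘsurj : Function.Surjective Θ := by
    rintro ⟨t, ht⟩
    obtain ⟨m, rfl⟩ := QuotientGroup.mk'_surjective O t
    have hcomm : π m * xb = xb * π m := mem_centralizer_singleton_iff.mp ht
    let α : ↥M ≃* ↥M := MulAut.conj x'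
    have hx2 : x' * x' = 1 := by
      apply Subtype.ext
      have := pow_orderOf_eq_one x
      rw [hx, pow_two] at this
      exact this
    have hα : ∀ z : ↥M, (⇑α)^[2 ^ 1] z = z := by
      intro z
      show x' * (x' * z * x'⁻¹) * x'⁻¹ = z
      have hinv : x'⁻¹ = x' := by
        rw [inv_eq_iff_mul_eq_one]; exact hx2
      rw [hinv]
      calc x' * (x' * z * x') * x' = (x' * x') * z * (x' * x') := by group
        _ = z := by rw [hx2]; group
    have hm : m⁻¹ * α m ∈ pPrimeCore 2 ↥M := by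
      have : π (m⁻¹ * (x' * m * x'⁻¹)) = 1 := by
        rw [map_mul, map_inv, map_mul, map_mul, map_inv]
        show (π m)⁻¹ * (xb * π m * xb⁻¹) = 1
        rw [← hcomm]
        group
      exact (QuotientGroup.eq_one_iff _).mp this
    obtain ⟨z, hz, hfix⟩ := LBalanceTwo.exists_fixed_mul_core α 1 hα hm
    have hmz : ((m * z : ↥M) : G) * x = x * ((m * z : ↥M) : G) := by
      have h1 : x' * (m * z) * x'⁻¹ = m * z := hfix
      have h2 : x' * (m * z) = (m * z) * x' := by
        conv_rhs => rw [← h1]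
        group
      exact (congrArg Subtype.val h2).symm
    refine ⟨⟨((m * z : ↥M) : G), (hCxmem _).mpr hmz, (m * z).2⟩, ?_⟩
    apply Subtype.ext
    rw [hΘval]
    show π (m * z) = π m
    have h1 : π z = 1 := (QuotientGroup.eq_one_iff _).mpr hz
    rw [map_mul, h1, mul_one]
  -- `D` in `Vp`
  have hLCx : L ≤ Cx := hL ▸ map_subtype_le _
  have hDle : L ⊓ M ≤ Vp := inf_le_inf_right _ hLCx
  have hDn : ((L ⊓ M).subgroupOf Vp).Normal := by
    have hLn : (pLayer 2 ↥Cx).Normal := Transport.pLayer_normal _ 2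
    refine ⟨fun d hd v => ?_⟩
    rw [mem_subgroupOf] at hd ⊢
    obtain ⟨hdL, hdM⟩ := hd
    refine ⟨?_, ?_⟩
    · rw [SetLike.mem_coe, hL] at hdL ⊢
      obtain ⟨ℓ, hℓ, hℓd⟩ := hdL
      refine ⟨⟨(v : G), v.2.1⟩ * ℓ * ⟨(v : G), v.2.1⟩⁻¹, hLn.conj_mem ℓ hℓ _, ?_⟩
      show (v : G) * (ℓ : G) * (v : G)⁻¹ = _
      have : (ℓ : G) = ((d : ↥Vp) : G) := hℓd
      rw [this]
      rfl
    · exact M.mul_mem (M.mul_mem v.2.2 hdM) (M.inv_mem v.2.2)
  let f : ↥(L ⊓ M) →* ↥T := Θ.comp (Subgroup.inclusion hDle)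
  have hfval : ∀ d : ↥(L ⊓ M), ((f d : ↥T) : ↥M ⧸ O) = π ⟨(d : G), (d.2).2⟩ := fun d => rfl
  have hRn : f.range.Normal := by
    have h1 : f.range = ((L ⊓ M).subgroupOf Vp).map Θ := by
      ext t
      constructor
      · rintro ⟨d, rfl⟩
        exact ⟨Subgroup.inclusion hDle d, by simpa [mem_subgroupOf] using d.2, rfl⟩
      · rintro ⟨v, hv, rfl⟩
        exact ⟨⟨(v : G), hv⟩, rfl⟩
    rw [h1]
    exact hDn.map Θ hΘsurj
  have hsub : (J.map f).IsSubnormal := by
    have h1 : (J.map f.rangeRestrict).IsSubnormal := hJ.1.map f.rangeRestrict_surjective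
    have h2 := h1.trans' hRn.isSubnormal
    have h3 : (J.map f.rangeRestrict).map f.range.subtype = J.map f := by
      rw [Subgroup.map_map]
      rfl
    rwa [h3] at h2
  have hmemJ : ∀ j : ↥(L ⊓ M), ((j : G)) ∈ M := fun j => j.2.2
  have hJ2 : 2 ∣ Nat.card J := p_dvd_card_of_isPComponent hJ
  have hne : J.map f ≠ ⊥ := by
    intro hbot
    obtain ⟨j, hj⟩ := exists_prime_orderOf_dvd_card' (G := ↥J) 2 hJ2
    have h1 : f (j : ↥(L ⊓ M)) = 1 := by
      have : f (j : ↥(L ⊓ M)) ∈ J.map f := ⟨j, j.2, rfl⟩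
      rw [hbot] at this
      exact Subgroup.mem_bot.mp this
    have h2 : π ⟨(((j : ↥(L ⊓ M))) : G), hmemJ j⟩ = 1 := congrArg Subtype.val h1
    have h3 : (⟨(((j : ↥(L ⊓ M))) : G), hmemJ j⟩ : ↥M) ∈ O := (QuotientGroup.eq_one_iff _).mp h2
    have h4 : orderOf (⟨(((j : ↥(L ⊓ M))) : G), hmemJ j⟩ : ↥M) = 2 := by
      rw [Subgroup.orderOf_mk, Subgroup.orderOf_coe, Subgroup.orderOf_coe]
      exact hj
    have h5 := Subgroup.orderOf_dvd_natCard O h3
    rw [h4] at h5
    have := Nat.Coprime.eq_one_of_dvd hOodd.symm h5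
    omega
  have hcompP : IsPComponent 2 (J.map f) :=
    BpBase.isPComponent_of_map (BpBase.isPCompGroup_of_isPComponent hJ) f hsub hne
  have hcomp : IsComponent (J.map f) := isComponent_of_isPComponent hOQ hB hxbord hcompP
  have hgoal : ((((J.map (Subgroup.subtype _)).subgroupOf M).map π).subgroupOf T) = J.map f := by
    ext t
    rw [mem_subgroupOf]
    constructor
    · rintro ⟨m, hm, hmt⟩
      rw [SetLike.mem_coe, mem_subgroupOf] at hm
      obtain ⟨j, hj, hjm⟩ := hm
      refine ⟨j, hj, ?_⟩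
      apply Subtype.ext
      rw [hfval]
      rw [← hmt]
      congr 1
      exact Subtype.ext hjm
    · rintro ⟨j, hj, rfl⟩
      refine ⟨⟨(j : G), hmemJ j⟩, ?_, rfl⟩
      rw [SetLike.mem_coe, mem_subgroupOf]
      exact ⟨j, hj, rfl⟩
  refine ⟨hgoal ▸ hcomp, ?_⟩
  -- part (ii)
  intro E hE hEodd hEnorm
  set HT := (E.subgroupOf Vp).map Θ with hHT
  have hHodd : Odd (Nat.card ↥HT) := by
    have h1 : Nat.card ↥HT ∣ Nat.card ↥(E.subgroupOf Vp) := Subgroup.card_map_dvd _ _
    have h2 : Nat.card ↥(E.subgroupOf Vp) = Nat.card E :=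
      Nat.card_congr (Subgroup.subgroupOfEquivOfLe hE).toEquiv
    rw [h2] at h1
    exact Odd.of_dvd_nat hEodd h1
  have hKnorm : ∀ k ∈ J.map f, ∀ h ∈ HT, k * h * k⁻¹ ∈ HT := by
    rintro _ ⟨j, hj, rfl⟩ _ ⟨e, he, rfl⟩
    have he' : (e : G) ∈ E := he
    have h1 := hEnorm (j : G) ⟨j, hj, rfl⟩ e he'
    refine ⟨(Subgroup.inclusion hDle j) * e * (Subgroup.inclusion hDle j)⁻¹, ?_, ?_⟩
    · rw [SetLike.mem_coe, mem_subgroupOf]
      exact h1
    · rw [map_mul, map_mul, map_inv]
      rfl
  have hKeven : 2 ∣ Nat.card ↥(J.map f) := p_dvd_card_of_isPComponent hcompP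
  have hcomm := commutator_eq_bot_of_odd hcomp hKeven hHodd hKnorm
  rw [Subgroup.commutator_eq_bot_iff_le_centralizer] at hcomm
  rw [Subgroup.commutator_le]
  rintro _ ⟨j, hj, rfl⟩ e he
  have heV : e ∈ Vp := hE he
  have h0 := hcomm (show f j ∈ J.map f from ⟨j, hj, rfl⟩)
  rw [mem_centralizer_iff] at h0
  have h1 := h0 (Θ ⟨e, heV⟩) ⟨⟨e, heV⟩, by simpa [mem_subgroupOf] using he, rfl⟩
  -- `j` and `e` in `M`
  set jM : ↥M := ⟨(j : G), hmemJ j⟩ with hjM
  set eM : ↥M := ⟨e, heV.2⟩ with heM
  have h2 : π eM * π jM = π jM * π eM := congrArg Subtype.val h1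
  have h3 : π ⁅jM, eM⁆ = 1 := by
    rw [commutatorElement_def, map_mul, map_mul, map_mul, map_inv, map_inv, ← h2]
    group
  have h4 : ⁅jM, eM⁆ ∈ O := (QuotientGroup.eq_one_iff _).mp h3
  exact ⟨⁅jM, eM⁆, h4, rfl⟩

/-- The main statement. -/
theorem main (hF : IsSimpleGroup ↥(generalizedFittingSubgroup G))
    (hF' : ¬ IsMulCommutative ↥(generalizedFittingSubgroup G))
    (hsec : ∀ (H : Subgroup G) (N : Subgroup ↥H) [N.Normal], (H ≠ ⊤ ∨ N ≠ ⊥) → HasBProperty (↥H ⧸ N))
    (x y : G) (hx : orderOf x = 2) (hy : orderOf y = 2) (hxy : x * y = y * x)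
    (J : Subgroup ↥((pLayer 2 ↥(centralizer ({x} : Set G))).map (centralizer ({x} : Set G)).subtype ⊓
      centralizer ({y} : Set G)))
    (hJ : IsPComponent 2 J) :
    IsComponent
        ((((J.map (Subgroup.subtype _)).subgroupOf (centralizer ({y} : Set G))).map
          (QuotientGroup.mk' (oddCore ↥(centralizer ({y} : Set G))))).subgroupOf
          (centralizer ({(QuotientGroup.mk' (oddCore ↥(centralizer ({y} : Set G)))
            ⟨x, mem_centralizer_singleton_iff.mpr hxy⟩ :
              ↥(centralizer ({y} : Set G)) ⧸ oddCore ↥(centralizer ({y} : Set G)))} : Set _))) ∧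
      ∀ E : Subgroup G, E ≤ centralizer ({x} : Set G) ⊓ centralizer ({y} : Set G) → Odd (Nat.card ↥E) →
        (∀ j ∈ J.map (Subgroup.subtype _), ∀ e ∈ E, j * e * j⁻¹ ∈ E) →
          ⁅J.map (Subgroup.subtype _), E⁆ ≤
            (oddCore ↥(centralizer ({y} : Set G))).map (centralizer ({y} : Set G)).subtype :=
  main_aux hF hF' hsec x y hx hy _ _ _ rfl rfl rfl _ J hJ

end Cfsg.Agent.Lib.Components.DoubleLayer
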