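import Mathlib
import Cfsg.Agent.Lib.Components.Basic
import Cfsg.Agent.Lib.Components.FStar
import Cfsg.Agent.Lib.Components.Fitting
import Cfsg.Agent.Lib.Components.PComponent
import Cfsg.Agent.Lib.Components.Quasisimple
import Cfsg.Agent.Lib.Basic.PCore
import Cfsg.Agent.Lib.Solvable.Carter

/-!
# Bounding a group by the centralizer of an involution

A finite group `G` with `O(G) = 1`, Sylow 2-subgroups of order `2 ^ a` and an involution `t` with
`|C_G(t)| ≤ c` has order bounded in terms of `a` and `c`.  The proof bounds the components of `G` by the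
Brauer–Fowler count, bounds their number by `a`, and uses `C_G(F*(G)) ≤ F*(G)`.
-/

set_option autoImplicit false

namespace Cfsg.Agent.Lib.Components.InvBound

open Cfsg

universe u

section counting

variable {G : Type*} [Group G] [Finite G]

open Classical in
/-- Card of a subgroup as a finset of the ambient group. -/
theorem card_filter_mem [Fintype G] (H : Subgroup G) :
    (Finset.univ.filter (· ∈ H)).card = Nat.card H := by
  rw [Nat.card_eq_fintype_card]
  exact (Fintype.card_subtype _).symm

/-- **Brauer–Fowler count**: an involution normalizing `L` with small centralizer produces an element of `L`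
outside any small subgroup, with a large centralizer in `L`. -/
theorem exists_large_centralizer (L : Subgroup G) {t : G} (htt : t * t = 1)
    (hL : ∀ x ∈ L, t * x * t⁻¹ ∈ L) (Z : Subgroup G) {c z : ℕ}
    (hc : Nat.card (Subgroup.centralizer ({t} : Set G)) ≤ c) (hz : Nat.card Z ≤ z)
    (hbig : 2 * c * z ≤ Nat.card L) :
    ∃ x ∈ L, x ∉ Z ∧ Nat.card L ≤ 2 * c ^ 2 * Nat.card (Subgroup.centralizer ({x} : Set G) ⊓ L : Subgroup G) := by
  classical
  haveI : Fintype G := Fintype.ofFinite G
  set Lf : Finset G := Finset.univ.filter (· ∈ L) with hLf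
  have hLcard : Lf.card = Nat.card L := card_filter_mem L
  have hc0 : 0 < c := lt_of_lt_of_le Nat.card_pos hc
  have hti : t⁻¹ = t := inv_eq_of_mul_eq_one_left htt
  set φ : G → G := fun x => x * t * x⁻¹ with hφ
  set J : Finset G := Lf.image φ with hJ
  have hJinv : ∀ a ∈ J, a * a = 1 := by
    intro a ha
    obtain ⟨x, -, rfl⟩ := Finset.mem_image.1 ha
    simp only [hφ]
    calc x * t * x⁻¹ * (x * t * x⁻¹) = x * (t * t) * x⁻¹ := by group
      _ = 1 := by rw [htt]; group
  have hJmul : ∀ a ∈ J, ∀ b ∈ J, a * b ∈ L := by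
    intro a ha b hb
    obtain ⟨x, hx, rfl⟩ := Finset.mem_image.1 ha
    obtain ⟨y, hy, rfl⟩ := Finset.mem_image.1 hb
    have hx' : x ∈ L := (Finset.mem_filter.1 hx).2
    have hy' : y ∈ L := (Finset.mem_filter.1 hy).2
    have : φ x * φ y = x * (t * (x⁻¹ * y) * t⁻¹) * y⁻¹ := by
      simp only [hφ, hti]
      group
    rw [this]
    exact L.mul_mem (L.mul_mem hx' (hL _ (L.mul_mem (L.inv_mem hx') hy'))) (L.inv_mem hy')
  -- `|L| ≤ c |J|`
  have hLJ : Lf.card ≤ c * J.card := by
    refine Finset.card_le_mul_card_image Lf c ?_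
    intro v hv
    obtain ⟨x₀, hx₀, rfl⟩ := Finset.mem_image.1 hv
    calc (Lf.filter fun x => φ x = φ x₀).card
        ≤ (Finset.univ.filter (· ∈ Subgroup.centralizer ({t} : Set G))).card := by
          refine Finset.card_le_card_of_injOn (fun x => x₀⁻¹ * x) ?_ ?_
          · intro x hx
            have hx' := (Finset.mem_filter.1 (Finset.mem_coe.1 hx)).2
            simp only [Finset.coe_filter, Finset.mem_univ, true_and, Set.mem_setOf_eq]
            rw [Subgroup.mem_centralizer_singleton_iff]
            simp only [hφ] at hx'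
            have h1 : x₀⁻¹ * x * t = t * (x₀⁻¹ * x) := by
              have h2 : x * t = x * t * x⁻¹ * x := by group
              rw [mul_assoc, h2, hx']
              group
            exact h1
          · intro x _ y _ hxy
            exact mul_left_cancel hxy
      _ = Nat.card (Subgroup.centralizer ({t} : Set G)) := card_filter_mem _
      _ ≤ c := hc
  -- the pairs
  set Zf : Finset G := Finset.univ.filter (· ∈ Z) with hZf
  have hZfc : Zf.card ≤ z := (card_filter_mem Z).trans_le hz
  set Pr : Finset (G × G) := J ×ˢ J with hPr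
  set Bad : Finset (G × G) := Pr.filter (fun p => p.1 * p.2 ∈ Z) with hBad
  set Good : Finset (G × G) := Pr.filter (fun p => ¬ p.1 * p.2 ∈ Z) with hGood
  have hsplit : Bad.card + Good.card = J.card * J.card := by
    rw [hBad, hGood, Finset.card_filter_add_card_filter_not, hPr, Finset.card_product]
  have hbad : Bad.card ≤ J.card * z := by
    have h1 : Bad.card ≤ (J ×ˢ Zf).card := by
      refine Finset.card_le_card_of_injOn (fun p => (p.1, p.1 * p.2)) ?_ ?_
      · intro p hp
        have hp' := Finset.mem_filter.1 (Finset.mem_coe.1 hp)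
        have hp1 := Finset.mem_product.1 hp'.1
        simp only [Finset.coe_product, Set.mem_prod, Finset.mem_coe]
        exact ⟨hp1.1, Finset.mem_filter.2 ⟨Finset.mem_univ _, hp'.2⟩⟩
      · rintro ⟨a, b⟩ _ ⟨a', b'⟩ _ h
        simp only [Prod.mk.injEq] at h
        obtain ⟨rfl, h2⟩ := h
        have := mul_left_cancel h2
        rw [this]
    rw [Finset.card_product] at h1
    exact h1.trans (Nat.mul_le_mul_left _ hZfc)
  -- fibres
  have hfib : ∀ w : G, (Good.filter fun p => p.1 * p.2 = w).card ≤
      Nat.card (Subgroup.centralizer ({w} : Set G) ⊓ L : Subgroup G) := by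
    intro w
    by_cases hne : (Good.filter fun p => p.1 * p.2 = w).Nonempty
    · obtain ⟨⟨a₀, b₀⟩, h₀⟩ := hne
      have h₀' := Finset.mem_filter.1 h₀
      have h₀1 := Finset.mem_filter.1 h₀'.1
      have h₀2 := Finset.mem_product.1 h₀1.1
      simp only at h₀2 h₀'
      have ha₀ : a₀ ∈ J := h₀2.1
      have hb₀ : b₀ ∈ J := h₀2.2
      have hinv : ∀ a ∈ J, ∀ b ∈ J, a * b = w → a * w * a⁻¹ = w⁻¹ := by
        intro a ha b hb hab
        have hai : a⁻¹ = a := inv_eq_of_mul_eq_one_left (hJinv a ha)
        have hbi : b⁻¹ = b := inv_eq_of_mul_eq_one_left (hJinv b hb)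
        rw [← hab, mul_inv_rev, hai, hbi]
        calc a * (a * b) * a = (a * a) * b * a := by group
          _ = b * a := by rw [hJinv a ha]; group
      rw [← card_filter_mem]
      refine Finset.card_le_card_of_injOn (fun p => a₀ * p.1) ?_ ?_
      · intro p hp
        have hp' := Finset.mem_filter.1 (Finset.mem_coe.1 hp)
        have hp1 := Finset.mem_filter.1 hp'.1
        have hp2 := Finset.mem_product.1 hp1.1
        simp only [Finset.coe_filter, Finset.mem_univ, true_and, Set.mem_setOf_eq, Subgroup.mem_inf]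
        refine ⟨?_, hJmul _ ha₀ _ hp2.1⟩
        rw [Subgroup.mem_centralizer_singleton_iff]
        have h1 := hinv _ ha₀ _ hb₀ h₀'.2
        have h2 := hinv _ hp2.1 _ hp2.2 hp'.2
        have h3 : a₀ * p.1 * w * (a₀ * p.1)⁻¹ = w := by
          calc a₀ * p.1 * w * (a₀ * p.1)⁻¹ = a₀ * (p.1 * w * p.1⁻¹) * a₀⁻¹ := by group
            _ = a₀ * w⁻¹ * a₀⁻¹ := by rw [h2]
            _ = (a₀ * w * a₀⁻¹)⁻¹ := by group
            _ = w := by rw [h1, inv_inv]
        calc a₀ * p.1 * w = a₀ * p.1 * w * (a₀ * p.1)⁻¹ * (a₀ * p.1) := by group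
          _ = w * (a₀ * p.1) := by rw [h3]
      · rintro ⟨a, b⟩ hp ⟨a', b'⟩ hp' h
        have h1 : a = a' := mul_left_cancel h
        subst h1
        have hq := (Finset.mem_filter.1 (Finset.mem_coe.1 hp)).2
        have hq' := (Finset.mem_filter.1 (Finset.mem_coe.1 hp')).2
        simp only at hq hq'
        have : b = b' := mul_left_cancel (hq.trans hq'.symm)
        rw [this]
    · rw [Finset.not_nonempty_iff_eq_empty.1 hne]
      exact Nat.zero_le _
  by_contra hcon
  push Not at hcon
  -- `L \ Z`
  set T : Finset G := Lf.filter (· ∉ Z) with hT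
  have hmaps : ∀ p ∈ Good, p.1 * p.2 ∈ T := by
    intro p hp
    have hp' := Finset.mem_filter.1 hp
    have hp1 := Finset.mem_product.1 hp'.1
    exact Finset.mem_filter.2 ⟨Finset.mem_filter.2 ⟨Finset.mem_univ _, hJmul _ hp1.1 _ hp1.2⟩, hp'.2⟩
  have hsum : 2 * c ^ 2 * Good.card < Lf.card * Lf.card := by
    have hLpos : 0 < Lf.card := by rw [hLcard]; exact Nat.card_pos
    by_cases hTne : T.Nonempty
    · rw [Finset.card_eq_sum_card_fiberwise hmaps, Finset.mul_sum]
      calc ∑ w ∈ T, 2 * c ^ 2 * (Good.filter fun p => p.1 * p.2 = w).card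
          < ∑ w ∈ T, Lf.card := by
            refine Finset.sum_lt_sum_of_nonempty hTne ?_
            intro w hw
            have hw' := Finset.mem_filter.1 hw
            have h1 := hcon w (Finset.mem_filter.1 hw'.1).2 hw'.2
            rw [hLcard]
            exact lt_of_le_of_lt (Nat.mul_le_mul_left _ (hfib w)) h1
        _ = T.card * Lf.card := by rw [Finset.sum_const, smul_eq_mul]
        _ ≤ Lf.card * Lf.card := Nat.mul_le_mul_right _ (Finset.card_filter_le _ _)
    · have hG0 : Good = ∅ := by
        rw [Finset.eq_empty_iff_forall_notMem]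
        intro p hp
        exact hTne ⟨_, hmaps p hp⟩
      rw [hG0, Finset.card_empty, mul_zero]
      positivity
  rw [← hLcard] at hbig
  set j := J.card with hj
  set n := Lf.card with hn
  set g := Good.card with hg
  set b := Bad.card with hb
  have h2z : 2 * z ≤ j := by
    have h1 : c * (2 * z) ≤ c * j := by
      calc c * (2 * z) = 2 * c * z := by ring
        _ ≤ n := hbig
        _ ≤ c * j := hLJ
    exact Nat.le_of_mul_le_mul_left h1 hc0
  have h3 : j * j ≤ 2 * g := by
    have h4 : 2 * (j * z) ≤ j * j := by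
      calc 2 * (j * z) = j * (2 * z) := by ring
        _ ≤ j * j := Nat.mul_le_mul_left _ h2z
    omega
  have h5 : n * n ≤ c * j * (c * j) := Nat.mul_le_mul hLJ hLJ
  have h6 : c * j * (c * j) = c ^ 2 * (j * j) := by ring
  have h7 : c ^ 2 * (j * j) ≤ c ^ 2 * (2 * g) := Nat.mul_le_mul_left _ h3
  have h8 : c ^ 2 * (2 * g) = 2 * c ^ 2 * g := by ring
  omega

end counting

section quasi

variable {L : Type*} [Group L] [Finite L]

/-- A quasisimple group with a noncentral element of small class has bounded order. -/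
theorem card_le_of_index_le (hQ : IsQuasisimple L) (H : Subgroup L) (hH : H ≠ ⊤) {m z : ℕ}
    (hidx : H.index ≤ m) (hz : Nat.card (Subgroup.center L) ≤ z) :
    Nat.card L ≤ z * m.factorial := by
  classical
  let φ := MulAction.toPermHom L (L ⧸ H)
  have hker : φ.ker = H.normalCore := (Subgroup.normalCore_eq_ker H).symm
  have hkerne : φ.ker ≠ ⊤ := by
    intro h
    apply hH
    rw [hker] at h
    rw [eq_top_iff, ← h]
    exact Subgroup.normalCore_le H
  have hcen : φ.ker ≤ Subgroup.center L := by
    rcases Cfsg.Agent.Lib.Components.Quasisimple.eq_top_or_le_center_of_normal hQ φ.normal_ker with h | h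
    · exact absurd h hkerne
    · exact h
  have h1 := Subgroup.card_mul_index φ.ker
  rw [Subgroup.index_ker] at h1
  rw [← h1]
  have h2 : Nat.card φ.ker ≤ z := (Subgroup.card_le_of_le hcen).trans hz
  have h3 : Nat.card φ.range ≤ m.factorial := by
    have h4 : Nat.card φ.range ≤ Nat.card (Equiv.Perm (L ⧸ H)) := Subgroup.card_le_card_group _
    rw [Nat.card_perm] at h4
    refine h4.trans (Nat.factorial_le ?_)
    exact hidx
  exact Nat.mul_le_mul h2 h3

end quasi

section components

variable {G : Type*} [Group G] [Finite G]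

/-- The centre of a subgroup, viewed in the ambient group. -/
def Zc (L : Subgroup G) : Subgroup G := (Subgroup.center L).map L.subtype

omit [Finite G] in
theorem mem_Zc {L : Subgroup G} {x : G} : x ∈ Zc L ↔ x ∈ L ∧ ∀ w ∈ L, w * x = x * w := by
  constructor
  · rintro ⟨y, hy, rfl⟩
    refine ⟨y.2, fun w hw => ?_⟩
    have := Subgroup.mem_center_iff.1 hy ⟨w, hw⟩
    exact congrArg Subtype.val this
  · rintro ⟨hx, h⟩
    refine ⟨⟨x, hx⟩, ?_, rfl⟩
    rw [SetLike.mem_coe, Subgroup.mem_center_iff]
    rintro ⟨w, hw⟩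
    exact Subtype.ext (h w hw)

omit [Finite G] in
theorem card_Zc (L : Subgroup G) : Nat.card (Zc L) = Nat.card (Subgroup.center L) :=
  Nat.card_congr (Subgroup.equivMapOfInjective _ _ L.subtype_injective).toEquiv.symm

/-- If the involution moves the component then the component is small. -/
theorem card_le_of_moved {L : Subgroup G} (hL : IsComponent L) {t : G} (htt : t * t = 1)
    (hmove : L.map (MulAut.conj t).toMonoidHom ≠ L) {c z : ℕ}
    (hc : Nat.card (Subgroup.centralizer ({t} : Set G)) ≤ c) (hz : Nat.card (Zc L) ≤ z) :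
    Nat.card L ≤ z * c := by
  classical
  haveI : Fintype G := Fintype.ofFinite G
  set L' := L.map (MulAut.conj t).toMonoidHom with hL'
  have hcomm : ⁅L, L'⁆ = ⊥ := by
    rcases Cfsg.Agent.Lib.Components.Basic.component_eq_or_commutator L L' hL
      (Cfsg.Agent.Lib.Components.FStar.isComponent_conj t hL) with h | h
    · exact absurd h.symm hmove
    · exact h
  have hcm : ∀ x ∈ L, ∀ y ∈ L', x * y = y * x := by
    intro x hx y hy
    have h1 := (Subgroup.commutator_eq_bot_iff_le_centralizer.1 hcomm) hx
    exact ((Subgroup.mem_centralizer_iff.1 h1) y hy).symm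
  have hti : t⁻¹ = t := inv_eq_of_mul_eq_one_left htt
  have hmemL' : ∀ x ∈ L, t * x * t⁻¹ ∈ L' := fun x hx => ⟨x, hx, rfl⟩
  set Lf : Finset G := Finset.univ.filter (· ∈ L) with hLf
  set Cf : Finset G := Finset.univ.filter (· ∈ Subgroup.centralizer ({t} : Set G)) with hCf
  set ψ : G → G := fun x => x * (t * x * t⁻¹) with hψ
  have h1 : Lf.card ≤ z * Cf.card := by
    refine Finset.card_le_mul_card_image_of_maps_to (f := ψ) ?_ z ?_
    · intro x hx
      have hx' : x ∈ L := (Finset.mem_filter.1 hx).2
      refine Finset.mem_filter.2 ⟨Finset.mem_univ _, ?_⟩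
      rw [Subgroup.mem_centralizer_singleton_iff]
      have h2 := hcm x hx' _ (hmemL' x hx')
      simp only [hψ, hti] at h2 ⊢
      calc x * (t * x * t) * t = x * t * x * (t * t) := by group
        _ = x * t * x := by rw [htt, mul_one]
        _ = (t * t) * x * t * x := by rw [htt, one_mul]
        _ = t * (t * x * t * x) := by group
        _ = t * (x * (t * x * t)) := by rw [h2]
    · intro v _
      by_cases hne : (Lf.filter fun x => ψ x = v).Nonempty
      · obtain ⟨x₀, hx₀⟩ := hne
        have hx₀' := Finset.mem_filter.1 hx₀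
        have hx₀L : x₀ ∈ L := (Finset.mem_filter.1 hx₀'.1).2
        refine le_trans ?_ hz
        rw [← card_filter_mem]
        refine Finset.card_le_card_of_injOn (fun x => x₀⁻¹ * x) ?_ ?_
        · intro x hx
          have hx' := Finset.mem_filter.1 (Finset.mem_coe.1 hx)
          have hxL : x ∈ L := (Finset.mem_filter.1 hx'.1).2
          have heq : ψ x = ψ x₀ := hx'.2.trans hx₀'.2.symm
          simp only [Finset.coe_filter, Finset.mem_univ, true_and, Set.mem_setOf_eq]
          rw [mem_Zc]
          refine ⟨L.mul_mem (L.inv_mem hx₀L) hxL, fun w hw => ?_⟩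
          have hk : x₀⁻¹ * x = t * (x₀ * x⁻¹) * t⁻¹ := by
            simp only [hψ] at heq
            calc x₀⁻¹ * x = x₀⁻¹ * (x * (t * x * t⁻¹)) * (t * x * t⁻¹)⁻¹ := by group
              _ = x₀⁻¹ * (x₀ * (t * x₀ * t⁻¹)) * (t * x * t⁻¹)⁻¹ := by rw [heq]
              _ = _ := by group
          rw [hk]
          exact hcm w hw _ (hmemL' _ (L.mul_mem hx₀L (L.inv_mem hxL)))
        · intro x _ y _ hxy
          exact mul_left_cancel hxy
      · rw [Finset.not_nonempty_iff_eq_empty.1 hne]
        exact Nat.zero_le _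
  rw [card_filter_mem, card_filter_mem] at h1
  exact h1.trans (Nat.mul_le_mul_left _ hc)

/-- If the involution normalizes the quasisimple subgroup then the subgroup is small. -/
theorem card_le_of_normalized {L : Subgroup G} (hQ : IsQuasisimple L) {t : G} (htt : t * t = 1)
    (hn : ∀ x ∈ L, t * x * t⁻¹ ∈ L) {c z : ℕ}
    (hc : Nat.card (Subgroup.centralizer ({t} : Set G)) ≤ c) (hz : Nat.card (Zc L) ≤ z) :
    Nat.card L ≤ 2 * c * z + z * (2 * c ^ 2).factorial := by
  by_cases hbig : 2 * c * z ≤ Nat.card L
  · obtain ⟨x, hxL, hxZ, hx⟩ := exists_large_centralizer L htt hn (Zc L) hc hz hbig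
    let H : Subgroup L := Subgroup.centralizer ({⟨x, hxL⟩} : Set L)
    have hne : H ≠ ⊤ := by
      intro htop
      apply hxZ
      rw [mem_Zc]
      refine ⟨hxL, fun w hw => ?_⟩
      have h1 : (⟨w, hw⟩ : L) ∈ H := by rw [htop]; trivial
      have h2 := Subgroup.mem_centralizer_singleton_iff.1 h1
      exact congrArg Subtype.val h2
    have hcardH : Nat.card (Subgroup.centralizer ({x} : Set G) ⊓ L : Subgroup G) = Nat.card H := by
      have h1 : Subgroup.centralizer ({x} : Set G) ⊓ L = H.map L.subtype := by
        ext w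
        simp only [Subgroup.mem_inf, Subgroup.mem_map, Subgroup.mem_centralizer_singleton_iff]
        constructor
        · rintro ⟨h1, h2⟩
          refine ⟨⟨w, h2⟩, ?_, rfl⟩
          exact Subgroup.mem_centralizer_singleton_iff.2 (Subtype.ext h1)
        · rintro ⟨y, hy, rfl⟩
          refine ⟨?_, y.2⟩
          exact congrArg Subtype.val (Subgroup.mem_centralizer_singleton_iff.1 hy)
      rw [h1]
      exact Nat.card_congr (Subgroup.equivMapOfInjective _ _ L.subtype_injective).toEquiv.symm
    rw [hcardH] at hx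
    have hidx : H.index ≤ 2 * c ^ 2 := by
      have h1 := Subgroup.card_mul_index H
      rw [← h1, mul_comm (2 * c ^ 2)] at hx
      exact Nat.le_of_mul_le_mul_left hx Nat.card_pos
    have hz' : Nat.card (Subgroup.center L) ≤ z := by rwa [← card_Zc]
    have := card_le_of_index_le hQ H hne hidx hz'
    omega
  · push Not at hbig
    have : 2 * c * z ≤ 2 * c * z + z * (2 * c ^ 2).factorial := Nat.le_add_right _ _
    omega

/-- A bound for a component. -/
theorem card_component_le {L : Subgroup G} (hL : IsComponent L) {t : G} (htt : t * t = 1) {c z : ℕ}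
    (hc : Nat.card (Subgroup.centralizer ({t} : Set G)) ≤ c) (hz : Nat.card (Zc L) ≤ z) :
    Nat.card L ≤ z * c + (2 * c * z + z * (2 * c ^ 2).factorial) := by
  by_cases hm : L.map (MulAut.conj t).toMonoidHom = L
  · have h1 : ∀ x ∈ L, t * x * t⁻¹ ∈ L := by
      intro x hx
      rw [← hm]
      exact ⟨x, hx, rfl⟩
    have := card_le_of_normalized hL.2 htt h1 hc hz
    omega
  · have := card_le_of_moved hL htt hm hc hz
    omega

end components

section core

variable {G : Type*} [Group G] [Finite G]

open Cfsg.Agent.Lib.Basic.PCore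

/-- With `O(G) = 1` the Fitting subgroup is a 2-group. -/
theorem fitting_isPGroup (hO : ∀ N : Subgroup G, N.Normal → Odd (Nat.card N) → N = ⊥) :
    IsPGroup 2 (fittingSubgroup G) := by
  haveI : Fact (Nat.Prime 2) := ⟨Nat.prime_two⟩
  have hle : fittingSubgroup G ≤ pCore 2 G := by
    rw [fittingSubgroup_eq_iSup_pCore]
    refine iSup_le ?_
    rintro ⟨p, hp⟩
    have hpp : p.Prime := Nat.prime_of_mem_primeFactors hp
    by_cases h2 : p = 2
    · subst h2
      exact le_rfl
    · haveI : Fact p.Prime := ⟨hpp⟩
      have hb : pCore p G = ⊥ := by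
        apply hO _ inferInstance
        obtain ⟨k, hk⟩ := IsPGroup.iff_card.1 (pCore_isPGroup p (G := G))
        rw [hk]
        exact (hpp.odd_of_ne_two h2).pow
      simp only [hb]
      exact bot_le
  exact (pCore_isPGroup 2 (G := G)).to_le hle

/-- The centre of a component lies in the Fitting subgroup. -/
theorem Zc_le_fitting {L : Subgroup G} (hL : IsComponent L) : Zc L ≤ fittingSubgroup G := by
  refine Cfsg.Agent.Lib.Components.Fitting.le_fitting_of_subnormal ?_ ?_
  · refine Subgroup.IsSubnormal.step (Zc L) L ?_ hL.1 ?_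
    · rintro _ ⟨y, _, rfl⟩
      exact y.2
    · have : (Zc L).subgroupOf L = Subgroup.center L :=
        Subgroup.comap_map_eq_self_of_injective L.subtype_injective _
      rw [this]
      infer_instance
  · unfold Zc
    rw [Cfsg.Agent.Lib.Components.Fitting.isNilpotent_map_of_injective _ _ L.subtype_injective]
    have hcomm : ∀ a b : Subgroup.center L, a * b = b * a := by
      intro a b
      apply Subtype.ext
      exact (Subgroup.mem_center_iff.1 b.2 _)
    letI : CommGroup (Subgroup.center L) :=
      { (inferInstance : Group (Subgroup.center L)) with mul_comm := hcomm }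
    exact CommGroup.isNilpotent

/-- A component has a noncentral 2-element when `O(G) = 1`. -/
theorem exists_noncentral_two_element (hO : ∀ N : Subgroup G, N.Normal → Odd (Nat.card N) → N = ⊥)
    {L : Subgroup G} (hL : IsComponent L) :
    ∃ y ∈ L, (∃ n : ℕ, y ^ 2 ^ n = 1) ∧ ∃ w ∈ L, y * w ≠ w * y := by
  classical
  haveI : Fact (Nat.Prime 2) := ⟨Nat.prime_two⟩
  by_contra hcon
  push Not at hcon
  have hQ := hL.2
  have hperf := hQ.1
  obtain ⟨S⟩ : Nonempty (Sylow 2 L) := inferInstance
  have hScen : (S : Subgroup L) ≤ Subgroup.center L := by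
    intro s hs
    rw [Subgroup.mem_center_iff]
    rintro ⟨w, hw⟩
    obtain ⟨n, hn⟩ := S.isPGroup' ⟨s, hs⟩
    have hn' : ((s : L) : G) ^ 2 ^ n = 1 := by
      have := congrArg (fun u : S => ((u : L) : G)) hn
      simpa using this
    apply Subtype.ext
    exact (hcon _ s.2 ⟨n, hn'⟩ w hw).symm
  have hSc : Subgroup.centralizer ((S : Subgroup L) : Set L) = ⊤ := by
    rw [eq_top_iff]
    intro g _
    rw [Subgroup.mem_centralizer_iff]
    intro s hs
    exact (Subgroup.mem_center_iff.1 (hScen hs) g).symm
  have hnorm : Subgroup.normalizer ((S : Subgroup L) : Set L) ≤ Subgroup.centralizer ((S : Subgroup L) : Set L) := by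
    rw [hSc]
    exact le_top
  let τ := MonoidHom.transferSylow S hnorm
  have hker : τ.ker = ⊤ := by
    rw [eq_top_iff, ← hperf.commutator_eq_top, commutator_def, Subgroup.commutator_le]
    intro a _ b _
    rw [MonoidHom.mem_ker, map_commutatorElement, commutatorElement_eq_one_iff_mul_comm]
    apply Subtype.ext
    exact Subgroup.mem_center_iff.1 (hScen (τ b).2) _
  have hcompl := MonoidHom.ker_transferSylow_isComplement' S hnorm
  have hcard := hcompl.card_mul_card
  have hS1 : Nat.card S = 1 := by
    have h1 : Nat.card τ.ker = Nat.card L := by rw [hker, Subgroup.card_top]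
    rw [h1] at hcard
    exact Nat.eq_of_mul_eq_mul_left Nat.card_pos (by rw [hcard, mul_one])
  have hodd : (Nat.card L).Coprime 2 := by
    rw [Nat.coprime_comm, Nat.Prime.coprime_iff_not_dvd Nat.prime_two]
    have h1 := S.not_dvd_index
    have h2 := Subgroup.card_mul_index (S : Subgroup L)
    rw [hS1, one_mul] at h2
    rwa [h2] at h1
  have hleO := Cfsg.Agent.Lib.Components.PComponent.le_pPrimeCore_of_isSubnormal 2 hL.1 hodd
  have hObot : pPrimeCore 2 G = ⊥ := by
    apply hO _ inferInstance
    exact Nat.coprime_two_right.1 (Cfsg.Agent.Lib.Solvable.Carter.card_pPrimeCore_coprime (G := G) 2)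
  rw [hObot, le_bot_iff] at hleO
  have := Cfsg.Agent.Lib.Components.Basic.isQuasisimple_nontrivial hQ
  rw [hleO] at this
  exact not_nontrivial_iff_subsingleton.2 inferInstance this

omit [Finite G] in
/-- Distinct components commute. -/
theorem le_centralizer_of_ne {L L₁ : Subgroup G} (hL : IsComponent L) (hL₁ : IsComponent L₁) (hne : L ≠ L₁) :
    L ≤ Subgroup.centralizer (L₁ : Set G) := by
  rcases Cfsg.Agent.Lib.Components.Basic.component_eq_or_commutator L L₁ hL hL₁ with h | h
  · exact absurd h hne
  · intro x hx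
    have h1 := (Subgroup.commutator_eq_bot_iff_le_centralizer.1 h) hx
    exact h1

/-- The 2-subgroup produced by a set of components. -/
theorem exists_two_subgroup (hO : ∀ N : Subgroup G, N.Normal → Odd (Nat.card N) → N = ⊥)
    (S : Finset (Subgroup G)) (hS : ∀ L ∈ S, IsComponent L) :
    ∃ A : Subgroup G, IsPGroup 2 A ∧ 2 ^ S.card ≤ Nat.card A ∧
      ∀ L₁ : Subgroup G, IsComponent L₁ → L₁ ∉ S → A ≤ Subgroup.centralizer (L₁ : Set G) := by
  classical
  haveI : Fact (Nat.Prime 2) := ⟨Nat.prime_two⟩
  induction S using Finset.induction_on with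
  | empty =>
    refine ⟨⊥, IsPGroup.of_bot, by simp, fun _ _ _ => bot_le⟩
  | insert L₀ S hL₀ ih =>
    obtain ⟨A, hA, hAc, hAz⟩ := ih (fun L hL => hS L (Finset.mem_insert_of_mem hL))
    have hL₀c := hS L₀ (Finset.mem_insert_self _ _)
    obtain ⟨y, hyL, ⟨n, hn⟩, w, hw, hyw⟩ := exists_noncentral_two_element hO hL₀c
    have hAL₀ := hAz L₀ hL₀c hL₀
    have hyA : y ∉ A := by
      intro hy
      exact hyw ((Subgroup.mem_centralizer_iff.1 (hAL₀ hy)) w hw).symm
    have hPy : IsPGroup 2 (Subgroup.zpowers y) := by
      rintro ⟨g, k, rfl⟩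
      refine ⟨n, ?_⟩
      apply Subtype.ext
      show (y ^ k) ^ 2 ^ n = 1
      rw [← zpow_natCast, ← zpow_mul, mul_comm, zpow_mul, zpow_natCast, hn, one_zpow]
    have hnormal : Subgroup.zpowers y ≤ Subgroup.normalizer (A : Set G) := by
      rw [Subgroup.zpowers_le, Subgroup.mem_normalizer_iff]
      intro a
      have hcm : ∀ b ∈ A, y * b = b * y := fun b hb =>
        (Subgroup.mem_centralizer_iff.1 (hAL₀ hb)) y hyL
      constructor
      · intro ha
        have : y * a * y⁻¹ = a := by rw [hcm a ha]; group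
        rw [this]
        exact ha
      · intro ha
        have h1 := hcm _ ha
        have h2 : a = y * a * y⁻¹ := by
          have h3 : y * (y * a * y⁻¹) = y * a * y⁻¹ * y := h1
          have h4 : y * a * y⁻¹ * y = y * a := by group
          rw [h4] at h3
          exact (mul_left_cancel h3).symm
        rw [h2]
        exact ha
    refine ⟨A ⊔ Subgroup.zpowers y, ?_, ?_, ?_⟩
    · exact IsPGroup.to_sup_of_normal_left' hA hPy hnormal
    · rw [Finset.card_insert_of_notMem hL₀, pow_succ]
      have hle : A ≤ A ⊔ Subgroup.zpowers y := le_sup_left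
      obtain ⟨k, hk⟩ := Subgroup.card_dvd_of_le hle
      have hk0 : k ≠ 0 := by
        rintro rfl
        rw [mul_zero] at hk
        exact Nat.card_pos.ne' hk
      have hk1 : k ≠ 1 := by
        rintro rfl
        rw [mul_one] at hk
        have := Subgroup.eq_of_le_of_card_ge hle hk.le
        apply hyA
        rw [this]
        exact Subgroup.mem_sup_right (Subgroup.mem_zpowers y)
      have hk2 : 2 ≤ k := by omega
      rw [hk]
      exact Nat.mul_le_mul hAc hk2
    · intro L₁ hL₁ hnot
      rw [Finset.mem_insert, not_or] at hnot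
      refine sup_le (hAz L₁ hL₁ hnot.2) ?_
      rw [Subgroup.zpowers_le]
      exact le_centralizer_of_ne hL₀c hL₁ (Ne.symm hnot.1) hyL

omit [Finite G] in
/-- `|AB| ≤ |A||B|` for `B` normal. -/
theorem card_sup_le [Finite G] (A B : Subgroup G) (hB : B.Normal) :
    Nat.card (A ⊔ B : Subgroup G) ≤ Nat.card A * Nat.card B := by
  rw [← Nat.card_prod]
  let f : A × B → (A ⊔ B : Subgroup G) := fun p => ⟨p.1 * p.2, Subgroup.mul_mem_sup p.1.2 p.2.2⟩
  refine Nat.card_le_card_of_surjective f ?_
  rintro ⟨g, hg⟩
  obtain ⟨a, ha, b, hb, rfl⟩ := Subgroup.mem_sup_of_normal_right.1 hg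
  exact ⟨(⟨a, ha⟩, ⟨b, hb⟩), rfl⟩

/-- The order of the group from the order of `F*`. -/
theorem card_le_of_fstar {m : ℕ} (h : Nat.card (generalizedFittingSubgroup G) ≤ m) :
    Nat.card G ≤ m * m.factorial := by
  classical
  set F := generalizedFittingSubgroup G with hF
  haveI hFn : F.Normal := by
    rw [hF]
    unfold generalizedFittingSubgroup
    exact Subgroup.sup_normal _ _
  let φ : G →* MulAut F := MulAut.conjNormal
  have h1 := Subgroup.card_mul_index φ.ker
  rw [Subgroup.index_ker] at h1
  rw [← h1]
  have h2 : φ.ker ≤ F := by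
    refine le_trans ?_ (Cfsg.Agent.Lib.Components.FStar.centralizer_generalizedFitting_le (G := G))
    intro g hg
    rw [Subgroup.mem_centralizer_iff]
    intro x hx
    have h3 : φ g ⟨x, hx⟩ = ⟨x, hx⟩ := by
      rw [MonoidHom.mem_ker.1 hg]
      rfl
    have h4 := congrArg Subtype.val h3
    have h5 : g * x * g⁻¹ = x := h4
    calc x * g = g * x * g⁻¹ * g := by rw [h5]
      _ = g * x := by group
  have h3 : Nat.card φ.ker ≤ m := (Subgroup.card_le_of_le h2).trans h
  have h4 : Nat.card φ.range ≤ m.factorial := by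
    have h5 : Nat.card φ.range ≤ Nat.card (MulAut F) := Subgroup.card_le_card_group _
    have h6 : Nat.card (MulAut F) ≤ Nat.card (Equiv.Perm F) :=
      Nat.card_le_card_of_injective (fun e : MulAut F => e.toEquiv) (fun a b hab => by
        ext x
        exact congrArg (fun e : Equiv.Perm F => ((e x : F) : G)) hab)
    rw [Nat.card_perm] at h6
    exact h5.trans (h6.trans (Nat.factorial_le h))
  exact Nat.mul_le_mul h3 h4

/-- The explicit bound. -/
def bound₁ (a c : ℕ) : ℕ :=
  2 ^ a * c + (2 * c * 2 ^ a + 2 ^ a * (2 * c ^ 2).factorial)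

/-- The explicit bound on `F*`. -/
def bound₂ (a c : ℕ) : ℕ := bound₁ a c ^ a * 2 ^ a

/-- **The main bound**: with `O(G) = 1`, 2-subgroups of order at most `2 ^ a` and an involution with centralizer
of order at most `c`, the order of `G` is bounded. -/
theorem card_le_bound (a c : ℕ) (hO : ∀ N : Subgroup G, N.Normal → Odd (Nat.card N) → N = ⊥)
    (hP : ∀ P : Subgroup G, IsPGroup 2 P → Nat.card P ≤ 2 ^ a) {t : G} (htt : t * t = 1)
    (hc : Nat.card (Subgroup.centralizer ({t} : Set G)) ≤ c) :
    Nat.card G ≤ bound₂ a c * (bound₂ a c).factorial := by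
  classical
  haveI : Fintype (Subgroup G) := Fintype.ofFinite _
  apply card_le_of_fstar
  have hF : Nat.card (fittingSubgroup G) ≤ 2 ^ a := hP _ (fitting_isPGroup hO)
  have hcomp : ∀ L : Subgroup G, IsComponent L → Nat.card L ≤ bound₁ a c := by
    intro L hL
    have hz : Nat.card (Zc L) ≤ 2 ^ a := (Subgroup.card_le_of_le (Zc_le_fitting hL)).trans hF
    exact card_component_le hL htt hc hz
  -- the components
  let Cs : Finset (Subgroup G) := Finset.univ.filter IsComponent
  have hCs : ∀ L ∈ Cs, IsComponent L := fun L hL => (Finset.mem_filter.1 hL).2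
  obtain ⟨A, hA, hAc, -⟩ := exists_two_subgroup hO Cs hCs
  have hk : Cs.card ≤ a := by
    have h1 : 2 ^ Cs.card ≤ 2 ^ a := hAc.trans (hP A hA)
    exact (Nat.pow_le_pow_iff_right (by norm_num)).1 h1
  have hlayer : Nat.card (layer G) ≤ bound₁ a c ^ a := by
    have hcomm : Pairwise fun i j : Cs => ∀ x y : G, x ∈ (i : Subgroup G) → y ∈ (j : Subgroup G) → Commute x y := by
      intro i j hij x y hx hy
      have hne : (i : Subgroup G) ≠ j := fun h => hij (Subtype.ext h)
      have := le_centralizer_of_ne (hCs i i.2) (hCs j j.2) hne hx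
      exact ((Subgroup.mem_centralizer_iff.1 this) y hy).symm
    let f := Subgroup.noncommPiCoprod hcomm
    have hr : f.range = layer G := by
      rw [Subgroup.noncommPiCoprod_range]
      unfold layer
      apply le_antisymm
      · exact iSup_le fun i => le_sSup (hCs i i.2)
      · refine sSup_le fun L hL => ?_
        exact le_iSup (fun i : Cs => (i : Subgroup G)) ⟨L, Finset.mem_filter.2 ⟨Finset.mem_univ _, hL⟩⟩
    rw [← hr]
    have h1 : Nat.card f.range ≤ Nat.card (∀ i : Cs, (i : Subgroup G)) :=
      Nat.card_le_card_of_surjective f.rangeRestrict f.rangeRestrict_surjective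
    refine h1.trans ?_
    rw [Nat.card_pi]
    have hpos : 0 < bound₁ a c := by
      unfold bound₁
      have : 0 < (2 * c ^ 2).factorial := Nat.factorial_pos _
      positivity
    calc ∏ i : Cs, Nat.card (i : Subgroup G) ≤ ∏ _i : Cs, bound₁ a c :=
          Finset.prod_le_prod' fun i _ => hcomp i (hCs i i.2)
      _ = bound₁ a c ^ Cs.card := by simp
      _ ≤ bound₁ a c ^ a := Nat.pow_le_pow_right hpos hk
  have hFs : Nat.card (generalizedFittingSubgroup G) ≤ Nat.card (layer G) * Nat.card (fittingSubgroup G) := by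
    unfold generalizedFittingSubgroup
    exact card_sup_le _ _ inferInstance
  exact hFs.trans (Nat.mul_le_mul hlayer hF)

end core

end Cfsg.Agent.Lib.Components.InvBound
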