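import Mathlib
import Cfsg.Agent.S1160
import Cfsg.Agent.Lib.Nilpotent.Fitting
import Cfsg.Agent.Lib.Components.Fitting

/-!
# A solvable group of odd order transitive on the non-zero vectors of an elementary abelian group.
-/

set_option autoImplicit false
set_option linter.style.haveILetI false
set_option linter.unusedSectionVars false
set_option linter.unusedVariables false

namespace Cfsg.Agent.Lib.Components.OddTransitive

open Cfsg Cfsg.Agent.Lib.Nilpotent.Fitting
open scoped commutatorElement

universe u v

variable {D : Type u} {E : Type v} [Group D] [Finite D]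
    [AddCommGroup E] [Finite E] [DistribMulAction D E] [FaithfulSMul D E]

/-- The `p`-core is cyclic and fixed-point-free. -/
theorem pCore_facts (hodd : Odd (Nat.card D)) {q : ℕ} (hq : q.Prime) (hE : ∀ e : E, q • e = 0)
    (htrans : ∀ a b : E, a ≠ 0 → b ≠ 0 → ∃ d : D, d • a = b) (p : ℕ) [hp : Fact p.Prime] :
    IsCyclic (pCore p D) ∧ ∀ g : pCore p D, g ≠ 1 → ∀ a : E, g • a = a → a = 0 := by
  classical
  by_cases hp2 : p = 2
  · subst hp2
    have hbot : pCore 2 D = ⊥ := by
      have h1 := isPGroup_pCore (G := D) 2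
      obtain ⟨k, hk⟩ := IsPGroup.iff_card.mp h1
      have h2 : Nat.card (pCore 2 D) ∣ Nat.card D := Subgroup.card_subgroup_dvd_card _
      have h3 : Odd (Nat.card (pCore 2 D)) := Odd.of_dvd_nat hodd h2
      rw [hk] at h3
      have hk0 : k = 0 := by
        by_contra hk0
        have := (Nat.odd_pow_iff hk0).mp h3
        revert this
        decide
      rw [hk0, pow_zero] at hk
      exact Subgroup.eq_bot_of_card_eq _ hk
    constructor
    · rw [hbot]; exact inferInstance
    · intro g hg
      exfalso
      apply hg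
      apply Subtype.ext
      have h5 : (g : D) ∈ (⊥ : Subgroup D) := hbot ▸ g.2
      exact Subgroup.mem_bot.mp h5
  · have hn : (pCore p D).Normal := pCore_normal p D
    refine Cfsg.Agent.S1160.result (P := pCore p D) (E := E) hp2 (isPGroup_pCore p) hq hE ?_
    intro a b ha hb
    obtain ⟨d, hd⟩ := htrans a b ha hb
    refine Nat.card_congr ?_
    have hm1 : ∀ x : pCore p D, d * x.1 * d⁻¹ ∈ pCore p D := fun x => hn.conj_mem _ x.2 d
    have hm2 : ∀ x : pCore p D, d⁻¹ * x.1 * d ∈ pCore p D := fun x => by
      have := hn.conj_mem _ x.2 d⁻¹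
      simpa using this
    have hsm : ∀ (x : D) (c : E), ((x : D) • c) = x • c := fun _ _ => rfl
    refine
      { toFun := fun x => ⟨⟨d * x.1.1 * d⁻¹, hm1 x.1⟩, ?_⟩
        invFun := fun x => ⟨⟨d⁻¹ * x.1.1 * d, hm2 x.1⟩, ?_⟩
        left_inv := ?_
        right_inv := ?_ }
    · rw [MulAction.mem_stabilizer_iff]
      show (d * x.1.1 * d⁻¹) • b = b
      have hx : x.1.1 • a = a := MulAction.mem_stabilizer_iff.mp x.2
      rw [← hd, mul_smul, mul_smul, inv_smul_smul, hx]
    · rw [MulAction.mem_stabilizer_iff]
      show (d⁻¹ * x.1.1 * d) • a = a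
      have hx : x.1.1 • b = b := MulAction.mem_stabilizer_iff.mp x.2
      rw [mul_smul, mul_smul, hd, hx, ← hd, inv_smul_smul]
    · intro x
      apply Subtype.ext
      apply Subtype.ext
      show d⁻¹ * (d * x.1.1 * d⁻¹) * d = x.1.1
      group
    · intro x
      apply Subtype.ext
      apply Subtype.ext
      show d * (d⁻¹ * x.1.1 * d) * d⁻¹ = x.1.1
      group

/-- **Transitive on non-zero vectors, solvable and odd.** -/
theorem fitting_cyclic (hodd : Odd (Nat.card D)) (hsol : Group.IsSolvable D) [Nontrivial E]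
    {q : ℕ} (hq : q.Prime) (hE : ∀ e : E, q • e = 0)
    (htrans : ∀ a b : E, a ≠ 0 → b ≠ 0 → ∃ d : D, d • a = b) :
    IsCyclic ↥(Cfsg.fittingSubgroup D) ∧
      (∀ g ∈ Cfsg.fittingSubgroup D, g ≠ 1 → ∀ a : E, g • a = a → a = 0) ∧
      commutator D ≤ Cfsg.fittingSubgroup D := by
  classical
  set F : Subgroup D := fittingSubgroup D with hF
  haveI hFn : F.Normal := fittingSubgroup_normal
  haveI hFnil : Group.IsNilpotent F := isNilpotent_fittingSubgroup
  have hZ : IsZGroup F := by
    refine ⟨fun p hp T => ?_⟩
    haveI : Fact p.Prime := ⟨hp⟩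
    have hle : (T : Subgroup F).map F.subtype ≤ pCore p D := by
      rintro _ ⟨x, hx, rfl⟩
      have hxp := T.isPGroup' ⟨x, hx⟩
      obtain ⟨k, hk⟩ := hxp
      have hk' : x.1 ^ p ^ k = 1 := by
        have := congrArg (fun z : ↥(T : Subgroup F) => (z : F).1) hk
        simpa using this
      obtain ⟨j, _, hj⟩ := (Nat.dvd_prime_pow hp).mp (orderOf_dvd_of_pow_eq_one hk')
      exact mem_pCore_of_mem_nilpotent_normal hFnil x.2 hj
    have hc := (pCore_facts (E := E) hodd hq hE htrans p).1
    have h1 : IsCyclic ↥((T : Subgroup F).map F.subtype) := Subgroup.isCyclic_of_le hle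
    exact isCyclic_of_surjective _
      (Subgroup.equivMapOfInjective (T : Subgroup F) F.subtype F.subtype_injective).symm.surjective
  haveI := hZ
  have hFc : IsCyclic F := inferInstance
  refine ⟨hFc, ?_, ?_⟩
  · intro g hg hg1 a ha
    obtain ⟨p, hp, hpd⟩ := Nat.exists_prime_and_dvd (fun h => hg1 (orderOf_eq_one_iff.mp h))
    haveI : Fact p.Prime := ⟨hp⟩
    obtain ⟨m, hm⟩ := hpd
    have hpos : 0 < orderOf g := orderOf_pos g
    have hm0 : 0 < m := by
      rcases Nat.eq_zero_or_pos m with h | h
      · rw [h, mul_zero] at hm; omega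
      · exact h
    set h : D := g ^ m with hh
    have hord : orderOf h = p ^ 1 := by
      rw [pow_one, hh, orderOf_pow_of_dvd hm0.ne' ⟨p, by rw [hm, mul_comm]⟩, hm]
      exact Nat.mul_div_cancel _ hm0
    have hhF : h ∈ F := F.pow_mem hg m
    have hhp : h ∈ pCore p D := mem_pCore_of_mem_nilpotent_normal hFnil hhF hord
    have hne : (⟨h, hhp⟩ : pCore p D) ≠ 1 := by
      intro h1
      have h2 : h = 1 := congrArg Subtype.val h1
      rw [h2, orderOf_one] at hord
      have := hp.one_lt
      rw [pow_one] at hord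
      omega
    have hfix : h • a = a := by
      have : g ∈ MulAction.stabilizer D a := MulAction.mem_stabilizer_iff.mpr ha
      exact MulAction.mem_stabilizer_iff.mp ((MulAction.stabilizer D a).pow_mem this m)
    exact (pCore_facts (E := E) hodd hq hE htrans p).2 _ hne a hfix
  · -- `D'` centralizes the cyclic group `F`
    have hcent : commutator D ≤ Subgroup.centralizer (F : Set D) := by
      let f : D →* MulAut F := MulAut.conjNormal
      let e := IsCyclic.mulAutMulEquiv F
      have hcm : ∀ x y : MulAut F, x * y = y * x := by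
        intro x y
        apply e.injective
        rw [map_mul, map_mul, mul_comm]
      rw [commutator_def, Subgroup.commutator_le]
      rintro x _ y _
      have h1 : f ⁅x, y⁆ = 1 := by
        rw [commutatorElement_def, map_mul, map_mul, map_mul, map_inv, map_inv, hcm (f x) (f y)]
        group
      refine Subgroup.mem_centralizer_iff.mpr ?_
      intro z hz
      have h2 := congrArg (fun φ : MulAut F => (φ ⟨z, hz⟩ : F).1) h1
      have h3 : ⁅x, y⁆ * z * ⁅x, y⁆⁻¹ = z := by
        have h4 : ((MulAut.conjNormal ⁅x, y⁆ : MulAut F) ⟨z, hz⟩ : F).1 = ⁅x, y⁆ * z * ⁅x, y⁆⁻¹ :=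
          MulAut.conjNormal_apply _ _
        rw [← h4]
        exact h2
      rw [mul_inv_eq_iff_eq_mul] at h3
      exact h3.symm
    refine hcent.trans ?_
    have hCn : (Subgroup.centralizer (F : Set D)).Normal := inferInstance
    apply Cfsg.Agent.Lib.Components.Fitting.le_fitting_of_solvable_of_le_centralizer _ le_rfl
    · rw [Subgroup.normalizer_eq_top]; exact le_top
    · infer_instance

end Cfsg.Agent.Lib.Components.OddTransitive
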