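import Mathlib
import Cfsg.Prelude.Def_ConjugacyFunctors
import Cfsg.Prelude.Def_LocalEven
import Cfsg.Agent.Lib.PGroup.KInf
import Cfsg.Agent.Lib.PGroup.KInfIso
import Cfsg.Agent.Lib.PGroup.KInfQuartic
import Cfsg.Agent.Lib.PGroup.QdStable
import Cfsg.Agent.Lib.Transfer.MaximalStable
import Cfsg.Agent.Lib.Basic.PCore

/-!
# Pushing down the K-infinity subgroups; primitive pairs of characteristic `p`

If `Q ≤ P` contains `K_∞(P)` and `K^∞(P)`, then `K_∞(Q) = K_∞(P)` and `K^∞(Q) = K^∞(P)`.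
Consequently, in a group `X` all of whose quotients are `p`-stable and with `C(O_p(X)) ≤ O_p(X)`, the
K-infinity subgroups of every `p`-subgroup containing `O_p(X)` are normal in `X`.
-/

set_option autoImplicit false
set_option linter.unusedSectionVars false
set_option linter.unusedVariables false

namespace Cfsg.Agent.Lib.Components.PrimPair

open Subgroup Cfsg Matrix
open Cfsg.Agent.Lib.PGroup.KInf
open Cfsg.Agent.Lib.PGroup.QdSplit
open scoped MatrixGroups

universe u

section push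

variable {P : Type u} [Group P] [Finite P] (Q : Subgroup P)

theorem sSup_lower_kInfUpper : sSup (kLowerStarFamily (kInfUpper P)) = kInfLower P := by
  obtain ⟨a, ha⟩ := stabilize (P := P)
  have h := (ha a le_rfl)
  rw [← h.2]
  exact h.1

theorem sSup_upper_kInfLower : sSup (kUpperStarFamily (kInfLower P)) = kInfUpper P := by
  obtain ⟨a, ha⟩ := stabilize (P := P)
  have h := (ha a le_rfl)
  have h' := (ha (a + 1) (Nat.le_succ a))
  rw [← h.1, ← h'.2]
  rfl

/-- **Pushing down**: a subgroup containing both K-infinity subgroups has the same K-infinity subgroups. -/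
theorem kInf_of_le (hL : kInfLower P ≤ Q) (hU : kInfUpper P ≤ Q) :
    (kInfLower ↥Q).map Q.subtype = kInfLower P ∧ (kInfUpper ↥Q).map Q.subtype = kInfUpper P := by
  have hE : ∀ n, kSeqEven P n ≤ kInfLower P := fun n => le_iSup (kSeqEven P) n
  -- first direction
  have h1 : ∀ n, (kSeqOdd ↥Q n).map Q.subtype ≤ kSeqOdd P n := by
    intro n
    induction n with
    | zero => exact le_top
    | succ n ih =>
      have hE1 : kSeqEven P n ≤ (kSeqEven ↥Q n).map Q.subtype :=
        sSup_lower_le_map Q ih ((hE n).trans hL)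
      exact map_sSup_upper_le Q hE1
  have h2 : ∀ n, kSeqEven P n ≤ (kSeqEven ↥Q n).map Q.subtype := fun n =>
    sSup_lower_le_map Q (h1 n) ((hE n).trans hL)
  -- second direction
  have h3 : ∀ n, kInfUpper P ≤ (kSeqOdd ↥Q n).map Q.subtype := by
    intro n
    induction n with
    | zero =>
      have h0 : (kSeqOdd ↥Q 0).map Q.subtype = Q := by
        change (⊤ : Subgroup ↥Q).map Q.subtype = Q
        rw [← MonoidHom.range_eq_map, Subgroup.range_subtype]
      rw [h0]
      exact hU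
    | succ n ih =>
      have hE1 : (kSeqEven ↥Q n).map Q.subtype ≤ kInfLower P := by
        have := map_sSup_lower_le Q ih
        rwa [sSup_lower_kInfUpper] at this
      have := sSup_upper_le_map Q hE1 (by rw [sSup_upper_kInfLower]; exact hU)
      rwa [sSup_upper_kInfLower] at this
  have h4 : ∀ n, (kSeqEven ↥Q n).map Q.subtype ≤ kInfLower P := by
    intro n
    have := map_sSup_lower_le Q (h3 n)
    rwa [sSup_lower_kInfUpper] at this
  obtain ⟨a, ha⟩ := stabilize (P := P)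
  obtain ⟨b, hb⟩ := stabilize (P := ↥Q)
  set n := max a b with hn
  have hna : a ≤ n := le_max_left a b
  have hnb : b ≤ n := le_max_right a b
  constructor
  · rw [← (hb n hnb).1]
    refine le_antisymm (h4 n) ?_
    have := h2 n
    rwa [(ha n hna).1] at this
  · rw [← (hb n hnb).2]
    refine le_antisymm ?_ (h3 n)
    have := h1 n
    rwa [(ha n hna).2] at this

end push

section induced

variable {X : Type u} [Group X]

/-- The induced subgroups of `T ≤ S` agree when `S`'s K-infinity subgroups lie in `T`. -/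
theorem induced_eq_of_le [Finite X] (T S : Subgroup X) (hTS : T ≤ S)
    (hL : inducedFunctor kInfLower S ≤ T) (hU : inducedFunctor kInfUpper S ≤ T) :
    inducedFunctor kInfLower T = inducedFunctor kInfLower S ∧
      inducedFunctor kInfUpper T = inducedFunctor kInfUpper S := by
  let T' : Subgroup ↥S := T.subgroupOf S
  have hL' : kInfLower ↥S ≤ T' := by
    intro x hx
    exact hL ⟨x, hx, rfl⟩
  have hU' : kInfUpper ↥S ≤ T' := by
    intro x hx
    exact hU ⟨x, hx, rfl⟩
  obtain ⟨h1, h2⟩ := kInf_of_le T' hL' hU'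
  let e : ↥T' ≃* ↥T := Subgroup.subgroupOfEquivOfLe hTS
  have he : ∀ x : ↥T', (e x : X) = ((x : ↥S) : X) := fun x => rfl
  have h3 := Cfsg.Agent.Lib.PGroup.KInfIso.map_kInfLower e
  have h4 := Cfsg.Agent.Lib.PGroup.KInfIso.map_kInfUpper e
  constructor
  · show (kInfLower ↥T).map T.subtype = (kInfLower ↥S).map S.subtype
    rw [← h3, ← h1]
    ext x
    simp only [Subgroup.mem_map]
    constructor
    · rintro ⟨_, ⟨y, hy, rfl⟩, rfl⟩
      exact ⟨_, ⟨y, hy, rfl⟩, rfl⟩
    · rintro ⟨_, ⟨y, hy, rfl⟩, rfl⟩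
      exact ⟨_, ⟨y, hy, rfl⟩, rfl⟩
  · show (kInfUpper ↥T).map T.subtype = (kInfUpper ↥S).map S.subtype
    rw [← h4, ← h2]
    ext x
    simp only [Subgroup.mem_map]
    constructor
    · rintro ⟨_, ⟨y, hy, rfl⟩, rfl⟩
      exact ⟨_, ⟨y, hy, rfl⟩, rfl⟩
    · rintro ⟨_, ⟨y, hy, rfl⟩, rfl⟩
      exact ⟨_, ⟨y, hy, rfl⟩, rfl⟩

/-- Compatibility of the induced functor with `subgroupOf`. -/
theorem map_induced_subgroupOf (T M : Subgroup X) (h : T ≤ M) :
    (inducedFunctor kInfUpper (T.subgroupOf M)).map M.subtype = inducedFunctor kInfUpper T := by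
  let e : ↥(T.subgroupOf M) ≃* ↥T := Subgroup.subgroupOfEquivOfLe h
  have h4 := Cfsg.Agent.Lib.PGroup.KInfIso.map_kInfUpper e
  show ((kInfUpper ↥(T.subgroupOf M)).map (T.subgroupOf M).subtype).map M.subtype =
    (kInfUpper ↥T).map T.subtype
  rw [← h4]
  ext x
  simp only [Subgroup.mem_map]
  constructor
  · rintro ⟨_, ⟨y, hy, rfl⟩, rfl⟩
    exact ⟨_, ⟨y, hy, rfl⟩, rfl⟩
  · rintro ⟨_, ⟨y, hy, rfl⟩, rfl⟩
    exact ⟨_, ⟨y, hy, rfl⟩, rfl⟩

end induced

section qd

variable {p : ℕ} [hp : Fact p.Prime]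

open Cfsg.Agent.Lib.Transfer.MaximalStable

/-- `Qd(p)`, `p` odd, is not a section of a group with abelian Sylow `2`-subgroups. -/
theorem not_sec_qd {X : Type*} [Group X] [Finite X] (hp2 : p ≠ 2)
    (hab : ∀ S : Sylow 2 X, IsMulCommutative (S : Subgroup X)) : ¬ Sec (qd p) X := by
  classical
  rintro ⟨K, π, hπ⟩
  obtain ⟨a, b, hab'⟩ := ZMod.sq_add_sq p (-1 : ZMod p)
  have hxq : (xx : SL(3, ZMod p)) ∈ qd p := by
    refine Subgroup.subset_closure ?_
    show (!![0, 1, 0; -1, 0, 0; 0, 0, 1] : Matrix (Fin 3) (Fin 3) (ZMod p)) 2 0 = 0 ∧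
      (!![0, 1, 0; -1, 0, 0; 0, 0, 1] : Matrix (Fin 3) (Fin 3) (ZMod p)) 2 1 = 0 ∧
      (!![0, 1, 0; -1, 0, 0; 0, 0, 1] : Matrix (Fin 3) (Fin 3) (ZMod p)) 2 2 = 1
    simp
  have hyq : yy a b hab' ∈ qd p := by
    refine Subgroup.subset_closure ?_
    show (!![a, b, 0; b, -a, 0; 0, 0, 1] : Matrix (Fin 3) (Fin 3) (ZMod p)) 2 0 = 0 ∧
      (!![a, b, 0; b, -a, 0; 0, 0, 1] : Matrix (Fin 3) (Fin 3) (ZMod p)) 2 1 = 0 ∧
      (!![a, b, 0; b, -a, 0; 0, 0, 1] : Matrix (Fin 3) (Fin 3) (ZMod p)) 2 2 = 1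
    simp
  let x : qd p := ⟨xx, hxq⟩
  let y : qd p := ⟨yy a b hab', hyq⟩
  have hzq : (zz : SL(3, ZMod p)) ∈ qd p := by
    rw [← xx_mul_xx]
    exact mul_mem hxq hxq
  let z : qd p := ⟨zz, hzq⟩
  have hxx : x * x = z := Subtype.ext xx_mul_xx
  have hyy : y * y = z := Subtype.ext (yy_mul_yy a b hab')
  have hzz : z * z = 1 := Subtype.ext zz_mul_zz
  have hxy : x * y = z * (y * x) := Subtype.ext (xx_mul_yy a b hab')
  have hz1 : z ≠ 1 := fun h => zz_ne_one hp2 (congrArg Subtype.val h)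
  -- `⟨x⟩ ⊔ ⟨y⟩` is a `2`-group
  have hx4 : x ^ (2 ^ 2) = 1 := by
    rw [show (2 : ℕ) ^ 2 = 2 + 2 by norm_num, pow_add, pow_two, hxx, hzz]
  have hy4 : y ^ (2 ^ 2) = 1 := by
    rw [show (2 : ℕ) ^ 2 = 2 + 2 by norm_num, pow_add, pow_two, hyy, hzz]
  have hP2 : ∀ w : qd p, w ^ (2 ^ 2) = 1 → IsPGroup 2 (zpowers w) := by
    intro w hw
    rintro ⟨_, k, rfl⟩
    refine ⟨2, ?_⟩
    apply Subtype.ext
    simp only [Subgroup.coe_pow, Subgroup.coe_one]
    show (w ^ k) ^ (2 ^ 2) = 1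
    rw [← zpow_natCast (w ^ k), ← _root_.zpow_mul, mul_comm, _root_.zpow_mul, zpow_natCast, hw, _root_.one_zpow]
  have hznorm : ∀ w : qd p, w ∈ Subgroup.normalizer ((zpowers x : Subgroup (qd p)) : Set (qd p)) ↔ w * x * w⁻¹ ∈ zpowers x := by
    intro w
    haveI : Finite (zpowers x) := inferInstance
    constructor
    · intro h
      exact (Subgroup.mem_normalizer_iff.mp h x).mp (mem_zpowers x)
    · intro h
      have hsub : (zpowers x).map (MulAut.conj w).toMonoidHom ≤ zpowers x := by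
        rw [MonoidHom.map_zpowers]
        exact (Subgroup.zpowers_le).2 h
      have hcard : Nat.card ((zpowers x).map (MulAut.conj w).toMonoidHom) = Nat.card (zpowers x) :=
        Subgroup.card_map_of_injective (MulAut.conj w).injective
      have heq : (zpowers x).map (MulAut.conj w).toMonoidHom = zpowers x :=
        Subgroup.eq_of_le_of_card_ge hsub hcard.ge
      rw [Subgroup.mem_normalizer_iff]
      intro g
      constructor
      · intro hg
        rw [← heq]
        exact ⟨g, hg, rfl⟩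
      · intro hg
        rw [← heq] at hg
        obtain ⟨g', hg', he⟩ := hg
        have : g' = g := mul_left_cancel (a := w) (mul_right_cancel (b := w⁻¹) he)
        rwa [← this]
  have hyn : zpowers y ≤ Subgroup.normalizer ((zpowers x : Subgroup (qd p)) : Set (qd p)) := by
    rw [Subgroup.zpowers_le, hznorm]
    -- `y x y⁻¹ = x⁻¹ = z x`
    have hxz : x * z = z * x := by rw [← hxx, mul_assoc]
    have : y * x * y⁻¹ = x ^ (3 : ℕ) := by
      have h1 : y * x = z * (x * y) := by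
        rw [hxy, ← mul_assoc, hzz, one_mul]
      rw [h1, mul_assoc, mul_assoc, mul_inv_cancel, mul_one, ← hxx]
      simp only [pow_succ, pow_zero, one_mul, mul_assoc]
    rw [this]
    exact Subgroup.pow_mem _ (mem_zpowers x) 3
  have hD : IsPGroup 2 ↥(zpowers x ⊔ zpowers y) :=
    haveI : Fact (Nat.Prime 2) := ⟨Nat.prime_two⟩
    IsPGroup.to_sup_of_normal_left' (hP2 x hx4) (hP2 y hy4) hyn
  haveI : Fact (Nat.Prime 2) := ⟨Nat.prime_two⟩
  obtain ⟨S', hS'⟩ := hD.exists_le_sylow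
  obtain ⟨S₀, hS₀⟩ := Sylow.mapSurjective_surjective hπ 2 S'
  -- image of `S₀` in `X` is abelian
  have hS₀p : IsPGroup 2 ↥((S₀ : Subgroup K).map K.subtype) := S₀.isPGroup'.map K.subtype
  obtain ⟨Sx, hSx⟩ := hS₀p.exists_le_sylow
  haveI := hab Sx
  have hcomm : ∀ u ∈ (S₀ : Subgroup K), ∀ v ∈ (S₀ : Subgroup K), u * v = v * u := by
    intro u hu v hv
    have hu' : (u : X) ∈ (Sx : Subgroup X) := hSx ⟨u, hu, rfl⟩
    have hv' : (v : X) ∈ (Sx : Subgroup X) := hSx ⟨v, hv, rfl⟩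
    have : (⟨u, hu'⟩ : (Sx : Subgroup X)) * ⟨v, hv'⟩ = ⟨v, hv'⟩ * ⟨u, hu'⟩ := by
      exact mul_comm' _ _
    exact Subtype.ext (congrArg (fun w : (Sx : Subgroup X) => (w : X)) this)
  have hxS : x ∈ (S' : Subgroup (qd p)) := hS' (Subgroup.mem_sup_left (mem_zpowers x))
  have hyS : y ∈ (S' : Subgroup (qd p)) := hS' (Subgroup.mem_sup_right (mem_zpowers y))
  have hS₀' : ((S₀ : Subgroup K).map π) = (S' : Subgroup (qd p)) := by
    rw [← hS₀]
    rfl
  rw [← hS₀'] at hxS hyS
  obtain ⟨u, hu, hux⟩ := hxS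
  obtain ⟨v, hv, hvy⟩ := hyS
  have h1 : x * y = y * x := by
    have : π u * π v = π v * π u := by
      rw [← map_mul, ← map_mul, hcomm u hu v hv]
    have hux' : π u = x := hux
    have hvy' : π v = y := hvy
    rwa [hux', hvy'] at this
  rw [hxy] at h1
  have h2 : z * (y * x) * (y * x)⁻¹ = (y * x) * (y * x)⁻¹ := by rw [h1]
  rw [mul_inv_cancel, mul_assoc, mul_inv_cancel, mul_one] at h2
  exact hz1 h2

/-- All quotients are `p`-stable when the Sylow `2`-subgroups are abelian. -/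
theorem stable_quot {X : Type u} [Group X] [Finite X] (hp2 : p ≠ 2)
    (hab : ∀ S : Sylow 2 X, IsMulCommutative (S : Subgroup X)) (N : Subgroup X) [N.Normal] :
    IsNormalizerPStable p (X ⧸ N) :=
  Cfsg.Agent.Lib.PGroup.QdStable.stable_of_sec_free hp2 fun h =>
    not_sec_qd hp2 hab (Sec.of_surj (QuotientGroup.mk'_surjective N) h)

/-- The K-infinity subgroups of a Sylow `p`-subgroup are normal. -/
theorem kInf_normal {X : Type u} [Group X] [Finite X] (hp2 : p ≠ 2)
    (hab : ∀ S : Sylow 2 X, IsMulCommutative (S : Subgroup X))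
    (hc : Subgroup.centralizer ((pCore p X : Subgroup X) : Set X) ≤ pCore p X) (S : Sylow p X) :
    (inducedFunctor kInfLower (S : Subgroup X)).Normal ∧
      (inducedFunctor kInfUpper (S : Subgroup X)).Normal := by
  by_contra h
  have h' : ¬ (inducedFunctor kInfLower (S : Subgroup X)).Normal ∨
      ¬ (inducedFunctor kInfUpper (S : Subgroup X)).Normal := by
    by_contra h2
    push Not at h2
    exact h h2
  obtain ⟨g, -, -, -, -, h3⟩ := Cfsg.Agent.Lib.PGroup.KInfQuartic.main S h'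
  obtain ⟨N, hN, hNs⟩ := h3 hc
  exact hNs (stable_quot hp2 hab N)

/-- A normal `p`-subgroup lies in every Sylow `p`-subgroup. -/
theorem normal_le_sylow {X : Type*} [Group X] [Finite X] (N : Subgroup X) [N.Normal]
    (hN : IsPGroup p N) (S : Sylow p X) : N ≤ (S : Subgroup X) := by
  obtain ⟨S', hS'⟩ := hN.exists_le_sylow
  obtain ⟨g, rfl⟩ := MulAction.exists_smul_eq X S' S
  intro x hx
  have : g⁻¹ * x * g⁻¹⁻¹ ∈ N := ‹N.Normal›.conj_mem x hx g⁻¹
  have h2 := hS' this
  rw [Sylow.coe_subgroup_smul, Subgroup.mem_pointwise_smul_iff_inv_smul_mem]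
  simpa [MulAut.smul_def, MulAut.conj_apply] using h2

/-- K-infinity of a `p`-subgroup containing `O_p(X)` is normal. -/
theorem kInfUpper_normal_of_le {X : Type u} [Group X] [Finite X] (hp2 : p ≠ 2)
    (hab : ∀ S : Sylow 2 X, IsMulCommutative (S : Subgroup X))
    (hc : Subgroup.centralizer ((pCore p X : Subgroup X) : Set X) ≤ pCore p X)
    (T : Subgroup X) (hT : IsPGroup p T) (hO : pCore p X ≤ T) :
    (inducedFunctor kInfUpper T).Normal := by
  obtain ⟨S, hS⟩ := hT.exists_le_sylow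
  obtain ⟨hL, hU⟩ := kInf_normal hp2 hab hc S
  have hLp : IsPGroup p ↥(inducedFunctor kInfLower (S : Subgroup X)) := by
    exact S.isPGroup'.to_le (Subgroup.map_subtype_le _)
  have hUp : IsPGroup p ↥(inducedFunctor kInfUpper (S : Subgroup X)) := by
    exact S.isPGroup'.to_le (Subgroup.map_subtype_le _)
  have hL' : inducedFunctor kInfLower (S : Subgroup X) ≤ pCore p X :=
    Cfsg.Agent.Lib.Basic.PCore.le_pCore ‹_› hLp
  have hU' : inducedFunctor kInfUpper (S : Subgroup X) ≤ pCore p X :=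
    Cfsg.Agent.Lib.Basic.PCore.le_pCore ‹_› hUp
  rw [(induced_eq_of_le T (S : Subgroup X) hS (hL'.trans hO) (hU'.trans hO)).2]
  exact hU

end qd


section main

variable {p : ℕ} [hp : Fact p.Prime]

theorem le_normalizer_map_of_normal {G : Type*} [Group G] (H : Subgroup G) (W : Subgroup ↥H) [hW : W.Normal] :
    H ≤ Subgroup.normalizer ((W.map H.subtype : Subgroup G) : Set G) := by
  intro h hh
  have h1 : (⟨h, hh⟩ : ↥H) ∈ Subgroup.normalizer ((W : Subgroup ↥H) : Set ↥H) := by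
    rw [Subgroup.mem_normalizer_iff]
    intro w
    constructor
    · intro hw
      exact hW.conj_mem w hw ⟨h, hh⟩
    · intro hw
      have := hW.conj_mem _ hw (⟨h, hh⟩ : ↥H)⁻¹
      simpa [mul_assoc] using this
  exact Subgroup.le_normalizer_map H.subtype ⟨_, h1, rfl⟩

/-- A `p`-subgroup lies in `O_p` when the Sylow subgroups are abelian and `O_p` is self-centralizing. -/
theorem le_pCore_of_abelian {X : Type*} [Group X] [Finite X] {q : ℕ} [Fact q.Prime]
    (hab : ∀ S : Sylow q X, IsMulCommutative (S : Subgroup X))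
    (hc : Subgroup.centralizer ((pCore q X : Subgroup X) : Set X) ≤ pCore q X)
    (Q : Subgroup X) (hQ : IsPGroup q Q) : Q ≤ pCore q X := by
  obtain ⟨S, hS⟩ := hQ.exists_le_sylow
  refine hS.trans (le_trans ?_ hc)
  haveI := hab S
  intro s hs
  rw [Subgroup.mem_centralizer_iff]
  intro o ho
  have ho' : o ∈ (S : Subgroup X) := Cfsg.Agent.Lib.Basic.PCore.pCore_le_sylow S ho
  have : (⟨o, ho'⟩ : (S : Subgroup X)) * ⟨s, hs⟩ = ⟨s, hs⟩ * ⟨o, ho'⟩ := mul_comm' _ _
  exact congrArg (fun w : (S : Subgroup X) => (w : X)) this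

/-- **No primitive pair of characteristic `p` with abelian Sylow `2`-subgroups.** -/
theorem main {G : Type u} [Group G] [Finite G] (M₁ M₂ : Subgroup G) (hne : M₁ ≠ M₂)
    (hP : ∀ A : Subgroup G, A ≠ ⊥ → A ≤ M₁ ⊓ M₂ →
      (M₁ ≤ Subgroup.normalizer (A : Set G) → M₂ ⊓ Subgroup.normalizer (A : Set G) = M₁ ⊓ M₂) ∧
      (M₂ ≤ Subgroup.normalizer (A : Set G) → M₁ ⊓ Subgroup.normalizer (A : Set G) = M₁ ⊓ M₂))
    (hc₁ : Subgroup.centralizer (pCore p ↥M₁ : Set ↥M₁) ≤ pCore p ↥M₁)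
    (hc₂ : Subgroup.centralizer (pCore p ↥M₂ : Set ↥M₂) ≤ pCore p ↥M₂)
    (hO : (pCore p ↥M₁).map M₁.subtype ⊔ (pCore p ↥M₂).map M₂.subtype ≤ M₁ ⊓ M₂)
    (hab₁ : ∀ S : Sylow 2 ↥M₁, IsMulCommutative (S : Subgroup ↥M₁))
    (hab₂ : ∀ S : Sylow 2 ↥M₂, IsMulCommutative (S : Subgroup ↥M₂)) : False := by
  classical
  set O₁ : Subgroup G := (pCore p ↥M₁).map M₁.subtype with hO₁
  set O₂ : Subgroup G := (pCore p ↥M₂).map M₂.subtype with hO₂
  have hO₁le : O₁ ≤ M₁ ⊓ M₂ := le_sup_left.trans hO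
  have hO₂le : O₂ ≤ M₁ ⊓ M₂ := le_sup_right.trans hO
  -- the final step
  have final : ∀ A : Subgroup G, A ≠ ⊥ → A ≤ M₁ ⊓ M₂ → M₁ ≤ Subgroup.normalizer (A : Set G) →
      M₂ ≤ Subgroup.normalizer (A : Set G) → False := by
    intro A hA hA' n1 n2
    obtain ⟨h1, h2⟩ := hP A hA hA'
    have e1 := h1 n1
    have e2 := h2 n2
    rw [inf_eq_left.mpr n2] at e1
    rw [inf_eq_left.mpr n1] at e2
    exact hne (e2.trans e1.symm)
  -- nontriviality
  have hbot : ∀ M : Subgroup G, Subgroup.centralizer (pCore p ↥M : Set ↥M) ≤ pCore p ↥M →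
      (pCore p ↥M).map M.subtype = ⊥ → M = ⊥ := by
    intro M hc h
    have h1 : pCore p ↥M = ⊥ := (Subgroup.map_eq_bot_iff_of_injective _ M.subtype_injective).mp h
    rw [h1] at hc
    rw [Subgroup.eq_bot_iff_forall]
    intro x hx
    have h2 : (⟨x, hx⟩ : ↥M) ∈ Subgroup.centralizer ((⊥ : Subgroup ↥M) : Set ↥M) := by
      rw [Subgroup.mem_centralizer_iff]
      intro g hg
      have : g = 1 := hg
      simp [this]
    have h3 := hc h2
    have : (⟨x, hx⟩ : ↥M) = 1 := h3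
    exact congrArg Subtype.val this
  have hne' : O₁ ≠ ⊥ ∨ O₂ ≠ ⊥ := by
    by_contra h
    push Not at h
    exact hne ((hbot M₁ hc₁ h.1).trans (hbot M₂ hc₂ h.2).symm)
  have n₁ : M₁ ≤ Subgroup.normalizer (O₁ : Set G) := by
    haveI := Cfsg.Agent.Lib.Basic.PCore.pCore_normal p ↥M₁
    exact le_normalizer_map_of_normal M₁ _
  have n₂ : M₂ ≤ Subgroup.normalizer (O₂ : Set G) := by
    haveI := Cfsg.Agent.Lib.Basic.PCore.pCore_normal p ↥M₂
    exact le_normalizer_map_of_normal M₂ _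
  have hpO₁ : IsPGroup p O₁ := (Cfsg.Agent.Lib.Basic.PCore.pCore_isPGroup p).map _
  have hpO₂ : IsPGroup p O₂ := (Cfsg.Agent.Lib.Basic.PCore.pCore_isPGroup p).map _
  by_cases hp2 : p = 2
  · subst hp2
    -- `O₁ = O₂`
    have key : ∀ (M N : Subgroup G) (A : Subgroup G), IsPGroup 2 A → A ≤ N →
        (∀ S : Sylow 2 ↥N, IsMulCommutative (S : Subgroup ↥N)) →
        Subgroup.centralizer (pCore 2 ↥N : Set ↥N) ≤ pCore 2 ↥N →
        A ≤ (pCore 2 ↥N).map N.subtype := by
      intro M N A hA hAN hab hc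
      have h1 : IsPGroup 2 ↥(A.subgroupOf N) := by
        have e : ↥(A.subgroupOf N) ≃* ↥A := Subgroup.subgroupOfEquivOfLe hAN
        exact hA.of_injective e.toMonoidHom e.injective
      have h2 := le_pCore_of_abelian hab hc _ h1
      intro a ha
      exact ⟨⟨a, hAN ha⟩, h2 ha, rfl⟩
    have h12 : O₁ ≤ O₂ := key M₁ M₂ O₁ hpO₁ (hO₁le.trans inf_le_right) hab₂ hc₂
    have h21 : O₂ ≤ O₁ := key M₂ M₁ O₂ hpO₂ (hO₂le.trans inf_le_left) hab₁ hc₁
    have heq : O₁ = O₂ := le_antisymm h12 h21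
    refine final O₁ ?_ hO₁le n₁ ?_
    · rcases hne' with h | h
      · exact h
      · rwa [heq]
    · rw [heq]
      exact n₂
  · -- the odd case
    let M : Subgroup G := M₁ ⊓ M₂
    obtain ⟨T⟩ : Nonempty (Sylow p ↥M) := inferInstance
    let T₀ : Subgroup G := (T : Subgroup ↥M).map M.subtype
    have hT₀M : T₀ ≤ M := Subgroup.map_subtype_le _
    have hT₀p : IsPGroup p T₀ := T.isPGroup'.map _
    have hnorm : ∀ O : Subgroup G, O ≤ M → M ≤ Subgroup.normalizer (O : Set G) → IsPGroup p O → O ≤ T₀ := by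
      intro O hOM hN hOp
      have h1 : (O.subgroupOf M).Normal := by
        constructor
        intro n hn g
        rw [Subgroup.mem_subgroupOf] at hn ⊢
        have := (Subgroup.mem_normalizer_iff.mp (hN g.2) n).mp hn
        simpa using this
      have h2 : IsPGroup p ↥(O.subgroupOf M) := by
        have e : ↥(O.subgroupOf M) ≃* ↥O := Subgroup.subgroupOfEquivOfLe hOM
        exact hOp.of_injective e.toMonoidHom e.injective
      have h3 := normal_le_sylow _ h2 T
      intro o ho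
      exact ⟨⟨o, hOM ho⟩, h3 ho, rfl⟩
    have hO₁T : O₁ ≤ T₀ := hnorm O₁ hO₁le (inf_le_left.trans n₁) hpO₁
    have hO₂T : O₂ ≤ T₀ := hnorm O₂ hO₂le (inf_le_right.trans n₂) hpO₂
    let A : Subgroup G := inducedFunctor kInfUpper T₀
    have hAT : A ≤ T₀ := Subgroup.map_subtype_le _
    have step : ∀ N : Subgroup G, M ≤ N → (pCore p ↥N).map N.subtype ≤ T₀ →
        (∀ S : Sylow 2 ↥N, IsMulCommutative (S : Subgroup ↥N)) →
        Subgroup.centralizer (pCore p ↥N : Set ↥N) ≤ pCore p ↥N →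
        N ≤ Subgroup.normalizer (A : Set G) := by
      intro N hMN hON hab hc
      have hT₀N : T₀ ≤ N := hT₀M.trans hMN
      have h1 : IsPGroup p ↥(T₀.subgroupOf N) := by
        have e : ↥(T₀.subgroupOf N) ≃* ↥T₀ := Subgroup.subgroupOfEquivOfLe hT₀N
        exact hT₀p.of_injective e.toMonoidHom e.injective
      have h2 : pCore p ↥N ≤ T₀.subgroupOf N := by
        intro x hx
        rw [Subgroup.mem_subgroupOf]
        exact hON ⟨x, hx, rfl⟩
      haveI := kInfUpper_normal_of_le hp2 hab hc _ h1 h2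
      have h3 := le_normalizer_map_of_normal N (inducedFunctor kInfUpper (T₀.subgroupOf N))
      rwa [map_induced_subgroupOf T₀ N hT₀N] at h3
    have hT₀ne : T₀ ≠ ⊥ := by
      rcases hne' with h | h
      · intro h'
        rw [h', le_bot_iff] at hO₁T
        exact h hO₁T
      · intro h'
        rw [h', le_bot_iff] at hO₂T
        exact h hO₂T
    have hAne : A ≠ ⊥ := by
      haveI : Nontrivial ↥T₀ := (Subgroup.nontrivial_iff_ne_bot _).mpr hT₀ne
      have h1 := Cfsg.Agent.Lib.PGroup.KInfIso.kInfUpper_ne_bot hT₀p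
      intro h
      exact h1 ((Subgroup.map_eq_bot_iff_of_injective _ T₀.subtype_injective).mp h)
    exact final A hAne (hAT.trans hT₀M) (step M₁ inf_le_left hO₁T hab₁ hc₁) (step M₂ inf_le_right hO₂T hab₂ hc₂)

end main

end Cfsg.Agent.Lib.Components.PrimPair
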