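import Mathlib
import Cfsg.Prelude.Def_RootSubgroups
import Cfsg.Agent.Lib.Components.Quasisimple

/-!
Abstract root subgroups: special rank one pairs with abelian unipotent subgroups.
For such a pair `(A, B)` and a normal subgroup `N` containing `[A, B]`:
if `|A| > 3` then `A ∩ N ≠ 1`; and if `A ∩ N ≠ 1` then `A ≤ N`.
Consequently a set `S` of abstract root subgroups satisfying Timmesfeld's hypotheses has `G` perfect
and every normal subgroup central or the whole group.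
-/

set_option autoImplicit false

namespace Cfsg.Agent.Lib.Components.RootQuasi

open Cfsg

variable {G : Type*} [Group G]

theorem mem_conjBy {A : Subgroup G} {g x : G} : x ∈ conjBy A g ↔ g⁻¹ * x * g ∈ A := by
  constructor
  · rintro ⟨a, ha, rfl⟩
    have : g⁻¹ * ((MulAut.conj g).toMonoidHom a) * g = a := by
      simp [MulAut.conj_apply]; group
    rwa [this]
  · intro h
    refine ⟨_, h, ?_⟩
    simp [MulAut.conj_apply]; group

theorem conj_mem_conjBy {A : Subgroup G} {g x : G} (hx : x ∈ A) : g * x * g⁻¹ ∈ conjBy A g := by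
  rw [mem_conjBy]
  have : g⁻¹ * (g * x * g⁻¹) * g = x := by group
  rwa [this]

theorem conjBy_conjBy (A : Subgroup G) (g h : G) : conjBy (conjBy A g) h = conjBy A (h * g) := by
  ext x
  simp only [mem_conjBy]
  have : (h * g)⁻¹ * x * (h * g) = g⁻¹ * (h⁻¹ * x * h) * g := by group
  rw [this]

theorem conjBy_one (A : Subgroup G) : conjBy A 1 = A := by
  ext x
  simp [mem_conjBy]

theorem conjBy_of_mem {A : Subgroup G} {g : G} (hg : g ∈ A) : conjBy A g = A := by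
  ext x
  rw [mem_conjBy]
  constructor
  · intro h
    have : x = g * (g⁻¹ * x * g) * g⁻¹ := by group
    rw [this]
    exact mul_mem (mul_mem hg h) (inv_mem hg)
  · intro h
    exact mul_mem (mul_mem (inv_mem hg) h) hg

theorem conjBy_le_of_normal {A N : Subgroup G} [N.Normal] (h : A ≤ N) (g : G) : conjBy A g ≤ N := by
  intro x hx
  rw [mem_conjBy] at hx
  have := Subgroup.Normal.conj_mem ‹N.Normal› _ (h hx) g
  have e : g * (g⁻¹ * x * g) * g⁻¹ = x := by group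
  rwa [e] at this

section pair

variable {A B : Subgroup G}

/-- `g ∈ A` normalizing `B` is trivial. -/
theorem eq_one_of_conjBy_eq (h : IsRankOnePair A B) {g : G} (hg : g ∈ A) (hn : conjBy B g = B) :
    g = 1 := by
  by_contra hg1
  have hg1' : g⁻¹ ≠ 1 := by simpa using hg1
  obtain ⟨b, hb, _, he⟩ := h.cond_left g⁻¹ (inv_mem hg) hg1'
  rw [inv_inv, hn] at he
  apply h.ne
  have h2 := congrArg (fun X => conjBy X b) he
  simp only [conjBy_conjBy] at h2
  rw [mul_inv_cancel, conjBy_one, conjBy_of_mem hb] at h2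
  exact h2

/-- A member `a ≠ 1` of `A` never commutes with a member `b ≠ 1` of `B`. -/
theorem mul_ne_mul (h : IsRankOnePair A B) (hAc : ∀ x ∈ A, ∀ y ∈ A, x * y = y * x)
    {a b : G} (ha : a ∈ A) (ha1 : a ≠ 1) (hb : b ∈ B) (hb1 : b ≠ 1) : a * b ≠ b * a := by
  intro hc
  obtain ⟨x, hx, _, he⟩ := h.cond_right b hb hb1
  have h1 : a ∈ conjBy A b⁻¹ := by
    rw [mem_conjBy]
    have : (b⁻¹)⁻¹ * a * b⁻¹ = a := by
      rw [inv_inv, ← hc]; group
    rwa [this]
  rw [← he, mem_conjBy, inv_inv] at h1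
  have h2 : a ∈ B := by
    have : x * a * x⁻¹ = a := by rw [hAc x hx a ha]; group
    rwa [this] at h1
  exact ha1 (eq_one_of_conjBy_eq h ha (conjBy_of_mem h2))

end pair

/-- `(a, b)` is a partner pair for `(A, B)`. -/
structure Partner (A B : Subgroup G) (a b : G) : Prop where
  memA : a ∈ A
  neA : a ≠ 1
  memB : b ∈ B
  neB : b ≠ 1
  eqn : conjBy A b⁻¹ = conjBy B a⁻¹

section special

variable {A B : Subgroup G}

theorem exists_partner_left (h : IsRankOnePair A B) {a : G} (ha : a ∈ A) (ha1 : a ≠ 1) :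
    ∃ b, Partner A B a b := by
  obtain ⟨b, hb, hb1, he⟩ := h.cond_left a ha ha1
  exact ⟨b, ha, ha1, hb, hb1, he⟩

theorem exists_partner_right (h : IsRankOnePair A B) {b : G} (hb : b ∈ B) (hb1 : b ≠ 1) :
    ∃ a, Partner A B a b := by
  obtain ⟨a, ha, ha1, he⟩ := h.cond_right b hb hb1
  exact ⟨a, ha, ha1, hb, hb1, he.symm⟩

/-- conjugating element of a partner pair. -/
theorem conjBy_mul_eq {a b : G} (hp : Partner A B a b) : conjBy A (a * b⁻¹) = B := by
  rw [← conjBy_conjBy, hp.eqn, conjBy_conjBy, mul_inv_cancel, conjBy_one]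

/-- the braid relation for partner pairs -/
theorem braid (hs : IsSpecialRankOnePair A B) {a b : G} (hp : Partner A B a b) :
    a * b⁻¹ * a = b⁻¹ * a * b⁻¹ := by
  have h := hs.2 a hp.memA hp.neA b hp.memB hp.neB hp.eqn
  have h2 : a * (b⁻¹ * a * b) = b⁻¹ * a := by rw [h]; group
  calc a * b⁻¹ * a = (a * (b⁻¹ * a * b)) * b⁻¹ := by group
    _ = b⁻¹ * a * b⁻¹ := by rw [h2]

theorem partner_inv (hs : IsSpecialRankOnePair A B)
    (hAc : ∀ x ∈ A, ∀ y ∈ A, x * y = y * x) {a b : G} (hp : Partner A B a b) :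
    Partner A B a⁻¹ b⁻¹ := by
  have hr := hs.1
  obtain ⟨b₂, hb₂⟩ := exists_partner_left hr (inv_mem hp.memA) (by simpa using hp.neA)
  have h1 := hb₂.eqn
  rw [inv_inv] at h1
  have hB : conjBy B (b⁻¹ * a * b⁻¹) = conjBy A (b⁻¹ * b₂⁻¹) := by
    calc conjBy B (b⁻¹ * a * b⁻¹) = conjBy (conjBy B b⁻¹) (b⁻¹ * a) := (conjBy_conjBy _ _ _).symm
      _ = conjBy B (b⁻¹ * a) := by rw [conjBy_of_mem (inv_mem hp.memB)]
      _ = conjBy (conjBy B a) b⁻¹ := (conjBy_conjBy _ _ _).symm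
      _ = conjBy (conjBy A b₂⁻¹) b⁻¹ := by rw [h1]
      _ = conjBy A (b⁻¹ * b₂⁻¹) := conjBy_conjBy _ _ _
  have hbr := braid hs hp
  have ha : a ∈ conjBy B (b⁻¹ * a * b⁻¹) := by
    rw [mem_conjBy]
    have h5 : a * (b⁻¹ * a * b⁻¹) = (b⁻¹ * a * b⁻¹) * b⁻¹ := by
      calc a * (b⁻¹ * a * b⁻¹) = (a * b⁻¹ * a) * b⁻¹ := by group
        _ = (b⁻¹ * a * b⁻¹) * b⁻¹ := by rw [hbr]
    have : (b⁻¹ * a * b⁻¹)⁻¹ * a * (b⁻¹ * a * b⁻¹) = b⁻¹ := by
      rw [mul_assoc, h5]; group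
    rw [this]
    exact inv_mem hp.memB
  rw [hB] at ha
  refine ⟨inv_mem hp.memA, by simpa using hp.neA, inv_mem hp.memB, by simpa using hp.neB, ?_⟩
  rw [inv_inv, inv_inv]
  by_cases he : b⁻¹ * b₂⁻¹ = 1
  · have hb2 : b₂⁻¹ = b := by
      have : b₂⁻¹ = b * (b⁻¹ * b₂⁻¹) := by group
      rw [this, he, mul_one]
    rw [← h1, hb2]
  · exfalso
    have hei : (b⁻¹ * b₂⁻¹)⁻¹ ∈ B := inv_mem (mul_mem (inv_mem hp.memB) (inv_mem hb₂.memB))
    obtain ⟨x, hx⟩ := exists_partner_right hr hei (inv_ne_one.mpr he)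
    have h2 := hx.eqn
    rw [inv_inv] at h2
    rw [h2, mem_conjBy, inv_inv] at ha
    have h3 : a ∈ B := by
      have : x * a * x⁻¹ = a := by rw [hAc x hx.memA a hp.memA]; group
      rwa [this] at ha
    exact hp.neA (eq_one_of_conjBy_eq hr hp.memA (conjBy_of_mem h3))

/-- `n = a b⁻¹ a` maps `A` to `B`. -/
theorem conjBy_n_left {a b : G} (hp : Partner A B a b) : conjBy A (a * b⁻¹ * a) = B := by
  calc conjBy A (a * b⁻¹ * a) = conjBy (conjBy A a) (a * b⁻¹) := (conjBy_conjBy _ _ _).symm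
    _ = conjBy A (a * b⁻¹) := by rw [conjBy_of_mem hp.memA]
    _ = B := conjBy_mul_eq hp

/-- `n = a b⁻¹ a` maps `B` to `A`. -/
theorem conjBy_n_right (hs : IsSpecialRankOnePair A B)
    (hAc : ∀ x ∈ A, ∀ y ∈ A, x * y = y * x) {a b : G} (hp : Partner A B a b) :
    conjBy B (a * b⁻¹ * a) = A := by
  have h1 := (partner_inv hs hAc hp).eqn
  rw [inv_inv, inv_inv] at h1
  rw [braid hs hp]
  calc conjBy B (b⁻¹ * a * b⁻¹) = conjBy (conjBy B b⁻¹) (b⁻¹ * a) := (conjBy_conjBy _ _ _).symm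
    _ = conjBy B (b⁻¹ * a) := by rw [conjBy_of_mem (inv_mem hp.memB)]
    _ = conjBy (conjBy B a) b⁻¹ := (conjBy_conjBy _ _ _).symm
    _ = conjBy (conjBy A b) b⁻¹ := by rw [h1]
    _ = A := by rw [conjBy_conjBy, inv_mul_cancel, conjBy_one]

theorem star_algebra {a a₂ e₁ e₂ f d : G} (hf : e₁ * f = f * e₁) (haa : a * a₂ = a₂ * a)
    (E1 : (e₁ * e₂) * d * (e₁ * e₂)⁻¹ = (a * a₂)⁻¹ * f * (a * a₂))
    (E2 : e₂ * d * e₂⁻¹ = a₂⁻¹ * f * a₂)
    (E3 : e₁ * a₂⁻¹ * e₁⁻¹ = a⁻¹ * e₂⁻¹ * a) :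
    a * f * a⁻¹ = e₂ * (a₂⁻¹ * f * a₂) * e₂⁻¹ := by
  have E4 : e₁ * f * e₁⁻¹ = f := by rw [hf]; group
  have h7 : e₁ * (a₂⁻¹ * f * a₂) * e₁⁻¹ = (a * a₂)⁻¹ * f * (a * a₂) := by
    rw [← E1, ← E2]; group
  have h9 : e₁ * a₂ * e₁⁻¹ = a⁻¹ * e₂ * a := by
    have h := congrArg (fun t => t⁻¹) E3
    simp only [mul_inv_rev, inv_inv] at h
    calc e₁ * a₂ * e₁⁻¹ = e₁ * (a₂ * e₁⁻¹) := by group
      _ = a⁻¹ * e₂ * a := by rw [h]; group
  have h10 : e₁ * (a₂⁻¹ * f * a₂) * e₁⁻¹ =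
      (e₁ * a₂⁻¹ * e₁⁻¹) * (e₁ * f * e₁⁻¹) * (e₁ * a₂ * e₁⁻¹) := by group
  rw [h10, E3, E4, h9] at h7
  have h11 : e₂⁻¹ * (a * f * a⁻¹) * e₂ = a₂⁻¹ * f * a₂ := by
    have h12 : a * (a⁻¹ * e₂⁻¹ * a * f * (a⁻¹ * e₂ * a)) * a⁻¹ =
        a * ((a * a₂)⁻¹ * f * (a * a₂)) * a⁻¹ := by rw [h7]
    have e1 : a * (a⁻¹ * e₂⁻¹ * a * f * (a⁻¹ * e₂ * a)) * a⁻¹ = e₂⁻¹ * (a * f * a⁻¹) * e₂ := by group
    have e2 : a * ((a * a₂)⁻¹ * f * (a * a₂)) * a⁻¹ = a₂⁻¹ * f * a₂ := by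
      rw [haa]; group
    rw [e1, e2] at h12
    exact h12
  rw [← h11]; group

section modN

variable (N : Subgroup G) [N.Normal]

theorem comm_mem (hN : ⁅A, B⁆ ≤ N) {a b : G} (ha : a ∈ A) (hb : b ∈ B) :
    a * b * a⁻¹ * b⁻¹ ∈ N := hN (Subgroup.commutator_mem_commutator ha hb)

/-- modulo `N ⊇ [A, B]`, partners are inverse. -/
theorem mul_mem_of_partner (hs : IsSpecialRankOnePair A B) (hN : ⁅A, B⁆ ≤ N)
    {a b : G} (hp : Partner A B a b) : a * b ∈ N := by
  have h := hs.2 a hp.memA hp.neA b hp.memB hp.neB hp.eqn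
  have hc := comm_mem N hN hp.memA hp.memB
  set φ := QuotientGroup.mk' N with hφ
  have hker : ∀ x, x ∈ N ↔ φ x = 1 := fun x => (QuotientGroup.eq_one_iff x).symm
  rw [hker] at hc ⊢
  simp only [map_mul, map_inv] at hc ⊢
  have hcomm : φ a * φ b = φ b * φ a := mul_inv_eq_iff_eq_mul.1 (mul_inv_eq_one.1 hc)
  have h2 := congrArg φ h
  simp only [map_mul, map_inv] at h2
  have h3 : (φ b)⁻¹ * φ a * φ b = φ a := by
    rw [mul_assoc, hcomm]; group
  have h4 : (φ a)⁻¹ * (φ b)⁻¹ * φ a = (φ b)⁻¹ := by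
    have : (φ b)⁻¹ * φ a = φ a * (φ b)⁻¹ := by
      rw [inv_mul_eq_iff_eq_mul, ← mul_assoc, ← hcomm, mul_assoc, mul_inv_cancel, mul_one]
    rw [mul_assoc, this]; group
  rw [h3, h4] at h2
  rw [h2]
  group

/-- if `A` and `B` commute mod `N`, then conjugating by an element of `A ⊔ B`-word `x y x` does nothing mod `N`. -/
theorem n_conj_mod (hN : ⁅A, B⁆ ≤ N) (hAc : ∀ x ∈ A, ∀ y ∈ A, x * y = y * x)
    {a c d : G} (ha : a ∈ A) (hc : c ∈ B) (hd : d ∈ A) :
    (a * c * a) * d * (a * c * a)⁻¹ * d⁻¹ ∈ N := by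
  have hcd := comm_mem N hN hd hc
  have h1 : (a * c * a) * d * (a * c * a)⁻¹ * d⁻¹ = a * (c * d * c⁻¹ * d⁻¹) * a⁻¹ := by
    have e1 : a * d = d * a := hAc a ha d hd
    calc (a * c * a) * d * (a * c * a)⁻¹ * d⁻¹ = a * c * (a * d * a⁻¹) * c⁻¹ * a⁻¹ * d⁻¹ := by group
      _ = a * c * d * c⁻¹ * a⁻¹ * d⁻¹ := by rw [e1]; group
      _ = a * c * d * c⁻¹ * (d⁻¹ * d) * a⁻¹ * d⁻¹ := by group
      _ = a * (c * d * c⁻¹ * d⁻¹) * (d * a⁻¹ * d⁻¹) := by group
      _ = a * (c * d * c⁻¹ * d⁻¹) * a⁻¹ := by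
          have : d * a⁻¹ * d⁻¹ = a⁻¹ := by
            have e2 : a⁻¹ * d = d * a⁻¹ := by
              rw [inv_mul_eq_iff_eq_mul, ← mul_assoc, e1, mul_assoc, mul_inv_cancel, mul_one]
            rw [← e2]; group
          rw [this]
  rw [h1]
  apply Subgroup.Normal.conj_mem ‹N.Normal›
  have : c * d * c⁻¹ * d⁻¹ = (d * c * d⁻¹ * c⁻¹)⁻¹ := by group
  rw [this]
  exact inv_mem hcd

/-- If `A ∩ N ≠ 1` then `A ≤ N`. -/
theorem le_of_mem_inf (hs : IsSpecialRankOnePair A B) (hAc : ∀ x ∈ A, ∀ y ∈ A, x * y = y * x)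
    (hBc : ∀ x ∈ B, ∀ y ∈ B, x * y = y * x) (hN : ⁅A, B⁆ ≤ N)
    {a : G} (ha : a ∈ A) (ha1 : a ≠ 1) (haN : a ∈ N) : A ≤ N := by
  intro c hc
  by_contra hcN
  have hr := hs.1
  have hc1 : c ≠ 1 := fun h => hcN (h ▸ one_mem N)
  have hcaN : c * a ∉ N := fun h => hcN (by
    have : c = c * a * a⁻¹ := by group
    rw [this]; exact mul_mem h (inv_mem haN))
  have hca1 : c * a ≠ 1 := fun h => hcaN (h ▸ one_mem N)
  have hcaA : c * a ∈ A := mul_mem hc ha
  obtain ⟨b₁, hb₁⟩ := exists_partner_left hr hc hc1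
  obtain ⟨b₂, hb₂⟩ := exists_partner_left hr hcaA hca1
  set φ := QuotientGroup.mk' N with hφ
  have hker : ∀ x, x ∈ N ↔ φ x = 1 := fun x => (QuotientGroup.eq_one_iff x).symm
  have h1 : φ c * φ b₁ = 1 := by
    have := (hker _).1 (mul_mem_of_partner N hs hN hb₁)
    simpa only [map_mul] using this
  have h2 : φ c * φ a * φ b₂ = 1 := by
    have := (hker _).1 (mul_mem_of_partner N hs hN hb₂)
    simpa only [map_mul] using this
  have hφa : φ a = 1 := (hker _).1 haN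
  rw [hφa, mul_one] at h2
  set w := b₁ * b₂⁻¹ with hw
  have hwB : w ∈ B := mul_mem hb₁.memB (inv_mem hb₂.memB)
  have hwN : w ∈ N := by
    rw [hker, hw, map_mul, map_inv, eq_inv_of_mul_eq_one_right h1, eq_inv_of_mul_eq_one_right h2]
    simp
  have hw1 : w ≠ 1 := by
    intro h
    have hb : b₁ = b₂ := by
      have : b₁ = w * b₂ := by rw [hw]; group
      rw [this, h, one_mul]
    have he : conjBy B c⁻¹ = conjBy B (c * a)⁻¹ := by rw [← hb₁.eqn, ← hb₂.eqn, hb]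
    have he2 : conjBy B a⁻¹ = B := by
      have h3 := congrArg (fun X => conjBy X c) he
      simp only [conjBy_conjBy] at h3
      rw [mul_inv_cancel, conjBy_one] at h3
      have : c * (c * a)⁻¹ = a⁻¹ := by rw [← hAc a ha c hc]; group
      rw [this] at h3
      exact h3.symm
    have := eq_one_of_conjBy_eq hr (inv_mem ha) he2
    exact ha1 (by simpa using this)
  -- the Weyl elements
  set n₁ := c * b₁⁻¹ * c with hn₁
  set n₂ := (c * a) * b₂⁻¹ * (c * a) with hn₂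
  have hn₁A : conjBy A n₁ = B := conjBy_n_left hb₁
  have hn₁B : conjBy B n₁ = A := conjBy_n_right hs hAc hb₁
  have hn₂B : conjBy B n₂ = A := conjBy_n_right hs hAc hb₂
  set z := n₁ * a * n₁⁻¹ with hz
  have hzB : z ∈ B := by
    rw [← hn₁A]; exact conj_mem_conjBy ha
  have hzN : z ∈ N := Subgroup.Normal.conj_mem ‹N.Normal› _ haN _
  have hz1 : z ≠ 1 := by
    intro h
    apply ha1
    have : a = n₁⁻¹ * z * n₁ := by rw [hz]; group
    rw [this, h]; group
  -- `h = n₂ n₁⁻¹` normalizes `A`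
  have hA1 : conjBy A n₁⁻¹ = B := by
    have := congrArg (fun X => conjBy X n₁⁻¹) hn₁B
    simp only [conjBy_conjBy, inv_mul_cancel, conjBy_one] at this
    exact this.symm
  have hA2 : conjBy A (n₂ * n₁⁻¹) = A := by
    rw [← conjBy_conjBy, hA1, hn₂B]
  have hac : a * c = c * a := hAc a ha c hc
  have hcac : c * a * c⁻¹ = a := by rw [← hac]; group
  have hb₂' : b₂⁻¹ = b₁⁻¹ * w := by rw [hw]; group
  have hwb : w * b₁⁻¹ = b₁⁻¹ * w := hBc _ hwB _ (inv_mem hb₁.memB)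
  have hid : n₂ * n₁⁻¹ = a * (c * w * c⁻¹ * z) := by
    have hzexp : z = c * b₁⁻¹ * a * b₁ * c⁻¹ := by
      calc z = c * b₁⁻¹ * (c * a * c⁻¹) * b₁ * c⁻¹ := by rw [hz, hn₁]; group
        _ = c * b₁⁻¹ * a * b₁ * c⁻¹ := by rw [hcac]
    calc n₂ * n₁⁻¹ = (c * a) * b₂⁻¹ * (c * a * c⁻¹) * b₁ * c⁻¹ := by rw [hn₂, hn₁]; group
      _ = (c * a) * (b₁⁻¹ * w) * a * b₁ * c⁻¹ := by rw [hcac, hb₂']
      _ = (c * a) * (w * b₁⁻¹) * a * b₁ * c⁻¹ := by rw [hwb]
      _ = (a * c) * (w * b₁⁻¹) * a * b₁ * c⁻¹ := by rw [hac]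
      _ = a * (c * w * c⁻¹ * (c * b₁⁻¹ * a * b₁ * c⁻¹)) := by group
      _ = a * (c * w * c⁻¹ * z) := by rw [← hzexp]
  have hE : conjBy A (c * w * c⁻¹ * z) = A := by
    have h3 := congrArg (fun X => conjBy X a⁻¹) hA2
    simp only [conjBy_conjBy] at h3
    rw [hid, conjBy_of_mem (inv_mem ha)] at h3
    have : a⁻¹ * (a * (c * w * c⁻¹ * z)) = c * w * c⁻¹ * z := by group
    rwa [this] at h3
  have hE2 : conjBy A z = conjBy (conjBy A w⁻¹) c := by
    have h3 := congrArg (fun X => conjBy X (c * w * c⁻¹)⁻¹) hE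
    simp only [conjBy_conjBy] at h3
    have e1 : (c * w * c⁻¹)⁻¹ * (c * w * c⁻¹ * z) = z := by group
    rw [e1] at h3
    rw [h3]
    have e2 : (c * w * c⁻¹)⁻¹ = (c * w⁻¹) * c⁻¹ := by group
    rw [e2, ← conjBy_conjBy A c⁻¹, conjBy_of_mem (inv_mem hc)]
    rw [conjBy_conjBy]
  obtain ⟨x₁, hx₁⟩ := exists_partner_right hr (inv_mem hzB) (inv_ne_one.mpr hz1)
  obtain ⟨x₂, hx₂⟩ := exists_partner_right hr hwB hw1
  have hx₁e := hx₁.eqn
  rw [inv_inv] at hx₁e
  have hx₂e := hx₂.eqn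
  have hx₁N : x₁ ∈ N := by
    have := mul_mem_of_partner N hs hN hx₁
    have e : x₁ = x₁ * z⁻¹ * z := by group
    rw [e]; exact mul_mem this hzN
  have hx₂N : x₂ ∈ N := by
    have := mul_mem_of_partner N hs hN hx₂
    have e : x₂ = x₂ * w * w⁻¹ := by group
    rw [e]; exact mul_mem this (inv_mem hwN)
  rw [hx₁e, hx₂e, conjBy_conjBy] at hE2
  have hfinal : conjBy B (x₁ * (c * x₂⁻¹)) = B := by
    have h3 := congrArg (fun X => conjBy X x₁) hE2
    simp only [conjBy_conjBy] at h3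
    rw [mul_inv_cancel, conjBy_one] at h3
    exact h3.symm
  have h1' := eq_one_of_conjBy_eq hr (mul_mem hx₁.memA (mul_mem hc (inv_mem hx₂.memA))) hfinal
  apply hcN
  have e : c = x₁⁻¹ * (x₁ * (c * x₂⁻¹)) * x₂ := by group
  rw [e, h1', mul_one]
  exact mul_mem (inv_mem hx₁N) hx₂N

/-- If `|A| > 3` then `A ∩ N ≠ 1`. -/
theorem exists_mem_inf (hs : IsSpecialRankOnePair A B) (hAc : ∀ x ∈ A, ∀ y ∈ A, x * y = y * x)
    (hBc : ∀ x ∈ B, ∀ y ∈ B, x * y = y * x) (hN : ⁅A, B⁆ ≤ N)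
    (ha2 : ∃ a₂ ∈ A, a₂ ≠ 1 ∧ ∃ a₁ ∈ A, ∃ a₃ ∈ A, a₁ ≠ a₃ ∧ a₁ ≠ 1 ∧ a₃ ≠ 1 ∧ a₁ * a₂ ≠ 1 ∧ a₃ * a₂ ≠ 1) :
    ∃ a ∈ A, a ≠ 1 ∧ a ∈ N := by
  by_contra hcon
  push Not at hcon
  obtain ⟨a₂, ha₂, ha₂1, a₁, ha₁, a₃, ha₃, h13, ha₁1, ha₃1, ha₁₂, ha₃₂⟩ := ha2
  have hr := hs.1
  set φ := QuotientGroup.mk' N with hφ
  have hker : ∀ x, x ∈ N ↔ φ x = 1 := fun x => (QuotientGroup.eq_one_iff x).symm
  -- partners
  have hex : ∀ x : G, ∃ p : G, x ∈ A → x ≠ 1 → Partner A B x p := by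
    intro x
    by_cases hx : x ∈ A ∧ x ≠ 1
    · obtain ⟨p, hp⟩ := exists_partner_left hr hx.1 hx.2
      exact ⟨p, fun _ _ => hp⟩
    · exact ⟨1, fun h1 h2 => absurd ⟨h1, h2⟩ hx⟩
  choose p hp using hex
  -- `B ∩ N = 1`
  obtain hB1 : ∀ y ∈ B, y ∈ N → y = 1 := by
    intro y hy hyN
    have hn := conjBy_n_left (hp a₂ ha₂ ha₂1)
    rw [← hn, mem_conjBy] at hy
    set n := a₂ * (p a₂)⁻¹ * a₂
    have h3 : n⁻¹ * y * n ∈ N := by
      have := Subgroup.Normal.conj_mem ‹N.Normal› y hyN n⁻¹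
      rwa [inv_inv] at this
    have h4 : n⁻¹ * y * n = 1 := by
      by_contra h5
      exact hcon _ hy h5 h3
    have : y = n * (n⁻¹ * y * n) * n⁻¹ := by group
    rw [this, h4]; group
  have hB2 : ∀ y ∈ B, ∀ y' ∈ B, φ y = φ y' → y = y' := by
    intro y hy y' hy' he
    have h3 : y * y'⁻¹ ∈ N := by
      rw [hker, map_mul, map_inv, he, mul_inv_cancel]
    have h4 := hB1 _ (mul_mem hy (inv_mem hy')) h3
    exact mul_inv_eq_one.1 h4
  have hφp : ∀ x (hx : x ∈ A) (hx1 : x ≠ 1), φ (p x)⁻¹ = φ x := by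
    intro x hx hx1
    have := (hker _).1 (mul_mem_of_partner N hs hN (hp x hx hx1))
    rw [map_mul] at this
    rw [map_inv]
    exact (eq_inv_of_mul_eq_one_left this).symm
  have hpB : ∀ x (hx : x ∈ A) (hx1 : x ≠ 1), (p x)⁻¹ ∈ B := fun x hx hx1 =>
    inv_mem (hp x hx hx1).memB
  -- (★)
  have hstar : ∀ x (hx : x ∈ A) (hx1 : x ≠ 1) d (hd : d ∈ A) (hd1 : d ≠ 1),
      (p x)⁻¹ * d * ((p x)⁻¹)⁻¹ = x⁻¹ * (p d)⁻¹ * x := by
    intro x hx hx1 d hd hd1
    have hn := conjBy_n_left (hp x hx hx1)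
    set n := x * (p x)⁻¹ * x with hn'
    have h3 : n * d * n⁻¹ ∈ B := by
      rw [← hn]; exact conj_mem_conjBy hd
    have h4 : φ (n * d * n⁻¹) = φ ((p d)⁻¹) := by
      rw [hφp d hd hd1]
      have := (hker _).1 (n_conj_mod N hN hAc hx (hpB x hx hx1) hd)
      simp only [map_mul, map_inv] at this ⊢
      exact mul_inv_eq_one.1 this
    have h5 := hB2 _ h3 _ (hpB d hd hd1) h4
    have hxd : x * d = d * x := hAc x hx d hd
    have h6 : n * d * n⁻¹ = x * ((p x)⁻¹ * d * ((p x)⁻¹)⁻¹) * x⁻¹ := by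
      calc n * d * n⁻¹ = x * (p x)⁻¹ * (x * d) * x⁻¹ * ((p x)⁻¹)⁻¹ * x⁻¹ := by rw [hn']; group
        _ = x * ((p x)⁻¹ * d * ((p x)⁻¹)⁻¹) * x⁻¹ := by rw [hxd]; group
    rw [h6] at h5
    rw [← h5]; group
  -- homomorphism
  have hmul : ∀ x (hx : x ∈ A) (hx1 : x ≠ 1) y (hy : y ∈ A) (hy1 : y ≠ 1) (hxy : x * y ≠ 1),
      (p (x * y))⁻¹ = (p x)⁻¹ * (p y)⁻¹ := by
    intro x hx hx1 y hy hy1 hxy
    apply hB2 _ (hpB _ (mul_mem hx hy) hxy) _ (mul_mem (hpB x hx hx1) (hpB y hy hy1))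
    rw [hφp _ (mul_mem hx hy) hxy, map_mul, map_mul, hφp x hx hx1, hφp y hy hy1]
  have hinv : ∀ x (hx : x ∈ A) (hx1 : x ≠ 1), (p x⁻¹)⁻¹ = ((p x)⁻¹)⁻¹ := by
    intro x hx hx1
    apply hB2 _ (hpB _ (inv_mem hx) (by simpa using hx1)) _ (inv_mem (hpB x hx hx1))
    rw [hφp _ (inv_mem hx) (by simpa using hx1), map_inv, map_inv, hφp x hx hx1]
  -- (★★)
  have hfB : (p a₂)⁻¹ ∈ B := hpB a₂ ha₂ ha₂1
  have hf1 : (p a₂)⁻¹ ≠ 1 := by simpa using (hp a₂ ha₂ ha₂1).neB
  have hstar2 : ∀ a (ha : a ∈ A) (ha1 : a ≠ 1) (ha12 : a * a₂ ≠ 1),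
      a * (p a₂)⁻¹ * a⁻¹ = (p a₂)⁻¹ * (a₂⁻¹ * (p a₂)⁻¹ * a₂) * ((p a₂)⁻¹)⁻¹ := by
    intro a ha ha1 ha12
    have E1 := hstar (a * a₂) (mul_mem ha ha₂) ha12 a₂ ha₂ ha₂1
    rw [hmul a ha ha1 a₂ ha₂ ha₂1 ha12] at E1
    have E2 := hstar a₂ ha₂ ha₂1 a₂ ha₂ ha₂1
    have E3 := hstar a ha ha1 a₂⁻¹ (inv_mem ha₂) (by simpa using ha₂1)
    rw [hinv a₂ ha₂ ha₂1] at E3
    exact star_algebra (hBc _ (hpB a ha ha1) _ hfB) (hAc a ha a₂ ha₂) E1 E2 E3
  have hfB' := hfB
  set f := (p a₂)⁻¹ with hf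
  have h1 := hstar2 a₁ ha₁ ha₁1 ha₁₂
  have h3 := hstar2 a₃ ha₃ ha₃1 ha₃₂
  have h4 : a₁ * f * a₁⁻¹ = a₃ * f * a₃⁻¹ := by rw [h1, h3]
  have h5 : (a₃⁻¹ * a₁) * f = f * (a₃⁻¹ * a₁) := by
    have : (a₃⁻¹ * a₁) * f = a₃⁻¹ * (a₁ * f * a₁⁻¹) * a₁ := by group
    rw [this, h4]; group
  refine mul_ne_mul hr hAc (mul_mem (inv_mem ha₃) ha₁) ?_ hfB hf1 h5
  intro h6
  apply h13
  have : a₁ = a₃ * (a₃⁻¹ * a₁) := by group
  rw [this, h6, mul_one]

end modN

end special

/-- a subgroup with more than three elements has two different elements outside a given pair. -/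
theorem exists_two_of_card (A : Subgroup G) (hcard : 3 < ENat.card A) (u v : G) :
    ∃ x ∈ A, ∃ y ∈ A, x ≠ y ∧ x ≠ u ∧ x ≠ v ∧ y ≠ u ∧ y ≠ v := by
  by_contra hcon
  push Not at hcon
  have hle : (A : Set G).encard ≤ 3 := by
    by_cases h : ∃ x ∈ A, x ≠ u ∧ x ≠ v
    · obtain ⟨x, hx, hxu, hxv⟩ := h
      have hsub : (A : Set G) ⊆ {u, v, x} := by
        intro y hy
        by_cases hyx : y = x
        · simp [hyx]
        · by_cases hyu : y = u
          · simp [hyu]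
          · have := hcon x hx y hy (Ne.symm hyx) hxu hxv hyu
            simp [this]
      calc (A : Set G).encard ≤ ({u, v, x} : Set G).encard := Set.encard_le_encard hsub
        _ ≤ ({v, x} : Set G).encard + 1 := Set.encard_insert_le _ _
        _ ≤ (({x} : Set G).encard + 1) + 1 := by
            gcongr; exact Set.encard_insert_le _ _
        _ = 3 := by rw [Set.encard_singleton]; norm_num
    · push Not at h
      have hsub : (A : Set G) ⊆ {u, v} := by
        intro y hy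
        by_cases hyu : y = u
        · simp [hyu]
        · simp [h y hy hyu]
      calc (A : Set G).encard ≤ ({u, v} : Set G).encard := Set.encard_le_encard hsub
        _ ≤ ({v} : Set G).encard + 1 := Set.encard_insert_le _ _
        _ ≤ 3 := by rw [Set.encard_singleton]; norm_num
  have : ENat.card A = (A : Set G).encard := rfl
  rw [this] at hcard
  exact absurd hcard (not_lt.2 hle)

section rootset

variable {S : Set (Subgroup G)}

theorem comm_of_mem (hS : IsRootSubgroupSet S) {A : Subgroup G} (hA : A ∈ S) :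
    ∀ x ∈ A, ∀ y ∈ A, x * y = y * x := by
  intro x hx y hy
  have := (hS.commutative A hA).is_comm.comm ⟨x, hx⟩ ⟨y, hy⟩
  exact congrArg Subtype.val this

theorem exists_ne_one (hS : IsRootSubgroupSet S) {A : Subgroup G} (hA : A ∈ S) :
    ∃ a ∈ A, a ≠ 1 := (Subgroup.ne_bot_iff_exists_ne_one.1 (hS.ne_bot A hA)).elim
  fun a ha => ⟨a, a.2, by simpa using ha⟩

theorem exists_conj (hS : IsRootSubgroupSet S) (h1 : IsConnectedFamily (FAdj S) S)
    {A B : Subgroup G} (hA : A ∈ S) (hB : B ∈ S) : ∃ g, conjBy A g = B := by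
  have h := h1 A hA B hB
  induction h with
  | refl => exact ⟨1, conjBy_one A⟩
  | tail _ hcd ih =>
    obtain ⟨hC, hD, hr⟩ := hcd
    obtain ⟨g, hg⟩ := ih hC
    obtain ⟨a, ha, ha1⟩ := exists_ne_one hS hC
    obtain ⟨b, hb⟩ := exists_partner_left hr ha ha1
    exact ⟨a * b⁻¹ * g, by rw [← conjBy_conjBy, hg, conjBy_mul_eq hb]⟩

theorem exists_partner_of_ne (h1 : IsConnectedFamily (FAdj S) S)
    (h2 : ∃ A ∈ S, ∃ B ∈ S, A ≠ B) {A : Subgroup G} (hA : A ∈ S) :
    ∃ B ∈ S, IsRankOnePair A B := by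
  obtain ⟨A₁, hA₁, B₁, hB₁, hne⟩ := h2
  obtain ⟨E, hE, hEA⟩ : ∃ E ∈ S, A ≠ E := by
    by_cases h : A = A₁
    · exact ⟨B₁, hB₁, h ▸ hne⟩
    · exact ⟨A₁, hA₁, h⟩
  rcases Relation.ReflTransGen.cases_head (h1 A hA E hE) with h | ⟨c, hc, _⟩
  · exact absurd h hEA
  · exact ⟨c, hc.2.1, hc.2.2⟩

theorem eq_top_of_member_le (hS : IsRootSubgroupSet S) (h1 : IsConnectedFamily (FAdj S) S)
    {N : Subgroup G} [N.Normal] {A : Subgroup G} (hA : A ∈ S) (hle : A ≤ N) : N = ⊤ := by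
  rw [eq_top_iff, ← hS.generates]
  refine iSup₂_le fun C hC => ?_
  obtain ⟨g, rfl⟩ := exists_conj hS h1 hA hC
  exact conjBy_le_of_normal hle g

/-- commutator of subgroups lies in `N` if elementwise commutators do (for the image in `G / N`). -/
theorem commutator_le_of_quot {X Y : Subgroup G} (N : Subgroup G) [N.Normal]
    (h : ∀ x ∈ X, ∀ y ∈ Y, QuotientGroup.mk' N x * QuotientGroup.mk' N y =
      QuotientGroup.mk' N y * QuotientGroup.mk' N x) : ⁅X, Y⁆ ≤ N := by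
  rw [Subgroup.commutator_le]
  intro x hx y hy
  rw [← QuotientGroup.eq_one_iff]
  have h2 := h x hx y hy
  change QuotientGroup.mk' N (x * y * x⁻¹ * y⁻¹) = 1
  simp only [map_mul, map_inv]
  rw [h2]; group

section main

variable (hS : IsRootSubgroupSet S) (h1 : IsConnectedFamily (FAdj S) S)
  (h2 : ∃ A ∈ S, ∃ B ∈ S, A ≠ B)
  (h2' : ∀ A ∈ S, ∀ C ∈ S, A ≠ C → centralizingMembers S A ≠ centralizingMembers S C)
  (h3 : IsDegenerateRootSet S → ∀ A ∈ S, 3 < ENat.card A)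
  (h4 : ∀ A ∈ S, ∀ B ∈ rankOnePartners S A, IsSpecialRankOnePair A B)

include hS h1 h3 h4

/-- A rank one pair with `[A, B] ≤ N` forces `N = G`. -/
theorem eq_top_of_rank_one_le {N : Subgroup G} [N.Normal] {A B : Subgroup G} (hA : A ∈ S)
    (hB : B ∈ S) (hr : IsRankOnePair A B) (hN : ⁅A, B⁆ ≤ N) : N = ⊤ := by
  have hs : IsSpecialRankOnePair A B := h4 A hA B ⟨hB, hr⟩
  have hAc := comm_of_mem hS hA
  have hBc := comm_of_mem hS hB
  by_cases hdeg : IsDegenerateRootSet S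
  · have hcard := h3 hdeg A hA
    obtain ⟨a₂, ha₂, ha₂1⟩ := exists_ne_one hS hA
    obtain ⟨a₁, ha₁, a₃, ha₃, h13, h11, h12, h31, h32⟩ := exists_two_of_card A hcard 1 a₂⁻¹
    obtain ⟨a, ha, ha1, haN⟩ := exists_mem_inf N hs hAc hBc hN
      ⟨a₂, ha₂, ha₂1, a₁, ha₁, a₃, ha₃, h13, h11, h31,
        fun h => h12 (eq_inv_of_mul_eq_one_left h), fun h => h32 (eq_inv_of_mul_eq_one_left h)⟩
    exact eq_top_of_member_le hS h1 hA (le_of_mem_inf N hs hAc hBc hN ha ha1 haN)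
  · unfold IsDegenerateRootSet at hdeg
    push Not at hdeg
    obtain ⟨A₁, hA₁, B₁, hB₁, hcc⟩ := hdeg
    obtain ⟨g, hg⟩ := exists_conj hS h1 hcc.1 hA
    set φ := QuotientGroup.mk' N with hφ
    set A₂ := conjBy A₁ g with hA₂
    set B₂ := conjBy B₁ g with hB₂
    have hA₂S : A₂ ∈ S := hS.conj_mem A₁ hA₁ g
    have hB₂S : B₂ ∈ S := hS.conj_mem B₁ hB₁ g
    have hcomm : ⁅A₂, B₂⁆ = A := by
      rw [hA₂, hB₂, conjBy, conjBy, ← Subgroup.map_commutator]
      exact hg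
    have hcen : ∀ a ∈ A, ∀ y ∈ A₁ ⊔ B₁, a * (g * y * g⁻¹) = (g * y * g⁻¹) * a := by
      intro a ha y hy
      have h5 : g⁻¹ * a * g ∈ ⁅A₁, B₁⁆ := by
        rw [← hg, mem_conjBy] at ha
        exact ha
      have h6 := hcc.2.1 _ h5 y hy
      calc a * (g * y * g⁻¹) = g * ((g⁻¹ * a * g) * y) * g⁻¹ := by group
        _ = g * (y * (g⁻¹ * a * g)) * g⁻¹ := by rw [h6]
        _ = (g * y * g⁻¹) * a := by group
    have hcenA : ∀ a ∈ A, ∀ y ∈ A₂, a * y = y * a := by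
      intro a ha y hy
      rw [hA₂, mem_conjBy] at hy
      have := hcen a ha _ (Subgroup.mem_sup_left hy)
      have e : g * (g⁻¹ * y * g) * g⁻¹ = y := by group
      rwa [e] at this
    have hcenB : ∀ a ∈ A, ∀ y ∈ B₂, a * y = y * a := by
      intro a ha y hy
      rw [hB₂, mem_conjBy] at hy
      have := hcen a ha _ (Subgroup.mem_sup_right hy)
      have e : g * (g⁻¹ * y * g) * g⁻¹ = y := by group
      rwa [e] at this
    -- elements of `B` are congruent to elements of `A`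
    have hBA : ∀ b ∈ B, ∃ a ∈ A, φ b = φ a := by
      intro b hb
      by_cases hb1 : b = 1
      · exact ⟨1, one_mem A, by rw [hb1]⟩
      · obtain ⟨x, hx⟩ := exists_partner_right hr hb hb1
        have h5 := mul_mem_of_partner N hs hN hx
        have h6 : φ x * φ b = 1 := by
          rw [← map_mul]; exact (QuotientGroup.eq_one_iff _).2 h5
        exact ⟨x⁻¹, inv_mem hx.memA, by rw [map_inv]; exact eq_inv_of_mul_eq_one_right h6⟩
    -- the general step: a member `E` commuting elementwise with `A`, not with `B`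
    have hstep : ∀ E ∈ S, (∀ a ∈ A, ∀ y ∈ E, a * y = y * a) → ⁅E, B⁆ ≠ ⊥ →
        N = ⊤ ∨ ∀ e ∈ E, ∃ a ∈ A, φ e = φ a := by
      intro E hE hcE hne
      have hle : ⁅E, B⁆ ≤ N := by
        apply commutator_le_of_quot
        intro e he b hb
        obtain ⟨a, ha, hab⟩ := hBA b hb
        change φ e * φ b = φ b * φ e
        rw [hab, ← map_mul, ← map_mul, hcE a ha e he]
      rcases hS.pair E hE B hB with h | h | h
      · exact absurd h hne
      · right
        intro e he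
        by_cases he1 : e = 1
        · exact ⟨1, one_mem A, by rw [he1]⟩
        · have hsE : IsSpecialRankOnePair E B := h4 E hE B ⟨hB, h⟩
          obtain ⟨b, hb⟩ := exists_partner_left h he he1
          have h5 := mul_mem_of_partner N hsE hle hb
          have h6 : φ e * φ b = 1 := by
            rw [← map_mul]; exact (QuotientGroup.eq_one_iff _).2 h5
          obtain ⟨a, ha, hab⟩ := hBA b⁻¹ (inv_mem hb.memB)
          refine ⟨a, ha, ?_⟩
          rw [← hab, map_inv]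
          exact eq_inv_of_mul_eq_one_left h6
      · left
        exact eq_top_of_member_le hS h1 h.1 hle
    have hAN : (⁅A₂, B₂⁆ : Subgroup G) ≤ N → N = ⊤ := by
      intro h
      rw [hcomm] at h
      exact eq_top_of_member_le hS h1 hA h
    by_cases hc1 : ⁅A₂, B⁆ = ⊥
    · by_cases hc2 : ⁅B₂, B⁆ = ⊥
      · exfalso
        obtain ⟨a, ha, ha1⟩ := exists_ne_one hS hA
        obtain ⟨b, hb, hb1⟩ := exists_ne_one hS hB
        have h5 : A₂ ≤ Subgroup.centralizer (B : Set G) :=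
          (Subgroup.commutator_eq_bot_iff_le_centralizer).1 hc1
        have h6 : B₂ ≤ Subgroup.centralizer (B : Set G) :=
          (Subgroup.commutator_eq_bot_iff_le_centralizer).1 hc2
        have h7 : A ≤ Subgroup.centralizer (B : Set G) := by
          rw [← hcomm, Subgroup.commutator_le]
          intro x hx y hy
          have hx' := h5 hx
          have hy' := h6 hy
          exact mul_mem (mul_mem (mul_mem hx' hy') (inv_mem hx')) (inv_mem hy')
        have h8 := Subgroup.mem_centralizer_iff.1 (h7 ha) b hb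
        exact mul_ne_mul hr hAc ha ha1 hb hb1 h8.symm
      · rcases hstep B₂ hB₂S hcenB hc2 with h | h
        · exact h
        · apply hAN
          apply commutator_le_of_quot
          intro x hx y hy
          obtain ⟨a, ha, hab⟩ := h y hy
          change φ x * φ y = φ y * φ x
          rw [hab, ← map_mul, ← map_mul, (hcenA a ha x hx).symm]
    · rcases hstep A₂ hA₂S hcenA hc1 with h | h
      · exact h
      · apply hAN
        apply commutator_le_of_quot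
        intro x hx y hy
        obtain ⟨a, ha, hab⟩ := h x hx
        change φ x * φ y = φ y * φ x
        rw [hab, ← map_mul, ← map_mul, hcenB a ha y hy]

include h2 h2'

/-- Every non-central normal subgroup is the whole group. -/
theorem eq_top_of_normal {N : Subgroup G} [N.Normal] (hNc : ¬ N ≤ Subgroup.center G) : N = ⊤ := by
  set φ := QuotientGroup.mk' N with hφ
  have hconjφ : ∀ n ∈ N, ∀ d, φ (n * d * n⁻¹) = φ d := by
    intro n hn d
    have hn' : φ n = 1 := (QuotientGroup.eq_one_iff n).2 hn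
    simp only [map_mul, map_inv, hn', one_mul, inv_one, mul_one]
  by_cases hmove : ∃ D ∈ S, ∃ n ∈ N, conjBy D n ≠ D
  · obtain ⟨D, hD, n, hn, hne⟩ := hmove
    set D' := conjBy D n with hD'
    have hD'S : D' ∈ S := hS.conj_mem D hD n
    have hD'mem : ∀ d' ∈ D', ∃ d ∈ D, φ d' = φ d := by
      intro d' hd'
      rw [hD', mem_conjBy] at hd'
      refine ⟨_, hd', ?_⟩
      rw [← hconjφ n hn (n⁻¹ * d' * n)]
      congr 1; group
    have hDmem : ∀ d ∈ D, ∃ d' ∈ D', φ d = φ d' := by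
      intro d hd
      exact ⟨n * d * n⁻¹, conj_mem_conjBy hd, (hconjφ n hn d).symm⟩
    have hDc := comm_of_mem hS hD
    have hDD' : ⁅D, D'⁆ ≤ N := by
      apply commutator_le_of_quot
      intro d hd d' hd'
      obtain ⟨d₁, hd₁, he⟩ := hD'mem d' hd'
      change φ d * φ d' = φ d' * φ d
      rw [he, ← map_mul, ← map_mul, hDc d hd d₁ hd₁]
    rcases hS.pair D hD D' hD'S with h | h | h
    · -- commuting: use `h2'`
      have hne2 := h2' D hD D' hD'S (Ne.symm hne)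
      have hE : ∃ E, ¬ (E ∈ centralizingMembers S D ↔ E ∈ centralizingMembers S D') := by
        by_contra hcon
        push Not at hcon
        exact hne2 (Set.ext hcon)
      obtain ⟨E, hE⟩ := hE
      have hEcase : ∃ E ∈ S, ∃ D₁ ∈ S, (∀ x ∈ D₁, ∃ y, φ x = φ y ∧ ∀ e ∈ E, e * y = y * e) ∧
          ¬ (E ≤ Subgroup.centralizer (D₁ : Set G)) := by
        by_cases h5 : E ∈ centralizingMembers S D
        · have h6 : E ∉ centralizingMembers S D' := fun h6 => hE (iff_of_true h5 h6)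
          refine ⟨E, h5.1, D', hD'S, ?_, fun h7 => h6 ⟨h5.1, h7⟩⟩
          intro x hx
          obtain ⟨d, hd, he⟩ := hD'mem x hx
          refine ⟨d, he, fun e he' => ?_⟩
          exact (Subgroup.mem_centralizer_iff.1 (h5.2 he') d hd).symm
        · have h6 : E ∈ centralizingMembers S D' := by
            by_contra h6
            exact hE (iff_of_false h5 h6)
          refine ⟨E, h6.1, D, hD, ?_, fun h7 => h5 ⟨h6.1, h7⟩⟩
          intro x hx
          obtain ⟨d, hd, he⟩ := hDmem x hx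
          refine ⟨d, he, fun e he' => ?_⟩
          exact (Subgroup.mem_centralizer_iff.1 (h6.2 he') d hd).symm
      obtain ⟨E, hES, D₁, hD₁, hcong, hnot⟩ := hEcase
      have hle : ⁅E, D₁⁆ ≤ N := by
        apply commutator_le_of_quot
        intro e he x hx
        obtain ⟨y, hxy, hy⟩ := hcong x hx
        change φ e * φ x = φ x * φ e
        rw [hxy, ← map_mul, ← map_mul, hy e he]
      rcases hS.pair E hES D₁ hD₁ with h5 | h5 | h5
      · exact absurd ((Subgroup.commutator_eq_bot_iff_le_centralizer).1 h5) hnot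
      · exact eq_top_of_rank_one_le hS h1 h3 h4 hES hD₁ h5 hle
      · exact eq_top_of_member_le hS h1 h5.1 hle
    · exact eq_top_of_rank_one_le hS h1 h3 h4 hD hD'S h hDD'
    · exact eq_top_of_member_le hS h1 h.1 hDD'
  · push Not at hmove
    exfalso
    -- `N` normalizes every member, so it centralizes every member
    apply hNc
    intro n hn
    rw [Subgroup.mem_center_iff]
    have hcen : (⊤ : Subgroup G) ≤ Subgroup.centralizer ({n} : Set G) := by
      rw [← hS.generates]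
      refine iSup₂_le fun D hD => ?_
      intro d hd
      rw [Subgroup.mem_centralizer_iff]
      intro m hm
      rw [Set.mem_singleton_iff] at hm
      subst hm
      by_contra hcon
      obtain ⟨B, hB, hr⟩ := exists_partner_of_ne h1 h2 hD
      have hk : m * d * m⁻¹ ∈ D := by
        have := conj_mem_conjBy (g := m) hd
        rwa [hmove D hD m hn] at this
      set k := m * d * m⁻¹ * d⁻¹ with hkd
      have hkD : k ∈ D := mul_mem hk (inv_mem hd)
      have hkN : k ∈ N := by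
        have h5 := Subgroup.Normal.conj_mem ‹N.Normal› m⁻¹ (inv_mem hn) d
        have : k = m * (d * m⁻¹ * d⁻¹) := by rw [hkd]; group
        rw [this]
        exact mul_mem hn h5
      have hk1 : k ≠ 1 := by
        intro h5
        apply hcon
        have : m * d * m⁻¹ = d := by
          rw [hkd, mul_inv_eq_one] at h5
          exact h5
        exact mul_inv_eq_iff_eq_mul.1 this
      exact hk1 (eq_one_of_conjBy_eq hr hkD (hmove B hB k hkN))
    intro g
    have := Subgroup.mem_centralizer_iff.1 (hcen (Subgroup.mem_top g)) n rfl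
    exact this.symm

omit h2' in
/-- `G` is perfect. -/
theorem commutator_eq_top : commutator G = ⊤ := by
  have hle : ∀ A B : Subgroup G, ⁅A, B⁆ ≤ commutator G := fun A B =>
    Subgroup.commutator_mono le_top le_top
  by_cases hdeg : IsDegenerateRootSet S
  · have h2c := h2
    obtain ⟨A₁, hA₁, _⟩ := h2c
    obtain ⟨B, hB, hr⟩ := exists_partner_of_ne h1 h2 hA₁
    exact eq_top_of_rank_one_le hS h1 h3 h4 hA₁ hB hr (hle _ _)
  · unfold IsDegenerateRootSet at hdeg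
    push Not at hdeg
    obtain ⟨A₁, hA₁, B₁, hB₁, hcc⟩ := hdeg
    exact eq_top_of_member_le hS h1 hcc.1 (hle _ _)

/-- The conclusion of Timmesfeld's criterion: `G` is quasisimple. -/
theorem isQuasisimple : IsQuasisimple G := by
  have hcomm := commutator_eq_top hS h1 h2 h3 h4
  refine ⟨⟨hcomm⟩, ?_⟩
  have hnt : Subgroup.center G ≠ ⊤ := by
    intro h
    haveI : IsMulCommutative G := ⟨⟨fun a b => by
      have := (Subgroup.mem_center_iff.1 (h ▸ Subgroup.mem_top a)) b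
      exact this.symm⟩⟩
    have h2c := h2
    obtain ⟨A, hA, _⟩ := h2c
    obtain ⟨a, ha, ha1⟩ := exists_ne_one hS hA
    obtain ⟨B, hB, hr⟩ := exists_partner_of_ne h1 h2 hA
    obtain ⟨b, hb, hb1⟩ := exists_ne_one hS hB
    exact mul_ne_mul hr (comm_of_mem hS hA) ha ha1 hb hb1
      ((Subgroup.mem_center_iff.1 (h ▸ Subgroup.mem_top a)) b).symm
  haveI : Nontrivial (G ⧸ Subgroup.center G) := QuotientGroup.nontrivial_iff.2 hnt
  refine ⟨fun M hM => ?_⟩
  haveI : (M.comap (QuotientGroup.mk' (Subgroup.center G))).Normal := hM.comap _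
  by_cases hc : M.comap (QuotientGroup.mk' (Subgroup.center G)) ≤ Subgroup.center G
  · left
    rw [eq_bot_iff]
    intro x hx
    obtain ⟨g, rfl⟩ := QuotientGroup.mk'_surjective _ x
    have := hc (show g ∈ M.comap _ from hx)
    rw [Subgroup.mem_bot]
    exact (QuotientGroup.eq_one_iff g).2 this
  · right
    have := eq_top_of_normal hS h1 h2 h2' h3 h4 hc
    rw [eq_top_iff]
    intro x _
    obtain ⟨g, rfl⟩ := QuotientGroup.mk'_surjective _ x
    have h5 : g ∈ M.comap (QuotientGroup.mk' (Subgroup.center G)) := this ▸ Subgroup.mem_top g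
    exact h5

end main

end rootset

end Cfsg.Agent.Lib.Components.RootQuasi
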