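import Mathlib

/-!
Abstract algebra of special Moufang sets with abelian root groups.
`A`, `B` abelian groups, `c : A ≃ B` odd, and for each `x ≠ 0` an additive injection `φ x : A → B`
satisfying the formula for the action of `μ_x`. Conclusion (Timmesfeld): `A` is elementary abelian or
torsion-free divisible.
-/

set_option autoImplicit false

namespace Cfsg.Agent.Lib.Components.SpecialAlg

/-- Data of a special Moufang set with abelian root groups. -/
structure Data (A B : Type*) [AddCommGroup A] [AddCommGroup B] where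
  c : A → B
  l : B → A
  cl : ∀ b, c (l b) = b
  lc : ∀ a, l (c a) = a
  c_zero : c 0 = 0
  c_neg : ∀ x, c (-x) = - c x
  φ : A → (A →+ B)
  inj : ∀ x, x ≠ 0 → Function.Injective (φ x)
  K : ∀ x s, x ≠ 0 → s ≠ 0 → x + s ≠ 0 → φ x s = c (x + l (c (x + s) - c x))
  K' : ∀ x, x ≠ 0 → φ x x = - c x

variable {A B : Type*} [AddCommGroup A] [AddCommGroup B] (D : Data A B)

namespace Data

theorem c_inj {x y : A} (h : D.c x = D.c y) : x = y := by
  have := congrArg D.l h
  rwa [D.lc, D.lc] at this

theorem c_eq_zero {x : A} (h : D.c x = 0) : x = 0 := D.c_inj (h.trans D.c_zero.symm)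

theorem l_zero : D.l 0 = 0 := by
  rw [← D.c_zero, D.lc]

theorem l_neg (b : B) : D.l (-b) = - D.l b := by
  apply D.c_inj
  rw [D.cl, D.c_neg, D.cl]

/-- `M x s = l (φ x s)`. -/
def M (x s : A) : A := D.l (D.φ x s)

theorem c_M (x s : A) : D.c (D.M x s) = D.φ x s := D.cl _

theorem M_zero (x : A) : D.M x 0 = 0 := by
  simp [M, l_zero]

theorem M_neg (x s : A) : D.M x (-s) = - D.M x s := by
  simp [M, l_neg]

theorem M_self {x : A} (hx : x ≠ 0) : D.M x x = -x := by
  simp only [M]
  rw [D.K' x hx, ← D.c_neg, D.lc]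

theorem M_eq_zero {x s : A} (hx : x ≠ 0) (h : D.M x s = 0) : s = 0 := by
  have h2 : D.φ x s = 0 := by rw [← c_M, h, D.c_zero]
  exact D.inj x hx (by rw [h2, map_zero])

theorem M_ne_zero {x s : A} (hx : x ≠ 0) (hs : s ≠ 0) : D.M x s ≠ 0 :=
  fun h => hs (D.M_eq_zero hx h)

/-- the formula for `M`. -/
theorem M_formula {x s : A} (hx : x ≠ 0) (hs : s ≠ 0) (hxs : x + s ≠ 0) :
    D.M x s = x + D.l (D.c (x + s) - D.c x) := by
  simp only [M]
  rw [D.K x s hx hs hxs, D.lc]

theorem M_comp_neg {x : A} (hx : x ≠ 0) (s : A) : D.M (-x) (D.M x s) = s := by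
  have hnx : -x ≠ 0 := neg_ne_zero.mpr hx
  by_cases hs : s = 0
  · subst hs; rw [M_zero, M_zero]
  by_cases hxs : x + s = 0
  · have hs' : s = -x := by rw [eq_neg_iff_add_eq_zero, add_comm]; exact hxs
    subst hs'
    rw [M_neg, M_self D hx, neg_neg]
    have := D.M_neg (-x) (-x)
    rw [M_self D hnx, neg_neg] at this
    exact this
  · set t := D.M x s with ht
    have ht0 : t ≠ 0 := D.M_ne_zero hx hs
    have hf := D.M_formula hx hs hxs
    have hu : t - x = D.l (D.c (x + s) - D.c x) := by rw [ht, hf]; abel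
    have hnxt : -x + t ≠ 0 := by
      intro h
      have h2 : D.l (D.c (x + s) - D.c x) = 0 := by
        rw [← hu]
        have : t - x = -x + t := by abel
        rw [this, h]
      have h3 : D.c (x + s) - D.c x = 0 := by
        have := congrArg D.c h2
        rwa [D.cl, D.c_zero] at this
      have h4 : x + s = x := D.c_inj (sub_eq_zero.mp h3)
      exact hs (by simpa using h4)
    rw [D.M_formula hnx ht0 hnxt]
    have h5 : -x + t = D.l (D.c (x + s) - D.c x) := by rw [← hu]; abel
    rw [h5, D.cl, D.c_neg]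
    have : D.c (x + s) - D.c x - -D.c x = D.c (x + s) := by abel
    rw [this, D.lc]
    abel

theorem M_neg_neg {x : A} (hx : x ≠ 0) (s : A) : D.M (-x) (-s) = - D.M x s := by
  have hnx : -x ≠ 0 := neg_ne_zero.mpr hx
  by_cases hs : s = 0
  · subst hs; simp [M_zero]
  by_cases hxs : x + s = 0
  · have hs' : s = -x := by rw [eq_neg_iff_add_eq_zero, add_comm]; exact hxs
    subst hs'
    have h1 : D.M x (-x) = x := by rw [M_neg, M_self D hx, neg_neg]
    have h2 : D.M (-x) x = -x := by
      have := D.M_neg (-x) (-x)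
      rw [M_self D hnx, neg_neg] at this
      exact this
    rw [h1, neg_neg, h2]
  · have hs2 : -s ≠ 0 := neg_ne_zero.mpr hs
    have hxs2 : -x + -s ≠ 0 := by
      have : -x + -s = -(x + s) := by abel
      rw [this]; exact neg_ne_zero.mpr hxs
    rw [D.M_formula hnx hs2 hxs2, D.M_formula hx hs hxs]
    have e1 : -x + -s = -(x + s) := by abel
    rw [e1, D.c_neg, D.c_neg]
    have e2 : -D.c (x + s) - -D.c x = -(D.c (x + s) - D.c x) := by abel
    rw [e2, l_neg]
    abel

theorem M_neg_left {x : A} (hx : x ≠ 0) (s : A) : D.M (-x) s = D.M x s := by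
  have h := D.M_neg_neg hx (-s)
  rw [neg_neg, M_neg, neg_neg] at h
  exact h

theorem M_invol {x : A} (hx : x ≠ 0) (s : A) : D.M x (D.M x s) = s := by
  have := D.M_comp_neg hx s
  rwa [D.M_neg_left hx] at this

/-- the other form of the formula. -/
theorem M_formula' {x s : A} (hx : x ≠ 0) (hs : s ≠ 0) (hxs : s ≠ x) :
    D.M x s = -x + D.l (D.c (s - x) + D.c x) := by
  have hnx : -x ≠ 0 := neg_ne_zero.mpr hx
  have h1 : -x + s ≠ 0 := by
    intro h
    apply hxs
    have : s = x + (-x + s) := by abel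
    rw [this, h, add_zero]
  rw [← D.M_neg_left hx, D.M_formula hnx hs h1, D.c_neg]
  have e1 : -x + s = s - x := by abel
  rw [e1, sub_neg_eq_add]

/-- the set-up with `c`. -/
theorem M_nsmul (x s : A) (n : ℕ) : D.c (D.M x (n • s)) = n • D.c (D.M x s) := by
  simp only [c_M, map_nsmul]

/-- `M y ∘ l` is additive. -/
theorem M_l_add {y : A} (hy : y ≠ 0) (b b' : B) :
    D.M y (D.l (b + b')) = D.M y (D.l b) + D.M y (D.l b') := by
  have h : D.M y (D.M y (D.l b) + D.M y (D.l b')) = D.l (b + b') := by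
    simp only [M, map_add]
    have h1 := D.c_M y (D.M y (D.l b))
    have h2 := D.c_M y (D.M y (D.l b'))
    rw [D.M_invol hy, D.cl] at h1 h2
    simp only [M] at h1 h2
    rw [← h1, ← h2]
  rw [← h, D.M_invol hy]

theorem M_l_zero (y : A) : D.M y (D.l 0) = 0 := by
  rw [l_zero, M_zero]

theorem M_l_nsmul {y : A} (hy : y ≠ 0) (n : ℕ) (b : B) :
    D.M y (D.l (n • b)) = n • D.M y (D.l b) := by
  induction n with
  | zero => simp [M_l_zero]
  | succ k ih => rw [succ_nsmul, D.M_l_add hy, ih, succ_nsmul]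

theorem M_comp_add (x : A) {y : A} (hy : y ≠ 0) (s d : A) :
    D.M y (D.M x (s + d)) = D.M y (D.M x s) + D.M y (D.M x d) := by
  have : D.M x (s + d) = D.l (D.φ x s + D.φ x d) := by simp [M]
  rw [this, D.M_l_add hy]
  rfl

theorem M_comp_nsmul (x : A) {y : A} (hy : y ≠ 0) (n : ℕ) (s : A) :
    D.M y (D.M x (n • s)) = n • D.M y (D.M x s) := by
  induction n with
  | zero => simp [M_zero]
  | succ k ih => rw [succ_nsmul, D.M_comp_add x hy, ih, succ_nsmul]

/-- order equality. -/
theorem nsmul_eq_zero_of_c {u : A} {n : ℕ} (h : n • D.c u = 0) : n • u = 0 := by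
  by_cases hu : u = 0
  · simp [hu]
  · have h2 : D.c (D.M u (n • u)) = 0 := by
      rw [D.M_nsmul, D.M_self hu, D.c_neg, smul_neg, h, neg_zero]
    exact D.M_eq_zero hu (D.c_eq_zero h2)

theorem c_nsmul_eq_zero {u : A} {n : ℕ} (h : n • u = 0) : n • D.c u = 0 := by
  by_cases hu : u = 0
  · simp [hu, D.c_zero]
  · have h2 := D.M_nsmul u u n
    rw [h, M_zero, D.c_zero, D.M_self hu, D.c_neg, smul_neg] at h2
    exact neg_eq_zero.mp h2.symm

/-- `M x (n • x) = -(l (n • c x))`. -/
theorem M_nsmul_self {x : A} (hx : x ≠ 0) (n : ℕ) : D.M x (n • x) = - D.l (n • D.c x) := by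
  apply D.c_inj
  rw [D.M_nsmul, D.M_self hx, D.c_neg, D.c_neg, D.cl, smul_neg]

/-- `M x (l (n • c x)) = -(n • x)`. -/
theorem M_l_nsmul_self {x : A} (hx : x ≠ 0) (n : ℕ) : D.M x (D.l (n • D.c x)) = - (n • x) := by
  have h := D.M_nsmul_self hx n
  have h2 := congrArg (D.M x) h
  rw [D.M_invol hx, M_neg] at h2
  rw [h2, neg_neg]

section step

/-- the `F` statement at `i`. -/
def F (i : ℕ) : Prop := ∀ x : A, i • D.l (i • D.c x) = x

/-- the `I` statement at `i`. -/
def I (i : ℕ) : Prop := ∀ t : A, i • D.c (i • t) = D.c t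

/-- the `T` statement at `i`. -/
def T (A : Type*) [AddCommGroup A] (i : ℕ) : Prop := ∀ x : A, i • x = 0 → x = 0

variable {D}

/-- The Hua-type computation: `M ((i+1) x) x = -((i+1)^2 x)`. -/
theorem M_succ_apply {i : ℕ} (hF : F D i) {x : A} (hx : x ≠ 0)
    (hix : i • x ≠ 0) (hy : (i + 1) • x ≠ 0) :
    D.M ((i + 1) • x) x = - (((i + 1) * (i + 1)) • x) := by
  set y := (i + 1) • x with hyd
  have hyx : y = i • x + x := by rw [hyd, succ_nsmul]
  have hnx : -x ≠ 0 := neg_ne_zero.mpr hx
  set f := D.l (i • D.c x) with hf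
  -- first computation
  have e1 : i • x = y + -x := by rw [hyx]; abel
  have h1 : D.M y (i • x) = -y + D.l (D.c (-x) + D.c y) := by
    have hne : i • x ≠ y := by
      intro h
      rw [hyx] at h
      have : x = 0 := by simpa using h.symm
      exact hx this
    rw [D.M_formula' hy hix hne]
    have : i • x - y = -x := by rw [hyx]; abel
    rw [this]
  have h2 : D.M (-x) (i • x) = x + D.l (D.c y + D.c (-x)) := by
    have hne : i • x ≠ -x := by
      intro h
      apply hy
      rw [hyx, h]; abel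
    rw [D.M_formula' hnx hix hne, neg_neg]
    have : i • x - -x = y := by rw [hyx]; abel
    rw [this]
  have h3 : D.M (-x) (i • x) = - f := by
    rw [D.M_neg_left hx, D.M_nsmul_self hx]
  have h4 : D.M y (i • x) = -y - f - x := by
    rw [h1, add_comm (D.c (-x))]
    have : D.l (D.c y + D.c (-x)) = -f - x := by
      rw [h3] at h2
      rw [eq_sub_iff_add_eq, add_comm]
      exact h2.symm
    rw [this]; abel
  -- `h = M y ∘ M x` at `f`
  have h5 : D.M y (D.M x f) = y + f + x := by
    rw [hf, D.M_l_nsmul_self hx, M_neg, h4]; abel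
  have h6 : D.M y (D.M x x) = i • (y + f + x) := by
    have := D.M_comp_nsmul x hy i f
    rw [← h5, ← this, hf, hF x]
  have h7 : i • f = x := hF x
  rw [D.M_self hx, M_neg] at h6
  have h8 : D.M y x = - (i • (y + f + x)) := by
    rw [← h6, neg_neg]
  rw [h8, nsmul_add, nsmul_add, h7, hyx]
  have e3 : (i + 1) * (i + 1) = i * i + i + i + 1 := by ring
  rw [e3, add_nsmul, add_nsmul, add_nsmul, one_nsmul, mul_nsmul]
  simp only [smul_add]
  abel

/-- the identity `(i+1) • c ((i+1) • t) = c t` from the statements at `i`. -/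
theorem I_step {i : ℕ} (hF : F D i) (hI : I D i) {t : A} (ht : (i + 1) • t ≠ 0) :
    (i + 1) • D.c ((i + 1) • t) = D.c t := by
  have ht0 : t ≠ 0 := by
    rintro rfl
    simp at ht
  set x := D.l (i • D.c t) with hxd
  have hix : i • x = t := hF t
  have hx : x ≠ 0 := by
    rintro h
    rw [h, smul_zero] at hix
    exact ht0 hix.symm
  have hy : (i + 1) • x ≠ 0 := by
    intro h
    apply ht
    rw [← hix, smul_comm, h, smul_zero]
  set y := (i + 1) • x with hyd
  have hyx : y = i • x + x := by rw [hyd, succ_nsmul]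
  have h1 := M_succ_apply hF hx (by rw [hix]; exact ht0) hy
  rw [← hyd] at h1
  have hne : x ≠ y := by
    intro h
    rw [hyx, hix] at h
    exact ht0 (by simpa using h.symm)
  rw [D.M_formula' hy hx hne] at h1
  have e1 : x - y = -t := by rw [hyx, hix]; abel
  rw [e1, D.c_neg] at h1
  have e2 : ((i + 1) * (i + 1)) • x = (i + 1) • y := by rw [mul_nsmul]
  have e3 : (i + 1) • y = i • y + y := succ_nsmul y i
  rw [e2, e3] at h1
  have h2 : D.l (-D.c t + D.c y) = - (i • y) := by
    have : D.l (-D.c t + D.c y) = -y + D.l (-D.c t + D.c y) + y := by abel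
    rw [this, h1]; abel
  have h3 : -D.c t + D.c y = - D.c (i • y) := by
    have := congrArg D.c h2
    rwa [D.cl, D.c_neg] at this
  have h4 : D.c t = D.c y + D.c (i • y) := by
    have : D.c t = D.c y - (-D.c t + D.c y) := by abel
    rw [this, h3]; abel
  have e4 : i • y = (i + 1) • t := by
    rw [hyd, smul_comm, hix]
  rw [h4, ← hI y, e4, succ_nsmul]

theorem dichotomy {j : ℕ} (star : ∀ t : A, j • t ≠ 0 → j • D.c (j • t) = D.c t)
    {v : A} (hv : v ≠ 0) (hjv : j • v = 0) (z : A) : j • z = 0 := by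
  have hb : ∀ w : A, j • w ≠ 0 → j • (j • w) ≠ 0 := by
    intro w hw h
    have h1 := D.c_nsmul_eq_zero h
    rw [star w hw] at h1
    have := D.c_eq_zero h1
    subst this
    simp at hw
  have hc : ∀ w : A, j • w ≠ 0 → ∃ u : A, j • u = w := by
    intro w hw
    have hw0 : w ≠ 0 := by
      rintro rfl
      simp at hw
    have h1 : j • (-w) ≠ 0 := by
      rw [smul_neg]; exact neg_ne_zero.mpr hw
    have h2 := star (-w) h1
    refine ⟨D.M w (j • -w), ?_⟩
    have h3 : -w = D.l (j • D.c (j • -w)) := by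
      rw [h2, D.lc]
    have h4 := congrArg (D.M w) h3
    rw [M_neg, D.M_self hw0, neg_neg] at h4
    have h5 := D.M_l_nsmul hw0 j (D.c (j • -w))
    rw [D.lc] at h5
    exact (h4.trans h5).symm
  by_contra hz
  obtain ⟨u, hu⟩ := hc z hz
  have hzv : j • (z + v) ≠ 0 := by
    rw [smul_add, hjv, add_zero]; exact hz
  obtain ⟨u', hu'⟩ := hc (z + v) hzv
  have e : j • (u' - u) = v := by
    rw [smul_sub, hu, hu']; abel
  have h1 : j • (u' - u) ≠ 0 := by rw [e]; exact hv
  have h2 := hb _ h1
  rw [e] at h2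
  exact h2 hjv

theorem F_I_of_T {j : ℕ} (hT : T A j) (star : ∀ t : A, j • t ≠ 0 → j • D.c (j • t) = D.c t) :
    F D j ∧ I D j := by
  constructor
  · intro x
    by_cases hx : x = 0
    · subst hx
      simp [D.c_zero, l_zero]
    set y := D.l (j • D.c x) with hy
    have hy0 : y ≠ 0 := by
      intro h
      have h2 : j • D.c x = 0 := by
        have := congrArg D.c h
        rwa [hy, D.cl, D.c_zero] at this
      exact hx (hT x (D.nsmul_eq_zero_of_c h2))
    have h1 : j • y ≠ 0 := fun h => hy0 (hT y h)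
    have h2 := star y h1
    have h3 : D.c y = j • D.c x := by rw [hy, D.cl]
    rw [h3] at h2
    set r := D.l (D.c (j • y) - D.c x) with hr
    have h4 : D.c r = D.c (j • y) - D.c x := by rw [hr, D.cl]
    have h5 : j • D.c r = 0 := by
      rw [h4, smul_sub, h2, sub_self]
    have h6 : r = 0 := hT r (D.nsmul_eq_zero_of_c h5)
    rw [h6, D.c_zero] at h4
    exact D.c_inj (sub_eq_zero.mp h4.symm)
  · intro t
    by_cases ht : t = 0
    · subst ht
      simp [D.c_zero]
    · exact star t (fun h => ht (hT t h))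

variable (D)
include D

/-- Timmesfeld's dichotomy, abstract form. -/
theorem main : (∃ p : ℕ, p.Prime ∧ ∀ x : A, p • x = 0) ∨
    ((∀ x : A, x ≠ 0 → ∀ n : ℕ, 0 < n → n • x ≠ 0) ∧ ∀ x : A, ∀ n : ℕ, 0 < n → ∃ y : A, n • y = x) := by
  by_cases hp : ∃ p : ℕ, p.Prime ∧ ∀ x : A, p • x = 0
  · exact Or.inl hp
  right
  push Not at hp
  have key : ∀ n : ℕ, 0 < n → T A n ∧ F D n ∧ I D n := by
    intro n
    induction n using Nat.strong_induction_on with
    | _ n ih =>
      intro hn
      rcases Nat.lt_or_ge n 2 with h2 | h2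
      · have hn1 : n = 1 := by omega
        subst hn1
        refine ⟨fun x hx => by simpa using hx, fun x => by simp [D.lc], fun t => by simp⟩
      · obtain ⟨i, rfl⟩ : ∃ i, n = i + 1 := ⟨n - 1, by omega⟩
        obtain ⟨_, hF, hI⟩ := ih i (by omega) (by omega)
        have star : ∀ t : A, (i + 1) • t ≠ 0 → (i + 1) • D.c ((i + 1) • t) = D.c t :=
          fun t ht => I_step hF hI ht
        have hT : T A (i + 1) := by
          intro v hv
          by_contra hv0
          have hall := dichotomy star hv0 hv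
          by_cases hpr : (i + 1).Prime
          · obtain ⟨x, hx⟩ := hp (i + 1) hpr
            exact hx (hall x)
          · obtain ⟨a, b, ha, hb, hab⟩ : ∃ a b, 1 < a ∧ 1 < b ∧ i + 1 = a * b := by
              obtain ⟨a, hdvd, ha1, ha2⟩ := Nat.exists_dvd_of_not_prime2 h2 hpr
              obtain ⟨b, hb⟩ := hdvd
              refine ⟨a, b, ha1, ?_, hb⟩
              by_contra hb1
              interval_cases b <;> omega
            have ha3 : a < i + 1 := by
              rw [hab]; exact lt_mul_of_one_lt_right (by omega) hb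
            have hb3 : b < i + 1 := by
              rw [hab]; exact lt_mul_of_one_lt_left (by omega) ha
            have h1 : a • (b • v) = 0 := by rw [← mul_nsmul', ← hab]; exact hv
            have h3 := (ih a ha3 (by omega)).1 _ h1
            exact hv0 ((ih b hb3 (by omega)).1 _ h3)
        exact ⟨hT, F_I_of_T hT star⟩
  constructor
  · intro x hx n hn h
    exact hx ((key n hn).1 x h)
  · intro x n hn
    exact ⟨_, (key n hn).2.1 x⟩

end step

end Data

end Cfsg.Agent.Lib.Components.SpecialAlg
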