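import Mathlib
import Cfsg.Prelude.Def_RootSubgroups
import Cfsg.Agent.Lib.Components.RootQuasi
import Cfsg.Agent.Lib.Components.SpecialAlg

/-!
The group-level data of a special rank one pair with abelian unipotent subgroups, and
Timmesfeld's dichotomy: `A` is elementary abelian or torsion-free divisible.
-/

set_option autoImplicit false

namespace Cfsg.Agent.Lib.Components.SpecialGroup

open Cfsg
open Cfsg.Agent.Lib.Components.RootQuasi
open scoped IsMulCommutative

variable {X : Type*} [Group X] {A B : Subgroup X}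

theorem partner_of_pos (hs : IsSpecialRankOnePair A B) (hAc : ∀ x ∈ A, ∀ y ∈ A, x * y = y * x)
    {t β : X} (ht : t ∈ A) (ht1 : t ≠ 1) (hβ : β ∈ B) (hβ1 : β ≠ 1)
    (e : conjBy A β = conjBy B t) : Partner A B t β := by
  have h1 : Partner A B t⁻¹ β⁻¹ :=
    ⟨inv_mem ht, by simpa using ht1, inv_mem hβ, by simpa using hβ1, by simpa using e⟩
  simpa using partner_inv hs hAc h1

theorem pos_eqn (hs : IsSpecialRankOnePair A B) (hAc : ∀ x ∈ A, ∀ y ∈ A, x * y = y * x)
    {t β : X} (hp : Partner A B t β) : conjBy A β = conjBy B t := by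
  simpa using (partner_inv hs hAc hp).eqn

theorem partner_unique_right (hr : IsRankOnePair A B) {a b b' : X}
    (h1 : Partner A B a b) (h2 : Partner A B a b') : b = b' := by
  have h3 : conjBy A (b' * b⁻¹) = A := by
    rw [← conjBy_conjBy, h1.eqn, ← h2.eqn, conjBy_conjBy, mul_inv_cancel, conjBy_one]
  have h4 := eq_one_of_conjBy_eq (RankOnePair_symm hr) (mul_mem h2.memB (inv_mem h1.memB)) h3
  exact (mul_inv_eq_one.mp h4).symm

theorem partner_unique_left (hr : IsRankOnePair A B) {a a' b : X}
    (h1 : Partner A B a b) (h2 : Partner A B a' b) : a = a' := by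
  have h3 : conjBy B (a' * a⁻¹) = B := by
    rw [← conjBy_conjBy, ← h1.eqn, h2.eqn, conjBy_conjBy, mul_inv_cancel, conjBy_one]
  have h4 := eq_one_of_conjBy_eq hr (mul_mem h2.memA (inv_mem h1.memA)) h3
  exact (mul_inv_eq_one.mp h4).symm

/-- The Weyl element of a partner pair. -/
def weyl (x c : X) : X := x * c⁻¹ * x

theorem conj_weyl_mem {x c s : X}
    (h : Partner A B x c) (hs : s ∈ A) : weyl x c * s * (weyl x c)⁻¹ ∈ B := by
  have := conjBy_n_left h
  rw [← this]
  exact conj_mem_conjBy hs

theorem weyl_conj_self (hs : IsSpecialRankOnePair A B) {x c : X} (h : Partner A B x c) :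
    weyl x c * x * (weyl x c)⁻¹ = c⁻¹ := by
  have hbr : x * c⁻¹ * x = c⁻¹ * x * c⁻¹ := braid hs h
  have h1 : weyl x c * x = c⁻¹ * weyl x c := by
    calc weyl x c * x = (c⁻¹ * x * c⁻¹) * x := by rw [weyl, hbr]
      _ = c⁻¹ * (x * c⁻¹ * x) := by group
  rw [h1]; group

/-- the key formula, group form. -/
theorem key_formula (hs : IsSpecialRankOnePair A B) (hAc : ∀ x ∈ A, ∀ y ∈ A, x * y = y * x)
    {x c s cu v : X} (hx : Partner A B x c) (hsA : s ∈ A) (hs1 : s ≠ 1)
    (hu : Partner A B (x * s) cu) (hv : Partner A B v (c⁻¹ * cu)) :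
    Partner A B (x * v) (weyl x c * s * (weyl x c)⁻¹) := by
  set m := weyl x c with hm
  have hmA : conjBy A m = B := conjBy_n_left hx
  have hmB : conjBy B m = A := conjBy_n_right hs hAc hx
  have hβ : m * s * m⁻¹ ∈ B := by
    rw [← hmA]; exact conj_mem_conjBy hsA
  have hβ1 : m * s * m⁻¹ ≠ 1 := by
    intro h
    apply hs1
    have : s = m⁻¹ * (m * s * m⁻¹) * m := by group
    rw [this, h]; group
  have hA1 : conjBy A m⁻¹ = B := by
    have := congrArg (fun Y => conjBy Y m⁻¹) hmB
    simp only [conjBy_conjBy, inv_mul_cancel, conjBy_one] at this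
    exact this.symm
  have e1 := pos_eqn hs hAc hu
  have e2 := pos_eqn hs hAc hv
  have e : conjBy A (m * s * m⁻¹) = conjBy B (x * v) := by
    calc conjBy A (m * s * m⁻¹) = conjBy (conjBy A m⁻¹) (m * s) := by
          rw [conjBy_conjBy]
      _ = conjBy (conjBy B (x * s)) (x * c⁻¹) := by
          rw [hA1, conjBy_conjBy]
          congr 1
          rw [hm, weyl]; group
      _ = conjBy (conjBy A cu) (x * c⁻¹) := by rw [e1]
      _ = conjBy (conjBy A (c⁻¹ * cu)) x := by
          simp only [conjBy_conjBy]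
          congr 1
          group
      _ = conjBy (conjBy B v) x := by rw [e2]
      _ = conjBy B (x * v) := by rw [conjBy_conjBy]
  have hxv : x * v ≠ 1 := by
    intro h
    rw [h, conjBy_one] at e
    apply hs.1.ne
    have h3 := congrArg (fun Y => conjBy Y (m * s * m⁻¹)⁻¹) e
    simp only [conjBy_conjBy, inv_mul_cancel, conjBy_one] at h3
    rw [h3, conjBy_of_mem (inv_mem hβ)]
  exact partner_of_pos hs hAc (mul_mem hx.memA hv.memA) hxv hβ hβ1 e

section data

variable (hs : IsSpecialRankOnePair A B) (hab : HasAbelianUnipotents A B)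

include hab in
theorem comm_A : ∀ x ∈ A, ∀ y ∈ A, x * y = y * x := by
  intro x hx y hy
  have := hab.1
  exact setLike_mul_comm hx hy

include hab in
theorem comm_B : ∀ x ∈ B, ∀ y ∈ B, x * y = y * x := by
  intro x hx y hy
  have := hab.2
  exact setLike_mul_comm hx hy

/-- the partner function `c`. -/
noncomputable def cMap (x : A) : B := by
  classical
  exact if hx : (x : X) = 1 then 1 else
    ⟨Classical.choose (exists_partner_left hs.1 x.2 hx),
      (Classical.choose_spec (exists_partner_left hs.1 x.2 hx)).memB⟩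

/-- the partner function `l`. -/
noncomputable def lMap (y : B) : A := by
  classical
  exact if hy : (y : X) = 1 then 1 else
    ⟨Classical.choose (exists_partner_right hs.1 y.2 hy),
      (Classical.choose_spec (exists_partner_right hs.1 y.2 hy)).memA⟩

theorem cMap_one : cMap hs 1 = 1 := by
  simp [cMap]

theorem lMap_one : lMap hs 1 = 1 := by
  simp [lMap]

theorem partner_cMap {x : A} (hx : x ≠ 1) : Partner A B x (cMap hs x) := by
  have hx' : (x : X) ≠ 1 := by simpa using hx
  have h := Classical.choose_spec (exists_partner_left hs.1 x.2 hx')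
  simp only [cMap, hx', dif_neg, not_false_eq_true]
  exact h

theorem partner_lMap {y : B} (hy : y ≠ 1) : Partner A B (lMap hs y) y := by
  have hy' : (y : X) ≠ 1 := by simpa using hy
  have h := Classical.choose_spec (exists_partner_right hs.1 y.2 hy')
  simp only [lMap, hy', dif_neg, not_false_eq_true]
  exact h

theorem cMap_eq {x : A} {y : B} (h : Partner A B x y) : cMap hs x = y := by
  have hx : x ≠ 1 := by
    intro h1
    exact h.neA (by simp [h1])
  exact Subtype.ext (partner_unique_right hs.1 (partner_cMap hs hx) h)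

theorem lMap_eq {x : A} {y : B} (h : Partner A B x y) : lMap hs y = x := by
  have hy : y ≠ 1 := by
    intro h1
    exact h.neB (by simp [h1])
  exact Subtype.ext (partner_unique_left hs.1 (partner_lMap hs hy) h)

theorem cMap_lMap (y : B) : cMap hs (lMap hs y) = y := by
  by_cases hy : y = 1
  · subst hy; rw [lMap_one, cMap_one]
  · exact cMap_eq hs (partner_lMap hs hy)

theorem lMap_cMap (x : A) : lMap hs (cMap hs x) = x := by
  by_cases hx : x = 1
  · subst hx; rw [cMap_one, lMap_one]
  · exact lMap_eq hs (partner_cMap hs hx)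

include hab in
theorem cMap_inv (x : A) : cMap hs x⁻¹ = (cMap hs x)⁻¹ := by
  by_cases hx : x = 1
  · subst hx; simp [cMap_one]
  · have h := partner_inv hs (comm_A hab) (partner_cMap hs hx)
    exact cMap_eq hs (x := x⁻¹) (y := (cMap hs x)⁻¹) h

/-- The Weyl element of `x : A`. -/
noncomputable def wl (x : A) : X := weyl (x : X) (cMap hs x : X)

/-- The conjugation hom `A → B` by the Weyl element of `x`. -/
noncomputable def phiHom (x : A) : A →* B := by
  classical
  exact if hx : x = 1 then 1 else
    { toFun := fun s => ⟨wl hs x * (s : X) * (wl hs x)⁻¹,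
        conj_weyl_mem (partner_cMap hs hx) s.2⟩
      map_one' := by
        apply Subtype.ext
        simp
      map_mul' := by
        intro s t
        apply Subtype.ext
        simp only [Subgroup.coe_mul]
        group }

theorem phiHom_coe {x : A} (hx : x ≠ 1) (s : A) :
    (phiHom hs x s : X) = wl hs x * (s : X) * (wl hs x)⁻¹ := by
  simp only [phiHom, hx, dif_neg, not_false_eq_true]
  rfl

theorem phiHom_inj {x : A} (hx : x ≠ 1) : Function.Injective (phiHom hs x) := by
  intro s t h
  have h2 := congrArg (Subtype.val) h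
  rw [phiHom_coe hs hx, phiHom_coe hs hx] at h2
  apply Subtype.ext
  have h3 := mul_left_cancel (mul_right_cancel h2)
  exact h3

include hab in
theorem phiHom_formula {x s : A} (hx : x ≠ 1) (hs1 : s ≠ 1) (hxs : x * s ≠ 1) :
    phiHom hs x s = cMap hs (x * lMap hs ((cMap hs x)⁻¹ * cMap hs (x * s))) := by
  have hc : (cMap hs x)⁻¹ * cMap hs (x * s) ≠ 1 := by
    intro h
    have h1 : cMap hs x = cMap hs (x * s) := inv_mul_eq_one.mp h
    have h2 := congrArg (lMap hs) h1
    rw [lMap_cMap, lMap_cMap] at h2
    exact hs1 (by simpa using h2.symm)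
  have hc' : ((cMap hs x)⁻¹ * cMap hs (x * s) : B) ≠ 1 := hc
  have h3 := key_formula hs (comm_A hab) (partner_cMap hs hx) s.2 (by simpa using hs1)
    (partner_cMap hs hxs) (partner_lMap hs hc')
  have h4 : Partner A B ((x * lMap hs ((cMap hs x)⁻¹ * cMap hs (x * s)) : A) : X)
      ((phiHom hs x s : B) : X) := by
    rw [phiHom_coe hs hx]; exact h3
  exact (cMap_eq hs h4).symm

theorem phiHom_self {x : A} (hx : x ≠ 1) : phiHom hs x x = (cMap hs x)⁻¹ := by
  apply Subtype.ext
  rw [phiHom_coe hs hx]
  have := weyl_conj_self hs (partner_cMap hs hx)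
  simpa [wl] using this

/-- The abstract data of a special pair. -/
noncomputable def data [IsMulCommutative A] [IsMulCommutative B] :
    SpecialAlg.Data (Additive A) (Additive B) where
  c := fun x => Additive.ofMul (cMap hs x.toMul)
  l := fun y => Additive.ofMul (lMap hs y.toMul)
  cl := fun b => by simp [cMap_lMap]
  lc := fun a => by simp [lMap_cMap]
  c_zero := by simp [cMap_one]
  c_neg := fun x => by
    have hab : HasAbelianUnipotents A B := ⟨inferInstance, inferInstance⟩
    simp [cMap_inv hs hab]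
  φ := fun x => (phiHom hs x.toMul).toAdditive
  inj := fun x hx => by
    have hx' : x.toMul ≠ 1 := hx
    intro s t h
    exact phiHom_inj hs hx' h
  K := fun x s hx hs1 hxs => by
    have hab : HasAbelianUnipotents A B := ⟨inferInstance, inferInstance⟩
    have hx' : x.toMul ≠ 1 := hx
    have hs' : s.toMul ≠ 1 := hs1
    have hxs' : x.toMul * s.toMul ≠ 1 := hxs
    have := phiHom_formula hs hab hx' hs' hxs'
    change Additive.ofMul (phiHom hs x.toMul s.toMul) = Additive.ofMul _
    rw [this]
    congr 2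
    congr 1
    change lMap hs _ = lMap hs (cMap hs (x.toMul * s.toMul) / cMap hs x.toMul)
    congr 1
    rw [div_eq_mul_inv, mul_comm]
  K' := fun x hx => by
    have hx' : x.toMul ≠ 1 := hx
    change Additive.ofMul (phiHom hs x.toMul x.toMul) = _
    rw [phiHom_self hs hx']
    rfl

include hs hab in
/-- Timmesfeld's dichotomy. -/
theorem elementary_or_divisible :
    (∃ p : ℕ, p.Prime ∧ ∀ a ∈ A, a ^ p = 1) ∨
    ((∀ a ∈ A, a ≠ 1 → ¬ IsOfFinOrder a) ∧ ∀ a ∈ A, ∀ n : ℕ, 0 < n → ∃ c ∈ A, c ^ n = a) := by
  haveI := hab.1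
  haveI := hab.2
  rcases SpecialAlg.Data.main (data hs) with ⟨p, hp, h⟩ | ⟨h1, h2⟩
  · left
    refine ⟨p, hp, fun a ha => ?_⟩
    have := h (Additive.ofMul ⟨a, ha⟩)
    have h3 : ((⟨a, ha⟩ : A) ^ p) = 1 := this
    simpa using congrArg Subtype.val h3
  · right
    constructor
    · intro a ha ha1 hfin
      obtain ⟨n, hn, hpow⟩ := isOfFinOrder_iff_pow_eq_one.mp hfin
      have hne : Additive.ofMul (⟨a, ha⟩ : A) ≠ 0 := by
        intro h
        apply ha1
        have h3 : (⟨a, ha⟩ : A) = 1 := h
        simpa using congrArg Subtype.val h3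
      apply h1 _ hne n hn
      change Additive.ofMul ((⟨a, ha⟩ : A) ^ n) = 0
      have : ((⟨a, ha⟩ : A) ^ n) = 1 := Subtype.ext (by simpa using hpow)
      rw [this]
      rfl
    · intro a ha n hn
      obtain ⟨y, hy⟩ := h2 (Additive.ofMul ⟨a, ha⟩) n hn
      refine ⟨(y.toMul : X), y.toMul.2, ?_⟩
      have h3 : y.toMul ^ n = ⟨a, ha⟩ := hy
      simpa using congrArg Subtype.val h3

end data

end Cfsg.Agent.Lib.Components.SpecialGroup

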