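import Mathlib
import Cfsg.Prelude.Def_RootSubgroups
import Cfsg.Agent.Lib.Components.SpecialGroup

/-!
A rank one group with a faithful module on which `A` acts quadratically is special.
-/

set_option autoImplicit false

namespace Cfsg.Agent.Lib.Components.QuadSpecial

open Cfsg
open Cfsg.Agent.Lib.Components.RootQuasi

variable {X : Type*} [Group X] {V : Type*} [AddCommGroup V] [DistribMulAction X V]

/-- `[V, P]` as an additive subgroup. -/
def commSub (V : Type*) [AddCommGroup V] [DistribMulAction X V] (P : Subgroup X) : AddSubgroup V :=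
  AddSubgroup.closure {t | ∃ a ∈ P, ∃ v : V, t = a • v - v}

theorem mem_commSub {P : Subgroup X} {a : X} (ha : a ∈ P) (v : V) : a • v - v ∈ commSub V P :=
  AddSubgroup.subset_closure ⟨a, ha, v, rfl⟩

theorem map_commSub {P Q : Subgroup X} {n : X} (h : conjBy P n = Q) {t : V} (ht : t ∈ commSub V P) :
    n • t ∈ commSub V Q := by
  induction ht using AddSubgroup.closure_induction with
  | mem t ht =>
    obtain ⟨a, ha, v, rfl⟩ := ht
    have h1 : n * a * n⁻¹ ∈ Q := by rw [← h]; exact conj_mem_conjBy ha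
    have h2 := mem_commSub (V := V) h1 (n • v)
    have e : n • (a • v - v) = (n * a * n⁻¹) • (n • v) - n • v := by
      rw [smul_sub, ← mul_smul, ← mul_smul, inv_mul_cancel_right, mul_smul]
    rw [e]; exact h2
  | zero => rw [smul_zero]; exact zero_mem _
  | add x y _ _ hx hy => rw [smul_add]; exact add_mem hx hy
  | neg x _ hx => rw [smul_neg]; exact neg_mem hx

theorem fixed_of_mem {P : Subgroup X} (hq : ∀ a ∈ P, ∀ a' ∈ P, ∀ v : V, a' • (a • v - v) = a • v - v)
    {t : V} (ht : t ∈ commSub V P) {x : X} (hx : x ∈ P) : x • t = t := by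
  induction ht using AddSubgroup.closure_induction with
  | mem t ht =>
    obtain ⟨a, ha, v, rfl⟩ := ht
    exact hq a ha x hx v
  | zero => rw [smul_zero]
  | add y z _ _ hy hz => rw [smul_add, hy, hz]
  | neg y _ hy => rw [smul_neg, hy]

section main

variable {A B : Subgroup X}

/-- the elementwise computation. -/
theorem inv_partner_eq (hr : IsRankOnePair A B) (hf : ∀ x : X, (∀ v : V, x • v = v) → x = 1)
    (hAc : ∀ x ∈ A, ∀ y ∈ A, x * y = y * x)
    (hqA : ∀ a ∈ A, ∀ a' ∈ A, ∀ v : V, a' • (a • v - v) = a • v - v)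
    (hqB : ∀ a ∈ B, ∀ a' ∈ B, ∀ v : V, a' • (a • v - v) = a • v - v)
    {a a₂ b : X} (hp : Partner A B a b) (hp2 : Partner A B a₂⁻¹ b⁻¹) : a₂ = a := by
  by_contra hne
  have ha := hp.memA
  have hb := hp.memB
  have ha₂ : a₂ ∈ A := by
    have := inv_mem hp2.memA
    rwa [inv_inv] at this
  have hbi : b⁻¹ ∈ B := inv_mem hb
  set TA := commSub V A with hTA
  set TB := commSub V B with hTB
  have hA : ∀ t ∈ TA, ∀ x ∈ A, x • t = t := fun t ht x hx => fixed_of_mem hqA ht hx
  have hB : ∀ t ∈ TB, ∀ x ∈ B, x • t = t := fun t ht x hx => fixed_of_mem hqB ht hx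
  set n := a * b⁻¹ * a₂ with hn
  have hnA : conjBy A n = B := by
    rw [hn, ← conjBy_conjBy, conjBy_of_mem ha₂]
    exact conjBy_mul_eq hp
  have hnB : conjBy B n = A := by
    have h2 := hp2.eqn
    rw [inv_inv, inv_inv] at h2
    calc conjBy B n = conjBy (conjBy (conjBy B a₂) b⁻¹) a := by
          simp only [conjBy_conjBy, hn]
          congr 1
          group
      _ = conjBy (conjBy (conjBy A b) b⁻¹) a := by rw [h2]
      _ = A := by
          rw [conjBy_conjBy A b b⁻¹, inv_mul_cancel, conjBy_one, conjBy_of_mem ha]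
  have hnT : ∀ t ∈ TA, n • t ∈ TB := fun t ht => map_commSub hnA ht
  have hnT' : ∀ t ∈ TB, n • t ∈ TA := fun t ht => map_commSub hnB ht
  -- `Z`
  let inZ : V → Prop := fun z => (∀ x ∈ A, x • z = z) ∧ (∀ y ∈ B, y • z = z)
  have hZsub : ∀ x y, inZ x → inZ y → inZ (x - y) := by
    intro x y hx hy
    exact ⟨fun c hc => by rw [smul_sub, hx.1 c hc, hy.1 c hc],
      fun c hc => by rw [smul_sub, hx.2 c hc, hy.2 c hc]⟩
  have hR : ∀ t, t ∈ TA → t ∈ TB → inZ t := fun t h1 h2 => ⟨hA t h1, hB t h2⟩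
  have hn_act : ∀ v : V, n • v = a • (b⁻¹ • (a₂ • v)) := by
    intro v
    rw [hn, mul_smul, mul_smul]
  -- E1
  have E1 : ∀ t ∈ TA, ∀ f, f = b⁻¹ • t - t → inZ (t + (a • f - f)) := by
    intro t ht f hf'
    have hft : f ∈ TB := hf' ▸ mem_commSub hbi t
    have hy : a • f - f ∈ TA := mem_commSub ha _
    apply hR _ (add_mem ht hy)
    have h1 : b⁻¹ • t = f + t := by rw [hf']; abel
    have h2 : n • t = a • f + t := by
      rw [hn_act, hA t ht a₂ ha₂, h1, smul_add, hA t ht a ha]
    have e : t + (a • f - f) = n • t - f := by rw [h2]; abel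
    rw [e]
    exact sub_mem (hnT t ht) hft
  -- E2
  have E2 : ∀ t ∈ TB, ∀ s w, s = a₂ • t - t → w = b⁻¹ • s - s → inZ (t + w) := by
    intro t ht s w hs' hw'
    have hs : s ∈ TA := hs' ▸ mem_commSub ha₂ t
    have hw : w ∈ TB := hw' ▸ mem_commSub hbi _
    refine hR _ ?_ (add_mem ht hw)
    have h1 : a₂ • t = s + t := by rw [hs']; abel
    have h2 : b⁻¹ • s = w + s := by rw [hw']; abel
    have h3 : n • t = a • w + s + a • t := by
      rw [hn_act, h1, smul_add, h2, hB t ht _ hbi, smul_add, smul_add, hA s hs a ha]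
    have e : t + w = n • t - (a • t - t) - s - (a • w - w) := by rw [h3]; abel
    rw [e]
    exact sub_mem (sub_mem (sub_mem (hnT' t ht) (mem_commSub ha t)) hs) (mem_commSub ha _)
  -- E3
  have E3 : ∀ t ∈ TB, inZ (a₂ • t - a • t) := by
    intro t ht
    obtain ⟨s, hs'⟩ : ∃ s, s = a₂ • t - t := ⟨_, rfl⟩
    obtain ⟨w, hw'⟩ : ∃ w, w = b⁻¹ • s - s := ⟨_, rfl⟩
    have hs : s ∈ TA := hs' ▸ mem_commSub ha₂ t
    have h1 := E1 s hs w hw'
    have h2 := E2 t ht s w hs' hw'
    have h3 : a • w = t + w - a • t := by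
      have := h2.1 a ha
      rw [smul_add] at this
      rw [← this]; abel
    have e : a₂ • t - a • t = s + (a • w - w) := by
      rw [h3, hs']; abel
    rw [e]
    exact h1
  set g := a₂ * a⁻¹ with hg
  have hgA : g ∈ A := mul_mem ha₂ (inv_mem ha)
  have hg1 : g ≠ 1 := by
    intro h
    exact hne (mul_inv_eq_one.mp h)
  have E4 : ∀ t ∈ TB, inZ (g • t - t) := by
    intro t ht
    have h1 := E3 t ht
    have h2 : a⁻¹ • (a₂ • t - a • t) = g • t - t := by
      rw [smul_sub, ← mul_smul, ← mul_smul, inv_mul_cancel, one_smul, hg,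
        hAc a⁻¹ (inv_mem ha) a₂ ha₂]
    rw [← h2, h1.1 _ (inv_mem ha)]
    exact h1
  obtain ⟨c, hc⟩ := exists_partner_left hr hgA hg1
  have hgc : conjBy A (g * c⁻¹) = B := conjBy_mul_eq hc
  -- `T ≤ Z`
  have hTZ : ∀ t ∈ TA, inZ t := by
    intro t ht
    have h1 : (g * c⁻¹) • t ∈ TB := map_commSub hgc ht
    obtain ⟨f, hf'⟩ : ∃ f, f = c⁻¹ • t - t := ⟨_, rfl⟩
    have hft : f ∈ TB := hf' ▸ mem_commSub (inv_mem hc.memB) t
    have h2 : (g * c⁻¹) • t = t + g • f := by
      have h3 : c⁻¹ • t = f + t := by rw [hf']; abel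
      rw [mul_smul, h3, smul_add, hA t ht g hgA, add_comm]
    have hz := E4 f hft
    have h4 : (g * c⁻¹) • t - f ∈ TB := sub_mem h1 hft
    have h5 : (g * c⁻¹) • t - f = t + (g • f - f) := by rw [h2]; abel
    have h6 : inZ ((g * c⁻¹) • t - f) := by
      refine ⟨fun x hx => ?_, hB _ h4⟩
      rw [h5, smul_add, hA t ht x hx, hz.1 x hx]
    have h7 := hZsub _ _ h6 hz
    have e : (g * c⁻¹) • t - f - (g • f - f) = t := by rw [h5]; abel
    rw [e] at h7
    exact h7
  have hninv : conjBy B n⁻¹ = A := by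
    rw [← hnA, conjBy_conjBy, inv_mul_cancel, conjBy_one]
  have hTZ' : ∀ t ∈ TB, inZ t := by
    intro t ht
    have h1 : n⁻¹ • t ∈ TA := map_commSub hninv ht
    have h2 := hTZ _ h1
    have h3 : n • (n⁻¹ • t) = n⁻¹ • t := by
      rw [hn_act, h2.1 a₂ ha₂, h2.2 _ hbi, h2.1 a ha]
    rw [smul_inv_smul] at h3
    rw [h3]
    exact h2
  -- `a` and `b` commute: contradiction
  have hcomm : a * b = b * a := by
    have h1 : (b * a)⁻¹ * (a * b) = 1 := by
      apply hf
      intro v
      have h2 : (a * b) • v = (b * a) • v := by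
        rw [mul_smul, mul_smul]
        have h3 : b • v = (b • v - v) + v := by abel
        have h4 : a • v = (a • v - v) + v := by abel
        have h5 := (hTZ' _ (mem_commSub hb v)).1 a ha
        have h6 := (hTZ _ (mem_commSub ha v)).2 b hb
        calc a • (b • v) = a • ((b • v - v) + v) := by rw [← h3]
          _ = (b • v - v) + a • v := by rw [smul_add, h5]
          _ = (a • v - v) + b • v := by abel
          _ = b • ((a • v - v) + v) := by rw [smul_add, h6]
          _ = b • (a • v) := by rw [← h4]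
      rw [mul_smul, h2, ← mul_smul, inv_mul_cancel, one_smul]
    exact (mul_inv_eq_one.mp (by
      have : (a * b) * (b * a)⁻¹ = (b * a) * ((b * a)⁻¹ * (a * b)) * (b * a)⁻¹ := by group
      rw [this, h1]; group))
  exact mul_ne_mul hr hAc ha hp.neA hb hp.neB hcomm

/-- Quadratic action makes the pair abelian and special. -/
theorem special_of_quadratic (h : IsRankOneGroup X A B)
    (hf : ∀ x : X, (∀ v : V, x • v = v) → x = 1)
    (hq : ∀ a ∈ A, ∀ a' ∈ A, ∀ v : V, a' • (a • v - v) = a • v - v) :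
    IsSpecialRankOnePair A B ∧ HasAbelianUnipotents A B := by
  have hr := h.2
  have hAc : ∀ x ∈ A, ∀ y ∈ A, x * y = y * x := by
    intro x hx y hy
    have h1 : (y * x)⁻¹ * (x * y) = 1 := by
      apply hf
      intro v
      have h2 : (x * y) • v = (y * x) • v := by
        rw [mul_smul, mul_smul]
        have h3 : y • v = (y • v - v) + v := by abel
        have h4 : x • v = (x • v - v) + v := by abel
        have h5 := hq y hy x hx v
        have h6 := hq x hx y hy v
        calc x • (y • v) = x • ((y • v - v) + v) := by rw [← h3]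
          _ = (y • v - v) + x • v := by rw [smul_add, h5]
          _ = (x • v - v) + y • v := by abel
          _ = y • ((x • v - v) + v) := by rw [smul_add, h6]
          _ = y • (x • v) := by rw [← h4]
      rw [mul_smul, h2, ← mul_smul, inv_mul_cancel, one_smul]
    exact (mul_inv_eq_one.mp (by
      have : (x * y) * (y * x)⁻¹ = (y * x) * ((y * x)⁻¹ * (x * y)) * (y * x)⁻¹ := by group
      rw [this, h1]; group))
  -- `B` is quadratic
  have hqB : ∀ b ∈ B, ∀ b' ∈ B, ∀ v : V, b' • (b • v - v) = b • v - v := by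
    intro b hb b' hb' v
    by_cases hb1 : b = 1
    · subst hb1; simp
    obtain ⟨x, hx⟩ := exists_partner_right hr hb hb1
    have hn : conjBy A (x * b⁻¹) = B := conjBy_mul_eq hx
    set n := x * b⁻¹ with hnd
    have h1 : n⁻¹ * b * n ∈ A := by
      rw [← hn, mem_conjBy] at hb
      exact hb
    have h2 : n⁻¹ * b' * n ∈ A := by
      rw [← hn, mem_conjBy] at hb'
      exact hb'
    have h3 := hq _ h1 _ h2 (n⁻¹ • v)
    have e0 : ∀ (c : X) (w : V), (n⁻¹ * c * n) • (n⁻¹ • w) = n⁻¹ • c • w := by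
      intro c w
      rw [← mul_smul, ← mul_smul, mul_inv_cancel_right]
    have e1 : (n⁻¹ * b * n) • (n⁻¹ • v) - n⁻¹ • v = n⁻¹ • (b • v - v) := by
      rw [smul_sub, e0]
    rw [e1, e0] at h3
    exact smul_left_cancel _ h3
  have hBc : ∀ x ∈ B, ∀ y ∈ B, x * y = y * x := by
    intro x hx y hy
    have h1 : (y * x)⁻¹ * (x * y) = 1 := by
      apply hf
      intro v
      have h2 : (x * y) • v = (y * x) • v := by
        rw [mul_smul, mul_smul]
        have h3 : y • v = (y • v - v) + v := by abel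
        have h4 : x • v = (x • v - v) + v := by abel
        have h5 := hqB y hy x hx v
        have h6 := hqB x hx y hy v
        calc x • (y • v) = x • ((y • v - v) + v) := by rw [← h3]
          _ = (y • v - v) + x • v := by rw [smul_add, h5]
          _ = (x • v - v) + y • v := by abel
          _ = y • ((x • v - v) + v) := by rw [smul_add, h6]
          _ = y • (x • v) := by rw [← h4]
      rw [mul_smul, h2, ← mul_smul, inv_mul_cancel, one_smul]
    exact (mul_inv_eq_one.mp (by
      have : (x * y) * (y * x)⁻¹ = (y * x) * ((y * x)⁻¹ * (x * y)) * (y * x)⁻¹ := by group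
      rw [this, h1]; group))
  refine ⟨⟨hr, ?_⟩, ⟨⟨⟨fun x y => Subtype.ext (hAc _ x.2 _ y.2)⟩⟩, ⟨⟨fun x y => Subtype.ext (hBc _ x.2 _ y.2)⟩⟩⟩⟩
  intro a ha ha1 b hb hb1 hab
  have hp : Partner A B a b := ⟨ha, ha1, hb, hb1, hab⟩
  obtain ⟨x, hx⟩ := exists_partner_right hr (inv_mem hb) (inv_ne_one.mpr hb1)
  have hx' : Partner A B (x⁻¹)⁻¹ b⁻¹ := by simpa using hx
  have he := inv_partner_eq hr hf hAc hq hqB hp hx'
  -- so `(a⁻¹, b⁻¹)` are partners
  have hpi : Partner A B a⁻¹ b⁻¹ := by
    rw [← he]; exact hx'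
  have hpi2 := hpi.eqn
  rw [inv_inv, inv_inv] at hpi2
  -- `y b` normalizes `A`
  set y := a * (b⁻¹ * a * b) * a⁻¹ with hy
  have hyB : y ∈ B := by
    have h1 : b⁻¹ * a * b ∈ conjBy A b⁻¹ := by
      have := conj_mem_conjBy (A := A) (g := b⁻¹) ha
      simpa using this
    rw [hab, mem_conjBy, inv_inv] at h1
    have e : a * (b⁻¹ * a * b) * a⁻¹ = y := rfl
    rw [e] at h1
    exact h1
  have hn : conjBy A (y * b) = A := by
    calc conjBy A (y * b) = conjBy (conjBy A b) y := (conjBy_conjBy _ _ _).symm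
      _ = conjBy (conjBy B a) y := by rw [hpi2]
      _ = conjBy B (y * a) := conjBy_conjBy _ _ _
      _ = conjBy B (a * b⁻¹ * a * b) := by
          congr 1; rw [hy]; group
      _ = conjBy (conjBy (conjBy (conjBy B b) a) b⁻¹) a := by
          simp only [conjBy_conjBy]
          congr 1
          group
      _ = conjBy (conjBy (conjBy B a) b⁻¹) a := by rw [conjBy_of_mem hb]
      _ = conjBy (conjBy (conjBy A b) b⁻¹) a := by rw [hpi2]
      _ = A := by
          rw [conjBy_conjBy A b b⁻¹, inv_mul_cancel, conjBy_one, conjBy_of_mem ha]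
  have h1 := eq_one_of_conjBy_eq (RankOnePair_symm hr) (mul_mem hyB hb) hn
  -- conclude
  have h2 : y = b⁻¹ := eq_inv_of_mul_eq_one_left h1
  have h3 : a * (b⁻¹ * a * b) * a⁻¹ = b⁻¹ := h2
  calc b⁻¹ * a * b = a⁻¹ * (a * (b⁻¹ * a * b) * a⁻¹) * a := by group
    _ = a⁻¹ * b⁻¹ * a := by rw [h3]

end main

end Cfsg.Agent.Lib.Components.QuadSpecial
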