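import Mathlib
import Cfsg.Agent.S0215
import Cfsg.Agent.Lib.PSL2.KleinPairs

/-!
# A non-cyclic finite simple group of even order has a four-subgroup (Z*-theorem).
-/

set_option autoImplicit false
set_option linter.style.haveILetI false

namespace Cfsg.Agent.Lib.Components.SimpleKlein

open Cfsg.Agent.Lib.PSL2.KleinPairs

universe u

variable {G : Type u} [Group G] [Finite G]

theorem klein_of_commuting {a b : G} (ha : orderOf a = 2) (hb : orderOf b = 2) (hab : a * b = b * a)
    (hne : a ≠ b) : ∃ E : Subgroup G, IsKleinFour E := by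
  have ha1 : a ≠ 1 := by
    rintro rfl
    rw [orderOf_one] at ha
    omega
  have hb1 : b ≠ 1 := by
    rintro rfl
    rw [orderOf_one] at hb
    omega
  have haa : a * a = 1 := by rw [← pow_two, ← ha]; exact pow_orderOf_eq_one a
  have hbb : b * b = 1 := by rw [← pow_two, ← hb]; exact pow_orderOf_eq_one b
  have hpp : IsPP a b := ⟨ha1, hb1, hne, haa, hbb, hab⟩
  exact ⟨_, isKleinFour_fourOf hpp⟩

theorem klein_of_even [IsSimpleGroup G] (hG : ¬ IsCyclic G) (h2 : ¬ Odd (Nat.card G)) :
    ∃ E : Subgroup G, IsKleinFour E := by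
  classical
  by_contra hno
  have hnc : ¬ ∀ a b : G, a * b = b * a := by
    intro h
    letI : CommGroup G := { (inferInstance : Group G) with mul_comm := h }
    exact hG (IsSimpleGroup.isCyclic (α := G))
  haveI hp2 : Fact (Nat.Prime 2) := ⟨Nat.prime_two⟩
  have h2d : 2 ∣ Nat.card G := (Nat.not_odd_iff_even.mp h2).two_dvd
  obtain ⟨P⟩ : Nonempty (Sylow 2 G) := inferInstance
  have hPcard : 2 ∣ Nat.card P := by
    obtain ⟨k, hk⟩ := exists_eq_mul_right_of_dvd h2d
    have h3 := (Sylow.card_eq_multiplicity P)
    rw [h3]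
    have h4 : Nat.factorization (Nat.card G) 2 ≠ 0 := by
      exact (Nat.Prime.factorization_pos_of_dvd Nat.prime_two (Nat.card_pos.ne') h2d).ne'
    exact dvd_pow_self 2 h4
  have hPp : IsPGroup 2 P := P.isPGroup'
  haveI : Nontrivial P := by
    rw [← Finite.one_lt_card_iff_nontrivial]
    have := Nat.le_of_dvd Nat.card_pos hPcard
    omega
  haveI := hPp.center_nontrivial
  have hZp : 2 ∣ Nat.card (Subgroup.center P) := by
    have hpg : IsPGroup 2 (Subgroup.center P) := hPp.to_subgroup _
    have := (hpg.nontrivial_iff_card).mp inferInstance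
    obtain ⟨n, hn, hc⟩ := this
    rw [hc]
    exact dvd_pow_self 2 hn.ne'
  obtain ⟨z, hz⟩ := exists_prime_orderOf_dvd_card' 2 hZp
  set u : G := ((z : P) : G) with hu
  have huord : orderOf u = 2 := by
    rw [hu, Subgroup.orderOf_coe, Subgroup.orderOf_coe]; exact hz
  have huP : u ∈ P := (z : P).2
  have hcent : ∀ t ∈ P, u * t = t * u := by
    intro t ht
    have := (Subgroup.mem_center_iff.mp z.2) ⟨t, ht⟩
    have h2 := congrArg Subtype.val this
    exact h2.symm
  have hiso : ∀ g : G, g * u * g⁻¹ ∈ P → g * u * g⁻¹ = u := by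
    intro g hg
    by_contra hne
    apply hno
    refine klein_of_commuting huord ?_ (hcent _ hg) (Ne.symm hne)
    rw [show g * u * g⁻¹ = (MulAut.conj g) u by simp [MulAut.conj_apply]]
    rw [MulEquiv.orderOf_eq]
    exact huord
  obtain ⟨N, hN, hNodd, hNcomm⟩ := Cfsg.Agent.S0215.result P u huord huP hiso
  rcases hN.eq_bot_or_eq_top with rfl | rfl
  · have hucent : u ∈ Subgroup.center G := by
      rw [Subgroup.mem_center_iff]
      intro g
      have := hNcomm g
      rw [Subgroup.mem_bot] at this
      rw [mul_inv_eq_one, mul_inv_eq_iff_eq_mul] at this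
      exact this.symm
    have hZ := (inferInstance : (Subgroup.center G).Normal).eq_bot_or_eq_top
    rcases hZ with hZ | hZ
    · rw [hZ, Subgroup.mem_bot] at hucent
      rw [hucent, orderOf_one] at huord
      omega
    · apply hnc
      intro a b
      have : b ∈ Subgroup.center G := by rw [hZ]; trivial
      exact (Subgroup.mem_center_iff.mp this a)
  · rw [Subgroup.card_top] at hNodd
    exact h2 hNodd

theorem klein_of_ft [IsSimpleGroup G] (hS : Odd (Nat.card G) → Group.IsSolvable G) (hG : ¬ IsCyclic G) :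
    ∃ E : Subgroup G, IsKleinFour E := by
  refine klein_of_even hG ?_
  intro h2
  have hs := hS h2
  have hc := IsSimpleGroup.comm_iff_isSolvable.mpr hs
  letI : CommGroup G := { (inferInstance : Group G) with mul_comm := hc }
  exact hG (IsSimpleGroup.isCyclic (α := G))

end Cfsg.Agent.Lib.Components.SimpleKlein
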