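import Mathlib
import Cfsg.Prelude.Def_Local
import Cfsg.Prelude.Def_CaseTheorems
import Cfsg.Agent.Lib.Components.InvComp
import Cfsg.Agent.Lib.Basic.PCore

/-!
# Standard subgroups centralized by an involution

If `A` is standard, `O(G) = 1` and `t` is an involution of `C_G(A)` then `A ⊴ G`, or
`E(G) = X × X^t` with `X ≅ A` simple and `C_G(A) = ⟨t⟩`, or `A ≤ E(G)` with `E(G)` simple.
-/

set_option autoImplicit false
set_option linter.style.haveILetI false
set_option linter.unusedSectionVars false

namespace Cfsg.Agent.Lib.Components.StdTri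

open Cfsg Subgroup
open Cfsg.Agent.Lib.Components.Quasisimple Cfsg.Agent.Lib.Components.Layer
open Cfsg.Agent.Lib.Components.LayerProduct Cfsg.Agent.Lib.Components.PComponent
open Cfsg.Agent.Lib.Components.InvComp
open scoped commutatorElement

variable {G : Type*} [Group G] [Finite G]

/-- With `O(G) = 1` the `2`-layer is the layer. -/
theorem pLayer_eq_layer (hO : oddCore G = ⊥) : pLayer 2 G = layer G := by
  haveI : Fact (Nat.Prime 2) := ⟨Nat.prime_two⟩
  apply le_antisymm
  · refine sSup_le fun K hK => le_sSup ?_
    have hq : IsQuasisimple ↥K :=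
      Cfsg.Agent.Lib.Components.BpBase.isQuasisimple_of_isPComponent_of_core_eq_bot hK hO
    exact ⟨hK.1, hq⟩
  · refine sSup_le fun K hK => le_pLayer_of_even hK ?_
    rw [← Nat.not_odd_iff_even]
    intro hodd
    have hle := le_pPrimeCore_of_isSubnormal 2 hK.1 (Nat.coprime_two_right.mpr hodd)
    rw [show pPrimeCore 2 G = ⊥ from hO, le_bot_iff] at hle
    exact ne_bot_of_isComponent hK hle

/-- A component of `G`, `O(G) = 1`, has even order. -/
theorem even_of_component (hO : oddCore G = ⊥) {K : Subgroup G} (hK : IsComponent K) :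
    Even (Nat.card K) := by
  rw [← Nat.not_odd_iff_even]
  intro hodd
  have hle := le_pPrimeCore_of_isSubnormal 2 hK.1 (Nat.coprime_two_right.mpr hodd)
  rw [show pPrimeCore 2 G = ⊥ from hO, le_bot_iff] at hle
  exact ne_bot_of_isComponent hK hle

section std

variable {K : Subgroup G}

/-- An element of `K` commuting with `g ∉ N(K)`, `K` tightly embedded, has odd order. -/
theorem odd_order_of_commute (hKt : ∀ g : G, g ∉ normalizer (K : Set G) →
      Odd (Nat.card ↥(K ⊓ K.map (MulAut.conj g).toMonoidHom))) {g x : G}
    (hg : g ∉ normalizer (K : Set G)) (hx : x ∈ K) (hc : g * x = x * g) : Odd (orderOf x) := by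
  have h1 : x ∈ K ⊓ K.map (MulAut.conj g).toMonoidHom := by
    refine ⟨hx, x, hx, ?_⟩
    change g * x * g⁻¹ = x
    rw [hc]; group
  exact Odd.of_dvd_nat (hKt g hg) (Subgroup.orderOf_dvd_natCard _ h1)

/-- A subgroup of `K` commuting with `g ∉ N(K)` has odd order. -/
theorem odd_card_of_commute (hKt : ∀ g : G, g ∉ normalizer (K : Set G) →
      Odd (Nat.card ↥(K ⊓ K.map (MulAut.conj g).toMonoidHom))) {g : G} {V : Subgroup G}
    (hg : g ∉ normalizer (K : Set G)) (hV : V ≤ K) (hc : ∀ v ∈ V, g * v = v * g) :
    Odd (Nat.card V) := by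
  have h1 : V ≤ K ⊓ K.map (MulAut.conj g).toMonoidHom := by
    intro x hx
    refine ⟨hV hx, x, hV hx, ?_⟩
    change g * x * g⁻¹ = x
    rw [hc x hx]; group
  exact Odd.of_dvd_nat (hKt g hg) (Subgroup.card_dvd_of_le h1)

/-- A component inside `K` commuting with `g ∉ N(K)`: impossible when `O(G) = 1`. -/
theorem false_of_component (hO : oddCore G = ⊥) (hKt : ∀ g : G, g ∉ normalizer (K : Set G) →
      Odd (Nat.card ↥(K ⊓ K.map (MulAut.conj g).toMonoidHom))) {g : G} {V : Subgroup G}
    (hg : g ∉ normalizer (K : Set G)) (hV : V ≤ K) (hc : ∀ v ∈ V, g * v = v * g)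
    (hVc : IsComponent V) : False := by
  have h1 := odd_card_of_commute hKt hg hV hc
  exact (Nat.not_even_iff_odd.mpr h1) (even_of_component hO hVc)

/-- `C_G(E(G)) = 1`, if it lies in `K` and commutes with `g ∉ N(K)`, `O(G) = 1`. -/
theorem centralizer_layer_eq_bot (hO : oddCore G = ⊥)
    (hKt : ∀ g : G, g ∉ normalizer (K : Set G) →
      Odd (Nat.card ↥(K ⊓ K.map (MulAut.conj g).toMonoidHom))) {A : Subgroup G}
    (hK : K = centralizer (A : Set G)) (hAE : A ≤ layer G) {g : G} (hgE : g ∈ layer G)
    (hg : g ∉ normalizer (K : Set G)) : centralizer (layer G : Set G) = ⊥ := by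
  haveI hE : (layer G).Normal := layer_normal
  have hn : (centralizer (layer G : Set G)).Normal := Subgroup.normal_centralizer
  have hQK : centralizer (layer G : Set G) ≤ K := by
    rw [hK]
    exact Subgroup.centralizer_le hAE
  have hodd := odd_card_of_commute hKt hg hQK (by
    intro v hv
    exact (mem_centralizer_iff.mp hv g hgE))
  have hle := Cfsg.Agent.Lib.Basic.PCore.le_pPrimeCore hn (Nat.coprime_two_right.mpr hodd)
  rwa [show pPrimeCore 2 G = ⊥ from hO, le_bot_iff] at hle

end std

/-- Simple, given quasisimple with trivial centre. -/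
theorem isSimpleGroup_of_center_eq_bot {Q : Type*} [Group Q] (hq : IsQuasisimple Q)
    (hc : center Q = ⊥) : IsSimpleGroup Q := by
  have h1 := hq.2
  have e : (Q ⧸ center Q) ≃* Q :=
    (QuotientGroup.quotientMulEquivOfEq hc).trans QuotientGroup.quotientBot
  exact e.symm.isSimpleGroup

theorem map_conj_mul (H : Subgroup G) (y t : G) :
    H.map (MulAut.conj (y * t)).toMonoidHom =
      (H.map (MulAut.conj t).toMonoidHom).map (MulAut.conj y).toMonoidHom := by
  rw [Subgroup.map_map]
  congr 1
  ext x
  simp [mul_assoc]

/-- The standard subgroup trichotomy, for `A` of even order. -/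
theorem standard_trichotomy (A : Subgroup G) (hA : IsStandardSubgroup A) (hO : oddCore G = ⊥)
    (t : G) (ht : orderOf t = 2) (htA : t ∈ centralizer (A : Set G)) (hev : Even (Nat.card A)) :
    A.Normal ∨ (∃ X : Subgroup G, IsSimpleGroup ↥X ∧ ¬ IsMulCommutative ↥X ∧ Nonempty (↥X ≃* ↥A) ∧
        (∀ a ∈ X, ∀ b ∈ X.map (MulAut.conj t).toMonoidHom, a * b = b * a) ∧
        X ⊓ X.map (MulAut.conj t).toMonoidHom = ⊥ ∧
        X ⊔ X.map (MulAut.conj t).toMonoidHom = layer G ∧
        centralizer (A : Set G) = zpowers t) ∨
      (A ≤ layer G ∧ IsSimpleGroup ↥(layer G) ∧ ¬ IsMulCommutative ↥(layer G)) := by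
  obtain ⟨hq, ⟨_, hKt⟩, hnc, hNN⟩ := hA
  set K := centralizer (A : Set G) with hK
  have htt : t * t = 1 := by
    have := pow_orderOf_eq_one t
    rwa [ht, pow_two] at this
  have htinv : t⁻¹ = t := inv_eq_of_mul_eq_one_left htt
  have hnA : ∀ g, g ∉ normalizer (A : Set G) → g ∉ normalizer (K : Set G) := by
    intro g hg
    rwa [← hNN]
  have hperfA : ⁅A, A⁆ = A := Subgroup.isPerfect_iff.mp hq.1
  have hAabel : ¬ ∀ a ∈ A, ∀ b ∈ A, a * b = b * a := by
    intro h
    apply not_isMulCommutative_of_isQuasisimple hq
    exact ⟨⟨fun a b => Subtype.ext (h a a.2 b b.2)⟩⟩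
  have hLt : A ≤ centralizer ({t} : Set G) := by
    intro a ha
    rw [mem_centralizer_singleton_iff]
    exact mem_centralizer_iff.mp htA a ha
  have hCN : centralizer ({t} : Set G) ≤ normalizer (A : Set G) := by
    intro g hg
    by_contra hgn
    have hodd := odd_order_of_commute hKt (hnA g hgn) htA (mem_centralizer_singleton_iff.mp hg)
    rw [ht] at hodd
    exact absurd hodd (by decide)
  have hcomp : IsComponent (A.subgroupOf (centralizer ({t} : Set G))) :=
    ⟨(Subgroup.normal_subgroupOf_of_le_normalizer hCN).isSubnormal,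
      (isQuasisimple_congr (Subgroup.subgroupOfEquivOfLe hLt)).mpr hq⟩
  -- a component of `G` commuting with `A`
  have hL2 := pLayer_eq_layer hO
  obtain ⟨D, hD, h⟩ := trichotomy hL2 t ht A hLt hcomp hev
  have hperfD : ⁅D, D⁆ = D := Subgroup.isPerfect_iff.mp hD.2.1
  rcases h with h | ⟨hlt, hDU⟩ | ⟨hne, hdiag⟩
  · -- `A = D`
    left
    subst h
    refine ⟨fun a ha g => ?_⟩
    have hAg : A.map (MulAut.conj g).toMonoidHom = A := by
      by_contra hne
      rcases eq_or_commutator_eq_bot hD (isComponent_conj g hD) with h1 | h1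
      · exact hne h1.symm
      · exact hnc g hne h1
    rw [← hAg]
    exact ⟨a, ha, rfl⟩
  · -- `A < D`
    right; right
    have hAD := hlt.le
    obtain ⟨g, hgD, hgn⟩ : ∃ g ∈ D, g ∉ normalizer (A : Set G) := by
      by_contra hno
      have hle : D ≤ normalizer (A : Set G) := by
        intro x hx
        by_contra hxn
        exact hno ⟨x, hx, hxn⟩
      have hn : (A.subgroupOf D).Normal := Subgroup.normal_subgroupOf_of_le_normalizer hle
      rcases Quasisimple.eq_top_or_le_center_of_normal hD.2 hn with h1 | h1
      · exact hlt.ne (le_antisymm hAD (Subgroup.subgroupOf_eq_top.mp h1))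
      · apply hAabel
        intro a ha b hb
        have h2 := Subgroup.mem_center_iff.mp (h1 (show (⟨a, hAD ha⟩ : ↥D) ∈ A.subgroupOf D from
          (by rw [mem_subgroupOf]; exact ha))) ⟨b, hAD hb⟩
        have h3 : b * a = a * b := congrArg Subtype.val h2
        exact h3.symm
    have hgK := hnA g hgn
    -- `D` is the only component
    have huniq : ∀ D' : Subgroup G, IsComponent D' → D' = D := by
      intro D' hD'
      by_contra hne
      rcases eq_or_commutator_eq_bot hD' hD with h1 | h1
      · exact hne h1
      · have hcom := commutator_eq_bot_iff_forall.mp h1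
        refine false_of_component hO hKt hgK (V := D') ?_ ?_ hD'
        · intro v hv
          rw [hK, mem_centralizer_iff]
          intro a ha
          exact (hcom v hv a (hAD ha)).symm
        · intro v hv
          exact (hcom v hv g hgD).symm
    have heq : layer G = D := by
      apply le_antisymm
      · exact sSup_le fun K' hK' => (huniq K' hK').le
      · exact le_layer hD
    have hAE : A ≤ layer G := by rw [heq]; exact hAD
    have hcl := centralizer_layer_eq_bot hO hKt hK hAE (by rw [heq]; exact hgD) hgK
    rw [heq] at hcl ⊢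
    have hcen : center ↥D = ⊥ := by
      rw [eq_bot_iff]
      intro z hz
      have h1 : (z : G) ∈ centralizer (D : Set G) := by
        rw [mem_centralizer_iff]
        intro d hd
        have := Subgroup.mem_center_iff.mp hz ⟨d, hd⟩
        exact congrArg Subtype.val this
      rw [hcl] at h1
      rw [Subgroup.mem_bot]
      exact Subtype.ext h1
    exact ⟨hAD, isSimpleGroup_of_center_eq_bot hD.2 hcen, not_isMulCommutative_of_isQuasisimple hD.2⟩
  · -- the diagonal
    right; left
    have hLD : A ≤ D ⊔ Cj t D := by
      rw [hdiag]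
      rintro _ ⟨k, _, rfl⟩
      exact k.2.1
    obtain ⟨π, hπ, hker, hAran, _⟩ := exists_range_of_ne ht hD hne hLt hcomp hLD
    have hDt : IsComponent (Cj t D) := isComponent_conj t hD
    have hc : ∀ a ∈ D, ∀ b ∈ Cj t D, a * b = b * a := by
      rcases eq_or_commutator_eq_bot hD hDt with h1 | h1
      · exact absurd h1.symm hne
      · exact commutator_eq_bot_iff_forall.mp h1
    have hqD := hD.2
    have hπmem : ∀ e ∈ D, e * (t * e * t⁻¹) ∈ A := by
      intro e he
      rw [hAran]
      exact ⟨⟨e, he⟩, hπ ⟨e, he⟩⟩
    have hAform : ∀ y ∈ A, ∃ f ∈ D, y = f * (t * f * t⁻¹) := by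
      intro y hy
      rw [hAran] at hy
      obtain ⟨f, rfl⟩ := hy
      exact ⟨f, f.2, hπ f⟩
    have hcj : ∀ e ∈ D, t * e * t⁻¹ ∈ Cj t D := fun e he => conj_mem_cj he
    have hcj2 : ∀ w ∈ Cj t D, t * w * t⁻¹ ∈ D := by
      rintro _ ⟨d, hd, rfl⟩
      have : t * ((MulAut.conj t).toMonoidHom d) * t⁻¹ = d := by
        change t * (t * d * t⁻¹) * t⁻¹ = d
        rw [htinv]
        calc t * (t * d * t) * t = (t * t) * d * (t * t) := by group
          _ = d := by rw [htt]; group
      rw [this]
      exact hd
    -- `D` does not normalize `A`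
    obtain ⟨g, hgD, hgn⟩ : ∃ g ∈ D, g ∉ normalizer (A : Set G) := by
      by_contra hno
      have hle : ∀ x ∈ D, x ∈ normalizer (A : Set G) := by
        intro x hx
        by_contra hxn
        exact hno ⟨x, hx, hxn⟩
      have hDab : D ≤ centralizer (D : Set G) := by
        conv_lhs => rw [← hperfD]
        rw [Subgroup.commutator_le]
        rintro x hx y hy
        rw [mem_centralizer_iff]
        intro b hb
        set e := x⁻¹ with he
        have heD : e ∈ D := inv_mem hx
        -- `y (e e^t) y⁻¹ = f f^t`
        obtain ⟨f, hf, hfe⟩ := hAform _ ((mem_normalizer_iff.mp (hle y hy) _).mp (hπmem e heD))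
        have h1 : y * (e * (t * e * t⁻¹)) * y⁻¹ = (y * e * y⁻¹) * (t * e * t⁻¹) := by
          have h0 : y * (t * e * t⁻¹) = (t * e * t⁻¹) * y := hc y hy _ (hcj e heD)
          calc y * (e * (t * e * t⁻¹)) * y⁻¹ = y * e * y⁻¹ * (y * (t * e * t⁻¹)) * y⁻¹ := by
                group
            _ = y * e * y⁻¹ * ((t * e * t⁻¹) * y) * y⁻¹ := by rw [h0]
            _ = _ := by group
        rw [h1] at hfe
        have hz1 : f⁻¹ * (y * e * y⁻¹) = (t * f * t⁻¹) * (t * e * t⁻¹)⁻¹ := by
          rw [inv_mul_eq_iff_eq_mul, ← mul_assoc, ← hfe]; group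
        have hzD : f⁻¹ * (y * e * y⁻¹) ∈ D :=
          mul_mem (inv_mem hf) (mul_mem (mul_mem hy heD) (inv_mem hy))
        have hzDt : f⁻¹ * (y * e * y⁻¹) ∈ Cj t D := by
          rw [hz1]
          exact mul_mem (hcj f hf) (inv_mem (hcj e heD))
        have hz'D : f * e⁻¹ ∈ D := mul_mem hf (inv_mem heD)
        have hz'Dt : f * e⁻¹ ∈ Cj t D := by
          have h2 := hcj _ hzD
          have h3 : t * (f⁻¹ * (y * e * y⁻¹)) * t⁻¹ = f * e⁻¹ := by
            rw [hz1, htinv]
            calc t * ((t * f * t) * (t * e * t)⁻¹) * t = (t * t) * f * e⁻¹ := by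
                  group
              _ = f * e⁻¹ := by rw [htt]; group
          rwa [h3] at h2
        -- both central in `D`
        have hZ1 : ∀ v ∈ D, (f⁻¹ * (y * e * y⁻¹)) * v = v * (f⁻¹ * (y * e * y⁻¹)) :=
          fun v hv => (hc v hv _ hzDt).symm
        have hZ2 : ∀ v ∈ D, (f * e⁻¹) * v = v * (f * e⁻¹) := fun v hv => (hc v hv _ hz'Dt).symm
        have hprod : ⁅x, y⁆ = e⁻¹ * (f * e⁻¹) * e * (f⁻¹ * (y * e * y⁻¹)) := by
          rw [he, commutatorElement_def]
          group
        have hZ3 : ∀ v ∈ D, ⁅x, y⁆ * v = v * ⁅x, y⁆ := by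
          intro v hv
          have e1 : e⁻¹ * (f * e⁻¹) * e = f * e⁻¹ := by
            have := hZ2 e heD
            calc e⁻¹ * (f * e⁻¹) * e = e⁻¹ * ((f * e⁻¹) * e) := by group
              _ = e⁻¹ * (e * (f * e⁻¹)) := by rw [this]
              _ = _ := by group
          rw [hprod, e1]
          calc f * e⁻¹ * (f⁻¹ * (y * e * y⁻¹)) * v
              = (f * e⁻¹) * ((f⁻¹ * (y * e * y⁻¹)) * v) := by group
            _ = (f * e⁻¹) * (v * (f⁻¹ * (y * e * y⁻¹))) := by rw [hZ1 v hv]
            _ = ((f * e⁻¹) * v) * (f⁻¹ * (y * e * y⁻¹)) := by group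
            _ = (v * (f * e⁻¹)) * (f⁻¹ * (y * e * y⁻¹)) := by rw [hZ2 v hv]
            _ = _ := by group
        exact (hZ3 b hb).symm
      apply not_isMulCommutative_of_isQuasisimple hqD
      refine ⟨⟨fun a b => Subtype.ext ?_⟩⟩
      exact (mem_centralizer_iff.mp (hDab a.2) b b.2).symm
    have hgK := hnA g hgn
    have huniq : ∀ D' : Subgroup G, IsComponent D' → D' = D ∨ D' = Cj t D := by
      intro D' hD'
      by_contra hno
      have h1 : D' ≠ D := fun h => hno (Or.inl h)
      have h2 : D' ≠ Cj t D := fun h => hno (Or.inr h)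
      have hc1 : ∀ a ∈ D', ∀ b ∈ D, a * b = b * a := by
        rcases eq_or_commutator_eq_bot hD' hD with h3 | h3
        · exact absurd h3 h1
        · exact commutator_eq_bot_iff_forall.mp h3
      have hc2 : ∀ a ∈ D', ∀ b ∈ Cj t D, a * b = b * a := by
        rcases eq_or_commutator_eq_bot hD' hDt with h3 | h3
        · exact absurd h3 h2
        · exact commutator_eq_bot_iff_forall.mp h3
      refine false_of_component hO hKt hgK (V := D') ?_ ?_ hD'
      · intro v hv
        rw [hK, mem_centralizer_iff]
        intro a ha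
        have h3 : D ⊔ Cj t D ≤ centralizer ({v} : Set G) := by
          refine sup_le ?_ ?_
          · intro x hx
            rw [mem_centralizer_singleton_iff]
            exact (hc1 v hv x hx).symm
          · intro x hx
            rw [mem_centralizer_singleton_iff]
            exact (hc2 v hv x hx).symm
        exact mem_centralizer_singleton_iff.mp (h3 (hLD ha))
      · intro v hv
        exact (hc1 v hv g hgD).symm
    have heq : D ⊔ Cj t D = layer G := by
      apply le_antisymm
      · exact sup_le (le_layer hD) (le_layer hDt)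
      · refine sSup_le fun K' hK' => ?_
        rcases huniq K' hK' with h1 | h1
        · rw [h1]; exact le_sup_left
        · rw [h1]; exact le_sup_right
    have hAE : A ≤ layer G := heq ▸ hLD
    have hcl := centralizer_layer_eq_bot hO hKt hK hAE (le_layer hD hgD) hgK
    -- the centre of `D`
    have hcent_mem : ∀ z : G, (∀ v ∈ D, z * v = v * z) → (∀ v ∈ Cj t D, z * v = v * z) → z = 1 := by
      intro z h1 h2
      have h3 : layer G ≤ centralizer ({z} : Set G) := by
        rw [← heq]
        refine sup_le ?_ ?_
        · intro x hx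
          rw [mem_centralizer_singleton_iff]
          exact (h1 x hx).symm
        · intro x hx
          rw [mem_centralizer_singleton_iff]
          exact (h2 x hx).symm
      have h4 : z ∈ centralizer (layer G : Set G) := by
        rw [mem_centralizer_iff]
        intro x hx
        exact mem_centralizer_singleton_iff.mp (h3 hx)
      rw [hcl] at h4
      exact h4
    have hcen : center ↥D = ⊥ := by
      rw [eq_bot_iff]
      intro z hz
      rw [Subgroup.mem_bot]
      apply Subtype.ext
      apply hcent_mem
      · intro v hv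
        have := Subgroup.mem_center_iff.mp hz ⟨v, hv⟩
        exact (congrArg Subtype.val this).symm
      · intro v hv
        exact hc _ z.2 v hv
    have hinter : D ⊓ Cj t D = ⊥ := by
      rw [eq_bot_iff]
      rintro x ⟨hx1, hx2⟩
      rw [Subgroup.mem_bot]
      apply hcent_mem
      · intro v hv
        exact (hc v hv x hx2).symm
      · intro v hv
        exact hc x hx1 v hv
    have hinj : Function.Injective π := by
      rw [← MonoidHom.ker_eq_bot_iff, eq_bot_iff, ← hcen]
      exact hker
    refine ⟨D, isSimpleGroup_of_center_eq_bot hqD hcen, not_isMulCommutative_of_isQuasisimple hqD,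
      ?_, hc, hinter, heq, ?_⟩
    · have : Nonempty (↥D ≃* ↥π.range) := ⟨MonoidHom.ofInjective hinj⟩
      rwa [← hAran] at this
    · -- `C_G(A) = ⟨t⟩`
      apply le_antisymm
      · intro y hy
        have hu : ∀ u ∈ K, D.map (MulAut.conj u).toMonoidHom = D →
            (Cj t D).map (MulAut.conj u).toMonoidHom = Cj t D → u = 1 := by
          intro u huK h1 h2
          have hkey : ∀ e ∈ D, u * e * u⁻¹ = e ∧ u * (t * e * t⁻¹) * u⁻¹ = t * e * t⁻¹ := by
            intro e he
            have he1 : u * e * u⁻¹ ∈ D := by rw [← h1]; exact ⟨e, he, rfl⟩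
            have he2 : u * (t * e * t⁻¹) * u⁻¹ ∈ Cj t D := by
              rw [← h2]; exact ⟨_, hcj e he, rfl⟩
            have hcomm : (e * (t * e * t⁻¹)) * u = u * (e * (t * e * t⁻¹)) :=
              mem_centralizer_iff.mp huK _ (hπmem e he)
            have h3 : (u * e * u⁻¹) * (u * (t * e * t⁻¹) * u⁻¹) = e * (t * e * t⁻¹) := by
              calc (u * e * u⁻¹) * (u * (t * e * t⁻¹) * u⁻¹)
                  = u * (e * (t * e * t⁻¹)) * u⁻¹ := by group
                _ = (e * (t * e * t⁻¹)) * u * u⁻¹ := by rw [hcomm]
                _ = _ := by group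
            have h4 : e⁻¹ * (u * e * u⁻¹) = (t * e * t⁻¹) * (u * (t * e * t⁻¹) * u⁻¹)⁻¹ := by
              rw [inv_mul_eq_iff_eq_mul, ← mul_assoc, eq_mul_inv_iff_mul_eq]
              exact h3
            have h5 : e⁻¹ * (u * e * u⁻¹) ∈ D ⊓ Cj t D := by
              refine ⟨Subgroup.mul_mem _ (Subgroup.inv_mem _ he) he1, ?_⟩
              rw [h4]
              exact Subgroup.mul_mem _ (hcj e he) (Subgroup.inv_mem _ he2)
            rw [hinter, Subgroup.mem_bot] at h5
            have h6 : u * e * u⁻¹ = e := by
              rw [inv_mul_eq_one] at h5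
              exact h5.symm
            refine ⟨h6, ?_⟩
            rw [h6] at h3
            exact mul_left_cancel h3
          apply hcent_mem
          · intro v hv
            have := (hkey v hv).1
            rw [mul_inv_eq_iff_eq_mul] at this
            exact this
          · rintro _ ⟨d, hd, rfl⟩
            have := (hkey d hd).2
            rw [mul_inv_eq_iff_eq_mul] at this
            exact this
        have hmapinj : ∀ (x : G) (H₁ H₂ : Subgroup G), H₁.map (MulAut.conj x).toMonoidHom =
            H₂.map (MulAut.conj x).toMonoidHom → H₁ = H₂ := by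
          intro x H₁ H₂ h
          exact Subgroup.map_injective (MulAut.conj x).injective h
        have hDDt := huniq _ (isComponent_conj y hDt)
        rcases huniq _ (isComponent_conj y hD) with h1 | h1
        · -- `D^y = D`
          have h2 : (Cj t D).map (MulAut.conj y).toMonoidHom = Cj t D := by
            rcases hDDt with h3 | h3
            · exfalso
              apply hne
              apply hmapinj y
              rw [h3, h1]
            · exact h3
          have := hu y hy h1 h2
          rw [this]
          exact one_mem _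
        · -- `D^y = D^t`
          have h2 : (Cj t D).map (MulAut.conj y).toMonoidHom = D := by
            rcases hDDt with h3 | h3
            · exact h3
            · exfalso
              apply hne
              apply hmapinj y
              rw [h3, h1]
          have hDtt : (Cj t D).map (MulAut.conj t).toMonoidHom = D := by
            rw [Subgroup.map_map]
            have : (MulAut.conj t).toMonoidHom.comp (MulAut.conj t).toMonoidHom = MonoidHom.id G := by
              ext x
              change t * (t * x * t⁻¹) * t⁻¹ = x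
              rw [htinv]
              calc t * (t * x * t) * t = (t * t) * x * (t * t) := by group
                _ = x := by rw [htt]; group
            rw [this, Subgroup.map_id]
          have hyt : y * t = 1 := by
            apply hu (y * t) (mul_mem hy htA)
            · rw [map_conj_mul]
              exact h2
            · rw [map_conj_mul, hDtt]
              exact h1
          have : y = t := by
            rw [← htinv]
            exact eq_inv_of_mul_eq_one_left hyt
          rw [this]
          exact mem_zpowers t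
      · exact zpowers_le.mpr htA

end Cfsg.Agent.Lib.Components.StdTri
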